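import Mathlib
import Cfsg.Agent.Helper9.Sb3

/-!
# Dickson's lemma over general fields, part 1: the group generated by `E(k)` and `L(k α)` (helper9)
-/

set_option autoImplicit false
open scoped MatrixGroups

namespace Cfsg.Agent.Helper9

section entries

variable {F : Type*} [Field F]

theorem sl2m00_h9 (x y : SL(2, F)) : (x * y).1 0 0 = x.1 0 0 * y.1 0 0 + x.1 0 1 * y.1 1 0 :=
  (sl2_mul_entries_h9 x y).1
theorem sl2m01_h9 (x y : SL(2, F)) : (x * y).1 0 1 = x.1 0 0 * y.1 0 1 + x.1 0 1 * y.1 1 1 :=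
  (sl2_mul_entries_h9 x y).2.1
theorem sl2m10_h9 (x y : SL(2, F)) : (x * y).1 1 0 = x.1 1 0 * y.1 0 0 + x.1 1 1 * y.1 1 0 :=
  (sl2_mul_entries_h9 x y).2.2.1
theorem sl2m11_h9 (x y : SL(2, F)) : (x * y).1 1 1 = x.1 1 0 * y.1 0 1 + x.1 1 1 * y.1 1 1 :=
  (sl2_mul_entries_h9 x y).2.2.2
theorem sl2i00_h9 (x : SL(2, F)) : (x⁻¹).1 0 0 = x.1 1 1 := (sl2_inv_entries_h9 x).1
theorem sl2i01_h9 (x : SL(2, F)) : (x⁻¹).1 0 1 = -x.1 0 1 := (sl2_inv_entries_h9 x).2.1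
theorem sl2i10_h9 (x : SL(2, F)) : (x⁻¹).1 1 0 = -x.1 1 0 := (sl2_inv_entries_h9 x).2.2.1
theorem sl2i11_h9 (x : SL(2, F)) : (x⁻¹).1 1 1 = x.1 0 0 := (sl2_inv_entries_h9 x).2.2.2
theorem sl2E00_h9 (u : F) : (sl2E_h9 u).1 0 0 = 1 := (sl2E_entries_h9 u).1
theorem sl2E01_h9 (u : F) : (sl2E_h9 u).1 0 1 = u := (sl2E_entries_h9 u).2.1
theorem sl2E10_h9 (u : F) : (sl2E_h9 u).1 1 0 = 0 := (sl2E_entries_h9 u).2.2.1
theorem sl2E11_h9 (u : F) : (sl2E_h9 u).1 1 1 = 1 := (sl2E_entries_h9 u).2.2.2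
theorem sl2L00_h9 (u : F) : (sl2L_h9 u).1 0 0 = 1 := (sl2L_entries_h9 u).1
theorem sl2L01_h9 (u : F) : (sl2L_h9 u).1 0 1 = 0 := (sl2L_entries_h9 u).2.1
theorem sl2L10_h9 (u : F) : (sl2L_h9 u).1 1 0 = u := (sl2L_entries_h9 u).2.2.1
theorem sl2L11_h9 (u : F) : (sl2L_h9 u).1 1 1 = 1 := (sl2L_entries_h9 u).2.2.2
theorem sl2D00_h9 (t : F) (ht : t ≠ 0) : (sl2D_h9 t ht).1 0 0 = t := (sl2D_entries_h9 t ht).1
theorem sl2D01_h9 (t : F) (ht : t ≠ 0) : (sl2D_h9 t ht).1 0 1 = 0 := (sl2D_entries_h9 t ht).2.1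
theorem sl2D10_h9 (t : F) (ht : t ≠ 0) : (sl2D_h9 t ht).1 1 0 = 0 := (sl2D_entries_h9 t ht).2.2.1
theorem sl2D11_h9 (t : F) (ht : t ≠ 0) : (sl2D_h9 t ht).1 1 1 = t⁻¹ :=
  (sl2D_entries_h9 t ht).2.2.2
theorem sl2Of00_h9 (a b c d : F) (h : a * d - b * c = 1) : (sl2Of_h9 a b c d h).1 0 0 = a :=
  (sl2Of_entries_h9 a b c d h).1
theorem sl2Of01_h9 (a b c d : F) (h : a * d - b * c = 1) : (sl2Of_h9 a b c d h).1 0 1 = b :=
  (sl2Of_entries_h9 a b c d h).2.1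
theorem sl2Of10_h9 (a b c d : F) (h : a * d - b * c = 1) : (sl2Of_h9 a b c d h).1 1 0 = c :=
  (sl2Of_entries_h9 a b c d h).2.2.1
theorem sl2Of11_h9 (a b c d : F) (h : a * d - b * c = 1) : (sl2Of_h9 a b c d h).1 1 1 = d :=
  (sl2Of_entries_h9 a b c d h).2.2.2

/-- a subgroup of `SL(2, F)` containing all elementary matrices is everything. -/
theorem sl2_gen_h9 (K : Subgroup SL(2, F)) (hE : ∀ t : F, sl2E_h9 t ∈ K)
    (hL : ∀ s : F, sl2L_h9 s ∈ K) : K = ⊤ := by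
  have key : ∀ g : SL(2, F), g.1 1 0 ≠ 0 → g ∈ K := by
    intro g hg
    have hdet := (sl2_entries_h9 g).2
    have e : g = sl2E_h9 ((g.1 0 0 - 1) / g.1 1 0) * sl2L_h9 (g.1 1 0) *
        sl2E_h9 ((g.1 1 1 - 1) / g.1 1 0) := by
      apply sl2_ext_h9 <;>
        simp only [sl2m00_h9, sl2m01_h9, sl2m10_h9, sl2m11_h9, sl2E00_h9, sl2E01_h9, sl2E10_h9,
          sl2E11_h9, sl2L00_h9, sl2L01_h9, sl2L10_h9, sl2L11_h9]
      · field_simp; ring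
      · field_simp; linear_combination -hdet
      · ring
      · field_simp; ring
    rw [e]
    exact K.mul_mem (K.mul_mem (hE _) (hL _)) (hE _)
  rw [eq_top_iff]
  intro g _
  by_cases hg : g.1 1 0 = 0
  · have hdet := (sl2_entries_h9 g).2
    have h1 : sl2L_h9 (1 : F) * g ∈ K := by
      apply key
      rw [sl2m10_h9, sl2L10_h9, sl2L11_h9, hg]
      intro h
      have h0 : g.1 0 0 = 0 := by linear_combination h
      rw [h0, hg] at hdet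
      simp at hdet
    have := K.mul_mem (K.inv_mem (hL 1)) h1
    rwa [inv_mul_cancel_left] at this
  · exact key g hg

theorem dl_conjD_entries_h9 (d : F) (hd : d ≠ 0) (x : SL(2, F)) :
    (sl2D_h9 d hd * x * (sl2D_h9 d hd)⁻¹).1 0 0 = x.1 0 0 ∧
    (sl2D_h9 d hd * x * (sl2D_h9 d hd)⁻¹).1 0 1 = d ^ 2 * x.1 0 1 ∧
    (sl2D_h9 d hd * x * (sl2D_h9 d hd)⁻¹).1 1 0 = x.1 1 0 / d ^ 2 ∧
    (sl2D_h9 d hd * x * (sl2D_h9 d hd)⁻¹).1 1 1 = x.1 1 1 := by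
  refine ⟨?_, ?_, ?_, ?_⟩ <;>
    simp only [sl2m00_h9, sl2m01_h9, sl2m10_h9, sl2m11_h9, sl2i00_h9, sl2i01_h9, sl2i10_h9,
      sl2i11_h9, sl2D00_h9, sl2D01_h9, sl2D10_h9, sl2D11_h9]
  · field_simp; ring
  · ring
  · field_simp; ring
  · field_simp; ring

theorem exists_good_scalar_h9 {k : Type*} [Field k] (h2 : (2 : k) ≠ 0) (h3 : Nat.card k ≠ 3) :
    ∃ c : k, c ≠ 0 ∧ c ^ 2 ≠ 1 := by
  classical
  by_contra hcon
  push_neg at hcon
  apply h3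
  have hall : ∀ c : k, c = 0 ∨ c = 1 ∨ c = -1 := by
    intro c
    by_cases hc : c = 0
    · exact Or.inl hc
    · have h1 := hcon c hc
      have h2' : (c - 1) * (c + 1) = 0 := by linear_combination h1
      rcases mul_eq_zero.mp h2' with h | h
      · right; left; exact sub_eq_zero.mp h
      · right; right; exact eq_neg_of_add_eq_zero_left h
  have h1 : (1 : k) ≠ -1 := by
    intro h
    apply h2
    linear_combination h
  letI : Fintype k := ⟨{0, 1, -1}, fun c => by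
    rcases hall c with h | h | h <;> simp [h]⟩
  rw [Nat.card_eq_fintype_card]
  show Finset.card ({0, 1, -1} : Finset k) = 3
  exact Finset.card_eq_three.mpr ⟨0, 1, -1, zero_ne_one, by simp, h1, rfl⟩

end entries

section group

variable (k : Type*) {F : Type*} [Field k] [Field F] [Algebra k F] (α : F)

/-- the subgroup generated by `E(c)` and `L(c α)`, `c ∈ k`. -/
def dlG_h9 : Subgroup SL(2, F) :=
  Subgroup.closure ({g | ∃ c : k, g = sl2E_h9 (algebraMap k F c)} ∪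
    {g | ∃ c : k, g = sl2L_h9 (algebraMap k F c * α)})

theorem dlG_E_h9 (c : k) : sl2E_h9 (algebraMap k F c) ∈ dlG_h9 k α :=
  Subgroup.subset_closure (Or.inl ⟨c, rfl⟩)

theorem dlG_L_h9 (c : k) : sl2L_h9 (algebraMap k F c * α) ∈ dlG_h9 k α :=
  Subgroup.subset_closure (Or.inr ⟨c, rfl⟩)

theorem dlG_map_h9 (f : SL(2, F) →* SL(2, F))
    (hE : ∀ c : k, f (sl2E_h9 (algebraMap k F c)) ∈ dlG_h9 k α)
    (hL : ∀ c : k, f (sl2L_h9 (algebraMap k F c * α)) ∈ dlG_h9 k α)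
    (g : SL(2, F)) (hg : g ∈ dlG_h9 k α) : f g ∈ dlG_h9 k α := by
  have h : dlG_h9 k α ≤ (dlG_h9 k α).comap f := by
    refine (Subgroup.closure_le _).mpr ?_
    rintro x (⟨c, rfl⟩ | ⟨c, rfl⟩)
    · exact hE c
    · exact hL c
  exact h hg

variable {k}

noncomputable def dlPhiFun_h9 (hα : α ≠ 0) (x : SL(2, F)) : SL(2, F) :=
  sl2Of_h9 (x.1 1 1) (-(x.1 1 0) / α) (-(α * x.1 0 1)) (x.1 0 0) (by
    have h := (sl2_entries_h9 x).2
    have e : -(x.1 1 0) / α * -(α * x.1 0 1) = x.1 1 0 * x.1 0 1 := by field_simp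
    rw [e]; linear_combination h)

theorem dlPhiFun00_h9 (hα : α ≠ 0) (x : SL(2, F)) : (dlPhiFun_h9 α hα x).1 0 0 = x.1 1 1 :=
  sl2Of00_h9 _ _ _ _ _
theorem dlPhiFun01_h9 (hα : α ≠ 0) (x : SL(2, F)) :
    (dlPhiFun_h9 α hα x).1 0 1 = -(x.1 1 0) / α := sl2Of01_h9 _ _ _ _ _
theorem dlPhiFun10_h9 (hα : α ≠ 0) (x : SL(2, F)) :
    (dlPhiFun_h9 α hα x).1 1 0 = -(α * x.1 0 1) := sl2Of10_h9 _ _ _ _ _
theorem dlPhiFun11_h9 (hα : α ≠ 0) (x : SL(2, F)) : (dlPhiFun_h9 α hα x).1 1 1 = x.1 0 0 :=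
  sl2Of11_h9 _ _ _ _ _

/-- the graph automorphism `x ↦ ω x ω⁻¹`, `ω = !![0, 1; -α, 0]`. -/
noncomputable def dlPhi_h9 (hα : α ≠ 0) : SL(2, F) →* SL(2, F) where
  toFun := dlPhiFun_h9 α hα
  map_one' := by
    obtain ⟨o00, o01, o10, o11⟩ := sl2_one_entries_h9 (F := F)
    apply sl2_ext_h9
    · rw [dlPhiFun00_h9, o11, o00]
    · rw [dlPhiFun01_h9, o10, o01]; simp
    · rw [dlPhiFun10_h9, o01, o10]; simp
    · rw [dlPhiFun11_h9, o00, o11]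
  map_mul' x y := by
    apply sl2_ext_h9 <;>
      simp only [sl2m00_h9, sl2m01_h9, sl2m10_h9, sl2m11_h9, dlPhiFun00_h9, dlPhiFun01_h9,
        dlPhiFun10_h9, dlPhiFun11_h9]
    · field_simp; ring
    · field_simp; ring
    · ring
    · field_simp; ring

theorem dlPhi_apply_h9 (hα : α ≠ 0) (x : SL(2, F)) : dlPhi_h9 α hα x = dlPhiFun_h9 α hα x := rfl

theorem dlPhi_E_h9 (hα : α ≠ 0) (t : F) : dlPhi_h9 α hα (sl2E_h9 t) = sl2L_h9 (-(α * t)) := by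
  rw [dlPhi_apply_h9]
  apply sl2_ext_h9
  · rw [dlPhiFun00_h9, sl2E11_h9, sl2L00_h9]
  · rw [dlPhiFun01_h9, sl2E10_h9, sl2L01_h9]; simp
  · rw [dlPhiFun10_h9, sl2E01_h9, sl2L10_h9]
  · rw [dlPhiFun11_h9, sl2E00_h9, sl2L11_h9]

theorem dlPhi_L_h9 (hα : α ≠ 0) (s : F) : dlPhi_h9 α hα (sl2L_h9 s) = sl2E_h9 (-s / α) := by
  rw [dlPhi_apply_h9]
  apply sl2_ext_h9
  · rw [dlPhiFun00_h9, sl2L11_h9, sl2E00_h9]
  · rw [dlPhiFun01_h9, sl2L10_h9, sl2E01_h9]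
  · rw [dlPhiFun10_h9, sl2L01_h9, sl2E10_h9]; simp
  · rw [dlPhiFun11_h9, sl2L00_h9, sl2E11_h9]

variable (k)

theorem dlPhi_mem_h9 (hα : α ≠ 0) (g : SL(2, F)) (hg : g ∈ dlG_h9 k α) :
    dlPhi_h9 α hα g ∈ dlG_h9 k α := by
  refine dlG_map_h9 k α (dlPhi_h9 α hα) ?_ ?_ g hg
  · intro c
    have e : -(α * algebraMap k F c) = algebraMap k F (-c) * α := by rw [map_neg]; ring
    rw [dlPhi_E_h9, e]; exact dlG_L_h9 k α (-c)
  · intro c
    have e : -(algebraMap k F c * α) / α = algebraMap k F (-c) := by rw [map_neg]; field_simp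
    rw [dlPhi_L_h9, e]; exact dlG_E_h9 k α (-c)

theorem dl_conjD_mem_h9 (c : k) (hc : c ≠ 0) (hd : algebraMap k F c ≠ 0) (g : SL(2, F))
    (hg : g ∈ dlG_h9 k α) :
    sl2D_h9 (algebraMap k F c) hd * g * (sl2D_h9 (algebraMap k F c) hd)⁻¹ ∈ dlG_h9 k α := by
  have key := dlG_map_h9 k α (MulAut.conj (sl2D_h9 (algebraMap k F c) hd)).toMonoidHom ?_ ?_ g hg
  · exact key
  · intro a
    show sl2D_h9 (algebraMap k F c) hd * sl2E_h9 (algebraMap k F a) *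
      (sl2D_h9 (algebraMap k F c) hd)⁻¹ ∈ _
    obtain ⟨c00, c01, c10, c11⟩ := dl_conjD_entries_h9 (algebraMap k F c) hd
      (sl2E_h9 (algebraMap k F a))
    have e : sl2D_h9 (algebraMap k F c) hd * sl2E_h9 (algebraMap k F a) *
        (sl2D_h9 (algebraMap k F c) hd)⁻¹ = sl2E_h9 (algebraMap k F (c ^ 2 * a)) := by
      apply sl2_ext_h9
      · rw [c00, sl2E00_h9, sl2E00_h9]
      · rw [c01, sl2E01_h9, sl2E01_h9, map_mul, map_pow]
      · rw [c10, sl2E10_h9, sl2E10_h9, zero_div]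
      · rw [c11, sl2E11_h9, sl2E11_h9]
    rw [e]; exact dlG_E_h9 k α _
  · intro a
    show sl2D_h9 (algebraMap k F c) hd * sl2L_h9 (algebraMap k F a * α) *
      (sl2D_h9 (algebraMap k F c) hd)⁻¹ ∈ _
    obtain ⟨c00, c01, c10, c11⟩ := dl_conjD_entries_h9 (algebraMap k F c) hd
      (sl2L_h9 (algebraMap k F a * α))
    have e : sl2D_h9 (algebraMap k F c) hd * sl2L_h9 (algebraMap k F a * α) *
        (sl2D_h9 (algebraMap k F c) hd)⁻¹ = sl2L_h9 (algebraMap k F (a / c ^ 2) * α) := by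
      apply sl2_ext_h9
      · rw [c00, sl2L00_h9, sl2L00_h9]
      · rw [c01, sl2L01_h9, sl2L01_h9, mul_zero]
      · rw [c10, sl2L10_h9, sl2L10_h9, map_div₀, map_pow]; ring
      · rw [c11, sl2L11_h9, sl2L11_h9]
    rw [e]; exact dlG_L_h9 k α _

/-- the parameters of the upper unitriangular elements of the group. -/
def dlT_h9 : AddSubgroup F where
  carrier := {t | sl2E_h9 t ∈ dlG_h9 k α}
  add_mem' := by
    intro a b ha hb
    show sl2E_h9 (a + b) ∈ dlG_h9 k α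
    rw [← sl2E_mul_h9]; exact (dlG_h9 k α).mul_mem ha hb
  zero_mem' := by
    show sl2E_h9 (0 : F) ∈ dlG_h9 k α
    rw [sl2E_zero_h9]; exact (dlG_h9 k α).one_mem
  neg_mem' := by
    intro a ha
    show sl2E_h9 (-a) ∈ dlG_h9 k α
    rw [← sl2E_inv_h9]; exact (dlG_h9 k α).inv_mem ha

theorem mem_dlT_h9 (t : F) : t ∈ dlT_h9 k α ↔ sl2E_h9 t ∈ dlG_h9 k α := Iff.rfl

theorem dlT_sq_h9 (c : k) (t : F) (ht : t ∈ dlT_h9 k α) :
    algebraMap k F c ^ 2 * t ∈ dlT_h9 k α := by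
  by_cases hc : c = 0
  · subst hc
    have : algebraMap k F 0 ^ 2 * t = 0 := by simp
    rw [this]; exact (dlT_h9 k α).zero_mem
  · have hd : algebraMap k F c ≠ 0 := (map_ne_zero _).mpr hc
    have h := dl_conjD_mem_h9 k α c hc hd _ ((mem_dlT_h9 k α t).mp ht)
    obtain ⟨c00, c01, c10, c11⟩ := dl_conjD_entries_h9 (algebraMap k F c) hd (sl2E_h9 t)
    have e : sl2D_h9 (algebraMap k F c) hd * sl2E_h9 t * (sl2D_h9 (algebraMap k F c) hd)⁻¹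
        = sl2E_h9 (algebraMap k F c ^ 2 * t) := by
      apply sl2_ext_h9
      · rw [c00, sl2E00_h9, sl2E00_h9]
      · rw [c01, sl2E01_h9, sl2E01_h9]
      · rw [c10, sl2E10_h9, sl2E10_h9, zero_div]
      · rw [c11, sl2E11_h9, sl2E11_h9]
    rw [e] at h
    exact h

theorem dlT_smul_h9 (h2 : (2 : k) ≠ 0) (c : k) (t : F) (ht : t ∈ dlT_h9 k α) :
    algebraMap k F c * t ∈ dlT_h9 k α := by
  have e : algebraMap k F c * t = algebraMap k F ((c + 1) / 2) ^ 2 * t -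
      algebraMap k F ((c - 1) / 2) ^ 2 * t := by
    have hc : c = ((c + 1) / 2) ^ 2 - ((c - 1) / 2) ^ 2 := by field_simp; ring
    conv_lhs => rw [hc]
    rw [map_sub, map_pow, map_pow]; ring
  rw [e]
  exact (dlT_h9 k α).sub_mem (dlT_sq_h9 k α _ t ht) (dlT_sq_h9 k α _ t ht)

theorem dl_L_of_E_h9 (hα : α ≠ 0) (t : F) (ht : t ∈ dlT_h9 k α) :
    sl2L_h9 (-(α * t)) ∈ dlG_h9 k α := by
  have := dlPhi_mem_h9 k α hα _ ((mem_dlT_h9 k α t).mp ht)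
  rwa [dlPhi_E_h9] at this

theorem dl_E_of_L_h9 (hα : α ≠ 0) (s : F) (hs : sl2L_h9 s ∈ dlG_h9 k α) :
    -s / α ∈ dlT_h9 k α := by
  have := dlPhi_mem_h9 k α hα _ hs
  rwa [dlPhi_L_h9] at this

theorem dl_top_h9 (hα : α ≠ 0) (hT : ∀ t : F, t ∈ dlT_h9 k α) : dlG_h9 k α = ⊤ := by
  apply sl2_gen_h9
  · intro t; exact (mem_dlT_h9 k α t).mp (hT t)
  · intro s
    have := dl_L_of_E_h9 k α hα (-(s / α)) (hT _)
    have e : -(α * -(s / α)) = s := by field_simp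
    rwa [e] at this

/-- upper triangular elements of the group have their unipotent part in the group. -/
theorem dl_borel_h9 (h2 : (2 : k) ≠ 0) (c : k) (hc0 : c ≠ 0) (hc1 : c ^ 2 ≠ 1)
    (X : SL(2, F)) (hX : X ∈ dlG_h9 k α) (h10 : X.1 1 0 = 0) :
    X.1 0 1 * X.1 1 1 ∈ dlT_h9 k α := by
  have hd : algebraMap k F c ≠ 0 := (map_ne_zero _).mpr hc0
  have hY := (dlG_h9 k α).mul_mem ((dlG_h9 k α).inv_mem hX) (dl_conjD_mem_h9 k α c hc0 hd X hX)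
  obtain ⟨c00, c01, c10, c11⟩ := dl_conjD_entries_h9 (algebraMap k F c) hd X
  have hdet := (sl2_entries_h9 X).2
  rw [h10] at hdet
  have e : X⁻¹ * (sl2D_h9 (algebraMap k F c) hd * X * (sl2D_h9 (algebraMap k F c) hd)⁻¹)
      = sl2E_h9 (algebraMap k F (c ^ 2 - 1) * (X.1 0 1 * X.1 1 1)) := by
    apply sl2_ext_h9
    · rw [sl2m00_h9, sl2i00_h9, sl2i01_h9, c00, c10, h10, sl2E00_h9]
      simp only [zero_div, mul_zero, add_zero]
      linear_combination hdet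
    · rw [sl2m01_h9, sl2i00_h9, sl2i01_h9, c01, c11, sl2E01_h9, map_sub, map_pow, map_one]; ring
    · rw [sl2m10_h9, sl2i10_h9, sl2i11_h9, c00, c10, h10, sl2E10_h9]; simp
    · rw [sl2m11_h9, sl2i10_h9, sl2i11_h9, c01, c11, h10, sl2E11_h9]
      simp only [neg_zero, zero_mul, zero_add]
      linear_combination hdet
  rw [e] at hY
  have hne : c ^ 2 - 1 ≠ 0 := sub_ne_zero.mpr hc1
  have h3 := dlT_smul_h9 k α h2 ((c ^ 2 - 1)⁻¹) _ ((mem_dlT_h9 k α _).mpr hY)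
  have e2 : algebraMap k F ((c ^ 2 - 1)⁻¹) * (algebraMap k F (c ^ 2 - 1) * (X.1 0 1 * X.1 1 1))
      = X.1 0 1 * X.1 1 1 := by
    rw [← mul_assoc, ← map_mul, inv_mul_cancel₀ hne, map_one, one_mul]
  rwa [e2] at h3

end group

end Cfsg.Agent.Helper9
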