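import Mathlib
import Cfsg.Agent.Helper9.Mn2
import Cfsg.Agent.Helper9.Ico8

/-!
# Groups with the numerical profile of `PSL(2, 11)`: subgroups isomorphic to `A₅`, part 1
(helper9)
-/

set_option autoImplicit false
open scoped Pointwise

namespace Cfsg.Agent.Helper9

section generic

variable {G : Type*} [Group G]

theorem mem_normalizer_of_conj_smul_h9 (V : Subgroup G) (k : G)
    (h : MulAut.conj k • V = V) : k ∈ Subgroup.normalizer (V : Set G) := by
  rw [Subgroup.mem_normalizer_iff]
  intro v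
  have h1 := Subgroup.smul_mem_pointwise_smul_iff (a := MulAut.conj k) (S := V) (x := v)
  rw [h, MulAut.smul_def, MulAut.conj_apply] at h1
  exact h1.symm

theorem mem_conj_smul_iff_h9 (V : Subgroup G) (g x : G) :
    x ∈ MulAut.conj g • V ↔ g⁻¹ * x * g ∈ V := by
  rw [Subgroup.mem_pointwise_smul_iff_inv_smul_mem, ← map_inv, MulAut.smul_def,
    MulAut.conj_apply, inv_inv]

theorem conj_mem_conj_smul_h9 (V : Subgroup G) (g v : G) (hv : v ∈ V) :
    g * v * g⁻¹ ∈ MulAut.conj g • V := by
  rw [mem_conj_smul_iff_h9]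
  have e : g⁻¹ * (g * v * g⁻¹) * g = v := by group
  rw [e]; exact hv

theorem conj_smul_card_h9 (V : Subgroup G) (g : G) :
    Nat.card (MulAut.conj g • V : Subgroup G) = Nat.card V :=
  (Nat.card_congr (Subgroup.equivSMul (MulAut.conj g) V).toEquiv).symm

theorem conj_smul_mul_h9 (V : Subgroup G) (g h : G) :
    MulAut.conj (g * h) • V = MulAut.conj g • MulAut.conj h • V := by
  rw [map_mul, mul_smul]

theorem conj_smul_inv_h9 (V W : Subgroup G) (g : G) (h : MulAut.conj g • V = W) :
    MulAut.conj g⁻¹ • W = V := by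
  rw [← h, ← conj_smul_mul_h9, inv_mul_cancel, map_one, one_smul]

/-- conjugacy of Sylow subgroups given as plain subgroups. -/
theorem sylow_conj_h9 [Finite G] (p : ℕ) [Fact p.Prime] (V W : Subgroup G)
    (hV : IsPGroup p V) (hW : IsPGroup p W) (hiV : ¬ p ∣ V.index) (hiW : ¬ p ∣ W.index) :
    ∃ g : G, MulAut.conj g • V = W := by
  obtain ⟨g, hg⟩ := MulAction.exists_smul_eq G (hV.toSylow hiV) (hW.toSylow hiW)
  refine ⟨g, ?_⟩
  have h1 : ((g • (hV.toSylow hiV) : Sylow p G) : Subgroup G) = MulAut.conj g • V :=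
    Sylow.coe_subgroup_smul
  rw [hg] at h1
  exact h1.symm

/-- conjugacy of Sylow subgroups inside a subgroup. -/
theorem sylow_conj_sub_h9 [Finite G] (p : ℕ) [Fact p.Prime] (n : ℕ) (X V W : Subgroup G)
    (hVX : V ≤ X) (hWX : W ≤ X) (hV : Nat.card V = p ^ n) (hW : Nat.card W = p ^ n)
    (hX : ¬ p ^ (n + 1) ∣ Nat.card X) : ∃ x ∈ X, MulAut.conj x • V = W := by
  have hcV : Nat.card (V.subgroupOf X) = p ^ n := by
    rw [Nat.card_congr (Subgroup.subgroupOfEquivOfLe hVX).toEquiv, hV]
  have hcW : Nat.card (W.subgroupOf X) = p ^ n := by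
    rw [Nat.card_congr (Subgroup.subgroupOfEquivOfLe hWX).toEquiv, hW]
  have hpV : IsPGroup p (V.subgroupOf X) := IsPGroup.of_card hcV
  have hpW : IsPGroup p (W.subgroupOf X) := IsPGroup.of_card hcW
  have hiV : ¬ p ∣ (V.subgroupOf X).index := by
    intro h
    apply hX
    have := Subgroup.card_mul_index (V.subgroupOf X)
    rw [hcV] at this
    rw [← this, pow_succ]
    exact Nat.mul_dvd_mul_left _ h
  have hiW : ¬ p ∣ (W.subgroupOf X).index := by
    intro h
    apply hX
    have := Subgroup.card_mul_index (W.subgroupOf X)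
    rw [hcW] at this
    rw [← this, pow_succ]
    exact Nat.mul_dvd_mul_left _ h
  obtain ⟨x, hx⟩ := sylow_conj_h9 p (V.subgroupOf X) (W.subgroupOf X) hpV hpW hiV hiW
  refine ⟨x.1, x.2, ?_⟩
  apply Subgroup.eq_of_le_of_card_ge
  · intro y hy
    rw [mem_conj_smul_iff_h9] at hy
    have hvX : (x.1)⁻¹ * y * x.1 ∈ X := hVX hy
    have h1 : (⟨(x.1)⁻¹ * y * x.1, hvX⟩ : X) ∈ V.subgroupOf X := by
      rw [Subgroup.mem_subgroupOf]; exact hy
    have h2 := conj_mem_conj_smul_h9 (V.subgroupOf X) x _ h1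
    rw [hx, Subgroup.mem_subgroupOf] at h2
    have e : ((x * ⟨(x.1)⁻¹ * y * x.1, hvX⟩ * x⁻¹ : X) : G) = y := by
      show x.1 * ((x.1)⁻¹ * y * x.1) * (x.1)⁻¹ = y
      group
    rw [e] at h2
    exact h2
  · rw [conj_smul_card_h9, hV, hW]

/-- a subgroup of order four is contained in its centralizer. -/
theorem four_le_cent_h9 (V : Subgroup G) (hV : Nat.card V = 4) :
    V ≤ Subgroup.centralizer (V : Set G) := by
  haveI : Fact (Nat.Prime 2) := ⟨by norm_num⟩
  intro v hv
  rw [Subgroup.mem_centralizer_iff]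
  intro w hw
  have hm : IsMulCommutative V :=
    IsPGroup.isMulCommutative_of_card_eq_prime_sq (p := 2) (G := V) (by rw [hV]; norm_num)
  have := hm.is_comm.comm (⟨w, hw⟩ : V) ⟨v, hv⟩
  exact congrArg Subtype.val this

/-- subgroups of order four in subgroups of order divisible by four. -/
theorem sub_four_h9 [Finite G] (X : Subgroup G) (h : 4 ∣ Nat.card X) :
    ∃ V : Subgroup G, Nat.card V = 4 ∧ V ≤ X := by
  haveI : Fact (Nat.Prime 2) := ⟨by norm_num⟩
  obtain ⟨K, hK⟩ := Sylow.exists_subgroup_card_pow_prime (G := X) 2 (n := 2) (by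
    norm_num; exact h)
  refine ⟨K.map X.subtype, ?_, ?_⟩
  · rw [Subgroup.card_subtype, hK]; norm_num
  · exact Subgroup.map_subtype_le K

/-- commutators lie in a normal subgroup of index three. -/
theorem comm_mem_of_index_three_h9 {X : Type*} [Group X] (N : Subgroup X) [N.Normal]
    (h : N.index = 3) (x y : X) : x * y * x⁻¹ * y⁻¹ ∈ N := by
  haveI : Fact (Nat.Prime 3) := ⟨by norm_num⟩
  have hQ : Nat.card (X ⧸ N) = 3 := by rw [← Subgroup.index_eq_card]; exact h
  haveI := isCyclic_of_prime_card hQ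
  have hcomm : ∀ u v : X ⧸ N, u * v = v * u :=
    fun u v => (IsCyclic.commGroup (α := X ⧸ N)).mul_comm u v
  rw [← QuotientGroup.eq_one_iff]
  rw [QuotientGroup.mk_mul, QuotientGroup.mk_mul, QuotientGroup.mk_mul, QuotientGroup.mk_inv,
    QuotientGroup.mk_inv]
  rw [hcomm (↑x) (↑y)]
  group

end generic

section simple

variable {X : Type*} [Group X] [Finite X] [IsSimpleGroup X]

/-- in a finite simple group whose Sylow `2`-subgroups have order four, such a subgroup is not
central in its normalizer, and is not normal. -/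
theorem norm_four_burn_h9 (V : Subgroup X) (hV : Nat.card V = 4) (hX : ¬ 8 ∣ Nat.card X)
    (h4 : Nat.card X ≠ 4) :
    ¬ (Subgroup.normalizer (V : Set X) ≤ Subgroup.centralizer (V : Set X)) ∧
      Subgroup.normalizer (V : Set X) ≠ ⊤ := by
  haveI : Fact (Nat.Prime 2) := ⟨by norm_num⟩
  have hp : IsPGroup 2 V := IsPGroup.of_card (n := 2) (by rw [hV]; norm_num)
  have hi : ¬ 2 ∣ V.index := by
    intro h
    apply hX
    have := Subgroup.card_mul_index V
    rw [hV] at this
    rw [← this]
    show 4 * 2 ∣ _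
    exact Nat.mul_dvd_mul_left 4 h
  have hb : V ≠ ⊥ := by
    intro h; rw [h, Subgroup.card_bot] at hV; omega
  have ht : V ≠ ⊤ := by
    intro h; rw [h, Subgroup.card_top] at hV; exact h4 hV
  constructor
  · intro hN
    exact burnside_simple_h9 2 V hp hi hb ht hN
  · intro hN
    have hn : V.Normal := Subgroup.normalizer_eq_top_iff.mp hN
    rcases hn.eq_bot_or_eq_top with h | h
    · exact hb h
    · exact ht h

theorem norm_four_ne_h9 (V : Subgroup X) (hV : Nat.card V = 4) (hX : ¬ 8 ∣ Nat.card X)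
    (h4 : Nat.card X ≠ 4) :
    Subgroup.normalizer (V : Set X) ≠ V ∧ Subgroup.normalizer (V : Set X) ≠ ⊤ := by
  obtain ⟨h1, h2⟩ := norm_four_burn_h9 V hV hX h4
  refine ⟨fun h => h1 ?_, h2⟩
  rw [h]
  exact four_le_cent_h9 V hV

/-- in a finite simple group with a Sylow `3`-subgroup `⟨a⟩` of order three, some element
inverts `a`. -/
theorem invert_three_h9 (a : X) (ha : orderOf a = 3) (hX : ¬ 9 ∣ Nat.card X)
    (h3 : Nat.card X ≠ 3) : ∃ s : X, s * a * s⁻¹ = a⁻¹ := by
  haveI : Fact (Nat.Prime 3) := ⟨by norm_num⟩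
  by_contra hcon
  push_neg at hcon
  have hA : Nat.card (Subgroup.zpowers a) = 3 := by rw [Nat.card_zpowers, ha]
  have hp : IsPGroup 3 (Subgroup.zpowers a) := IsPGroup.of_card (n := 1) (by rw [hA]; norm_num)
  have hi : ¬ 3 ∣ (Subgroup.zpowers a).index := by
    intro h
    apply hX
    have := Subgroup.card_mul_index (Subgroup.zpowers a)
    rw [hA] at this
    rw [← this]
    show 3 * 3 ∣ _
    exact Nat.mul_dvd_mul_left 3 h
  have hb : Subgroup.zpowers a ≠ ⊥ := by
    intro h; rw [h, Subgroup.card_bot] at hA; omega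
  have ht : Subgroup.zpowers a ≠ ⊤ := by
    intro h; rw [h, Subgroup.card_top] at hA; exact h3 hA
  apply burnside_simple_h9 3 (Subgroup.zpowers a) hp hi hb ht
  intro s hs
  have h1 : s * a * s⁻¹ ∈ Subgroup.zpowers a :=
    (Subgroup.mem_normalizer_iff.mp hs a).mp (Subgroup.mem_zpowers a)
  have ha1 : a ≠ 1 := by
    intro h; rw [h, orderOf_one] at ha; omega
  have hsa : s * a * s⁻¹ = a := by
    rcases order3_elems_h9 a _ ha h1 with h | h | h
    · exfalso; apply ha1
      have e : a = s⁻¹ * (s * a * s⁻¹) * s := by group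
      rw [e, h]; group
    · exact h
    · exact absurd h (hcon s)
  have hcomm : Commute s a := by
    show s * a = a * s
    calc s * a = s * a * s⁻¹ * s := by group
      _ = a * s := by rw [hsa]
  rw [Subgroup.mem_centralizer_iff]
  intro y hy
  obtain ⟨k, rfl⟩ := Subgroup.mem_zpowers_iff.mp hy
  exact ((hcomm.zpow_right k).eq).symm

end simple

/-- the numerical profile of `PSL(2, 11)`. -/
def Prof660_h9 (G : Type*) [Group G] : Prop :=
  Nat.card G = 660 ∧ IsSimpleGroup G ∧
  (∀ H : Subgroup G, Nat.card H ∈ ({1, 2, 3, 4, 5, 6, 10, 11, 12, 55, 60, 660} : Finset ℕ)) ∧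
  (∀ H : Subgroup G, Nat.card H = 60 → Nonempty (H ≃* alternatingGroup (Fin 5)))

section prof

variable {G : Type*} [Group G] [Finite G]

theorem p660_ord_h9 (hP : Prof660_h9 G) (H : Subgroup G) :
    Nat.card H = 1 ∨ Nat.card H = 2 ∨ Nat.card H = 3 ∨ Nat.card H = 4 ∨ Nat.card H = 5 ∨
    Nat.card H = 6 ∨ Nat.card H = 10 ∨ Nat.card H = 11 ∨ Nat.card H = 12 ∨ Nat.card H = 55 ∨
    Nat.card H = 60 ∨ Nat.card H = 660 := by
  have := hP.2.2.1 H
  simpa only [Finset.mem_insert, Finset.mem_singleton] using this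

/-- the normalizer of a four-subgroup has order 12. -/
theorem p660_norm4_h9 (hP : Prof660_h9 G) (V : Subgroup G) (hV : Nat.card V = 4) :
    Nat.card (Subgroup.normalizer (V : Set G)) = 12 := by
  haveI := hP.2.1
  have h0 := hP.1
  obtain ⟨hne, hnt⟩ := norm_four_ne_h9 V hV (by rw [h0]; norm_num) (by rw [h0]; norm_num)
  have hd : 4 ∣ Nat.card (Subgroup.normalizer (V : Set G)) := by
    rw [← hV]; exact Subgroup.card_dvd_of_le Subgroup.le_normalizer
  have ho := p660_ord_h9 hP (Subgroup.normalizer (V : Set G))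
  have h4 : Nat.card (Subgroup.normalizer (V : Set G)) ≠ 4 := by
    intro h
    apply hne
    exact (Subgroup.eq_of_le_of_card_ge Subgroup.le_normalizer (by rw [h, hV])).symm
  have h660 : Nat.card (Subgroup.normalizer (V : Set G)) ≠ 660 := by
    intro h
    apply hnt
    exact (Subgroup.card_eq_iff_eq_top _).mp (by rw [h, h0])
  have h60 : Nat.card (Subgroup.normalizer (V : Set G)) ≠ 60 := by
    intro h
    obtain ⟨e⟩ := hP.2.2.2 _ h
    haveI : IsSimpleGroup (Subgroup.normalizer (V : Set G)) := e.isSimpleGroup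
    have hn : (V.subgroupOf (Subgroup.normalizer (V : Set G))).Normal :=
      Subgroup.normal_in_normalizer
    have hc : Nat.card (V.subgroupOf (Subgroup.normalizer (V : Set G))) = 4 := by
      rw [Nat.card_congr (Subgroup.subgroupOfEquivOfLe Subgroup.le_normalizer).toEquiv, hV]
    rcases hn.eq_bot_or_eq_top with hb | ht
    · rw [hb, Subgroup.card_bot] at hc; omega
    · rw [ht, Subgroup.card_top, h] at hc; omega
  omega

/-- the normalizer of a four-subgroup of an `A₅`-subgroup lies in it. -/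
theorem p660_norm4_le_h9 (hP : Prof660_h9 G) (L : Subgroup G)
    (e : L ≃* alternatingGroup (Fin 5)) (V : Subgroup G) (hV : Nat.card V = 4) (hVL : V ≤ L) :
    Subgroup.normalizer (V : Set G) ≤ L := by
  haveI : IsSimpleGroup L := e.isSimpleGroup
  have hL : Nat.card L = 60 := by rw [Nat.card_congr e.toEquiv, card_A5_h9]
  have hcV : Nat.card (V.subgroupOf L) = 4 := by
    rw [Nat.card_congr (Subgroup.subgroupOfEquivOfLe hVL).toEquiv, hV]
  obtain ⟨hne, hnt⟩ := norm_four_ne_h9 (V.subgroupOf L) hcV (by rw [hL]; norm_num)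
    (by rw [hL]; norm_num)
  have hD : Nat.card (Subgroup.normalizer (V : Set G) ⊓ L : Subgroup G) =
      Nat.card (Subgroup.normalizer ((V.subgroupOf L : Subgroup L) : Set L)) := by
    rw [← Subgroup.subgroupOf_normalizer_eq hVL, ← Subgroup.inf_subgroupOf_right]
    exact (Nat.card_congr (Subgroup.subgroupOfEquivOfLe inf_le_right).toEquiv).symm
  have hd4 : 4 ∣ Nat.card (Subgroup.normalizer (V : Set G) ⊓ L : Subgroup G) := by
    rw [← hV]; exact Subgroup.card_dvd_of_le (le_inf Subgroup.le_normalizer hVL)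
  have hd60 : Nat.card (Subgroup.normalizer (V : Set G) ⊓ L : Subgroup G) ∣ 60 := by
    rw [← hL]; exact Subgroup.card_dvd_of_le inf_le_right
  have ho := p660_ord_h9 hP (Subgroup.normalizer (V : Set G) ⊓ L)
  have h4 : Nat.card (Subgroup.normalizer (V : Set G) ⊓ L : Subgroup G) ≠ 4 := by
    intro h
    apply hne
    exact (Subgroup.eq_of_le_of_card_ge Subgroup.le_normalizer (by rw [← hD, h, hcV])).symm
  have h60 : Nat.card (Subgroup.normalizer (V : Set G) ⊓ L : Subgroup G) ≠ 60 := by
    intro h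
    apply hnt
    exact (Subgroup.card_eq_iff_eq_top _).mp (by rw [← hD, h, hL])
  have h12 : Nat.card (Subgroup.normalizer (V : Set G) ⊓ L : Subgroup G) = 12 := by
    have hle := Nat.le_of_dvd (by norm_num) hd60
    omega
  have hN := p660_norm4_h9 hP V hV
  have heq : Subgroup.normalizer (V : Set G) ⊓ L = Subgroup.normalizer (V : Set G) :=
    Subgroup.eq_of_le_of_card_ge inf_le_left (by rw [h12, hN])
  rw [← heq]; exact inf_le_right

/-- every subgroup of order 60 is conjugate to one containing a given four-subgroup. -/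
theorem p660_conj_to_h9 (hP : Prof660_h9 G) (V₀ : Subgroup G) (hV₀ : Nat.card V₀ = 4)
    (L : Subgroup G) (hL : Nat.card L = 60) : ∃ g : G, V₀ ≤ MulAut.conj g • L := by
  haveI : Fact (Nat.Prime 2) := ⟨by norm_num⟩
  obtain ⟨V, hV, hVL⟩ := sub_four_h9 L (by rw [hL]; norm_num)
  obtain ⟨g, -, hg⟩ := sylow_conj_sub_h9 2 2 ⊤ V V₀ le_top le_top (by rw [hV]; norm_num)
    (by rw [hV₀]; norm_num) (by rw [Subgroup.card_top, hP.1]; norm_num)
  refine ⟨g, ?_⟩
  rw [← hg]
  exact Subgroup.pointwise_smul_le_pointwise_smul_iff.mpr hVL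

/-- subgroups of order 60 are self-normalizing. -/
theorem p660_self_norm_h9 (hP : Prof660_h9 G) (L : Subgroup G) (hL : Nat.card L = 60) :
    Subgroup.normalizer (L : Set G) = L := by
  haveI := hP.2.1
  have h0 := hP.1
  have hd : 60 ∣ Nat.card (Subgroup.normalizer (L : Set G)) := by
    rw [← hL]; exact Subgroup.card_dvd_of_le Subgroup.le_normalizer
  have ho := p660_ord_h9 hP (Subgroup.normalizer (L : Set G))
  have h660 : Nat.card (Subgroup.normalizer (L : Set G)) ≠ 660 := by
    intro h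
    have ht : Subgroup.normalizer (L : Set G) = ⊤ :=
      (Subgroup.card_eq_iff_eq_top _).mp (by rw [h, h0])
    have hn : L.Normal := Subgroup.normalizer_eq_top_iff.mp ht
    rcases hn.eq_bot_or_eq_top with hb | ht'
    · rw [hb, Subgroup.card_bot] at hL; omega
    · rw [ht', Subgroup.card_top, h0] at hL; omega
  have h60 : Nat.card (Subgroup.normalizer (L : Set G)) = 60 := by omega
  exact (Subgroup.eq_of_le_of_card_ge Subgroup.le_normalizer (by rw [h60, hL])).symm

/-- the conjugacy class of a subgroup of order 60 has 11 members. -/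
theorem p660_orbit_h9 (hP : Prof660_h9 G) (L : Subgroup G) (hL : Nat.card L = 60) :
    (Set.range (fun g : G => MulAut.conj g • L)).ncard = 11 := by
  let ψ : G ⧸ L → Subgroup G := Quotient.lift (fun g : G => MulAut.conj g • L) (by
    intro x y hxy
    have h : x⁻¹ * y ∈ L := QuotientGroup.leftRel_apply.mp hxy
    show MulAut.conj x • L = MulAut.conj y • L
    have e : y = x * (x⁻¹ * y) := by group
    rw [e, conj_smul_mul_h9, Subgroup.conj_smul_eq_self_of_mem h])
  have hψ : ∀ x : G, ψ (QuotientGroup.mk x) = MulAut.conj x • L := fun x => rfl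
  have hinj : Function.Injective ψ := by
    intro q q' h
    obtain ⟨x, rfl⟩ := QuotientGroup.mk_surjective q
    obtain ⟨y, rfl⟩ := QuotientGroup.mk_surjective q'
    rw [hψ, hψ] at h
    rw [QuotientGroup.eq]
    have h2 : MulAut.conj (x⁻¹ * y) • L = L := by
      rw [conj_smul_mul_h9, ← h, ← conj_smul_mul_h9, inv_mul_cancel, map_one, one_smul]
    have := mem_normalizer_of_conj_smul_h9 L _ h2
    rw [p660_self_norm_h9 hP L hL] at this
    exact this
  have hr : Set.range (fun g : G => MulAut.conj g • L) = Set.range ψ := by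
    ext K
    constructor
    · rintro ⟨g, rfl⟩; exact ⟨QuotientGroup.mk g, rfl⟩
    · rintro ⟨q, rfl⟩
      obtain ⟨x, rfl⟩ := QuotientGroup.mk_surjective q
      exact ⟨x, rfl⟩
  rw [hr, ← Nat.card_coe_set_eq, Nat.card_range_of_injective hinj, ← Subgroup.index_eq_card]
  have := Subgroup.card_mul_index L
  rw [hL, hP.1] at this
  omega

end prof

end Cfsg.Agent.Helper9
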