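import Mathlib
import Cfsg.Agent.Helper9.Dl1
import Cfsg.Agent.Helper9.Pa1

/-!
# Automorphisms of `PSL(2, F)`, part 1: the basic automorphisms (helper9)
-/

set_option autoImplicit false
open scoped MatrixGroups Pointwise

namespace Cfsg.Agent.Helper9

section basic

variable {F : Type*} [Field F]

/-- images of the upper elementary matrices in `PSL(2, F)`. -/
def eb_h9 (u : F) : Matrix.ProjectiveSpecialLinearGroup (Fin 2) F :=
  QuotientGroup.mk (sl2E_h9 u)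

/-- images of the lower elementary matrices in `PSL(2, F)`. -/
def lb_h9 (u : F) : Matrix.ProjectiveSpecialLinearGroup (Fin 2) F :=
  QuotientGroup.mk (sl2L_h9 u)

theorem sl2L_madd_h9 (u v : F) : sl2L_h9 u * sl2L_h9 v = sl2L_h9 (u + v) := by
  apply sl2_ext_h9 <;>
    simp only [sl2m00_h9, sl2m01_h9, sl2m10_h9, sl2m11_h9, sl2L00_h9, sl2L01_h9, sl2L10_h9,
      sl2L11_h9] <;> ring

theorem sl2L_mzero_h9 : sl2L_h9 (0 : F) = 1 := by
  obtain ⟨o00, o01, o10, o11⟩ := sl2_one_entries_h9 (F := F)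
  apply sl2_ext_h9
  · rw [sl2L00_h9, o00]
  · rw [sl2L01_h9, o01]
  · rw [sl2L10_h9, o10]
  · rw [sl2L11_h9, o11]

theorem eb_add_h9 (u v : F) : eb_h9 (u + v) = eb_h9 u * eb_h9 v := by
  unfold eb_h9
  rw [← QuotientGroup.mk_mul, sl2E_mul_h9]

theorem lb_add_h9 (u v : F) : lb_h9 (u + v) = lb_h9 u * lb_h9 v := by
  unfold lb_h9
  rw [← QuotientGroup.mk_mul, sl2L_madd_h9]

theorem eb_zero_h9 : eb_h9 (0 : F) = 1 := by
  unfold eb_h9
  rw [sl2E_zero_h9]; rfl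

theorem lb_zero_h9 : lb_h9 (0 : F) = 1 := by
  unfold lb_h9
  rw [sl2L_mzero_h9]; rfl

theorem eb_neg_h9 (u : F) : eb_h9 (-u) = (eb_h9 u)⁻¹ := by
  rw [eq_inv_iff_mul_eq_one, ← eb_add_h9, neg_add_cancel, eb_zero_h9]

theorem lb_neg_h9 (u : F) : lb_h9 (-u) = (lb_h9 u)⁻¹ := by
  rw [eq_inv_iff_mul_eq_one, ← lb_add_h9, neg_add_cancel, lb_zero_h9]

theorem eb_inj_h9 (u v : F) (h : eb_h9 u = eb_h9 v) : u = v := by
  unfold eb_h9 at h
  rw [psl2_mk_eq_iff_h9] at h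
  obtain ⟨n00, n01, n10, n11⟩ := sl2_neg_entries_h9 (sl2E_h9 v)
  rcases h with h | h
  · have := congrArg (fun x : SL(2, F) => x.1 0 1) h
    simpa only [sl2E01_h9] using this
  · have h1 := congrArg (fun x : SL(2, F) => x.1 0 0) h
    have h2 := congrArg (fun x : SL(2, F) => x.1 0 1) h
    simp only [sl2E00_h9, sl2E01_h9, n00, n01] at h1 h2
    rw [h2]
    linear_combination (-v) * h1

theorem lb_inj_h9 (u v : F) (h : lb_h9 u = lb_h9 v) : u = v := by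
  unfold lb_h9 at h
  rw [psl2_mk_eq_iff_h9] at h
  obtain ⟨n00, n01, n10, n11⟩ := sl2_neg_entries_h9 (sl2L_h9 v)
  rcases h with h | h
  · have := congrArg (fun x : SL(2, F) => x.1 1 0) h
    simpa only [sl2L10_h9] using this
  · have h1 := congrArg (fun x : SL(2, F) => x.1 0 0) h
    have h2 := congrArg (fun x : SL(2, F) => x.1 1 0) h
    simp only [sl2L00_h9, sl2L10_h9, n00, n10] at h1 h2
    rw [h2]
    linear_combination (-v) * h1

theorem lb_eq_eb_h9 (u v : F) (h : lb_h9 u = eb_h9 v) : u = 0 ∧ v = 0 := by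
  unfold lb_h9 eb_h9 at h
  rw [psl2_mk_eq_iff_h9] at h
  obtain ⟨n00, n01, n10, n11⟩ := sl2_neg_entries_h9 (sl2E_h9 v)
  rcases h with h | h
  · have h1 := congrArg (fun x : SL(2, F) => x.1 1 0) h
    have h2 := congrArg (fun x : SL(2, F) => x.1 0 1) h
    simp only [sl2L10_h9, sl2L01_h9, sl2E10_h9, sl2E01_h9] at h1 h2
    exact ⟨h1, h2.symm⟩
  · have h1 := congrArg (fun x : SL(2, F) => x.1 1 0) h
    have h2 := congrArg (fun x : SL(2, F) => x.1 0 1) h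
    simp only [sl2L10_h9, sl2L01_h9, sl2E10_h9, sl2E01_h9, n10, n01] at h1 h2
    refine ⟨by rw [h1, neg_zero], ?_⟩
    linear_combination h2

/-- `PSL(2, F)` is generated by the elementary elements. -/
theorem psl2_gen_h9 (K : Subgroup (Matrix.ProjectiveSpecialLinearGroup (Fin 2) F))
    (hE : ∀ t : F, eb_h9 t ∈ K) (hL : ∀ t : F, lb_h9 t ∈ K) : K = ⊤ := by
  have h := sl2_gen_h9 (K.comap (QuotientGroup.mk' (Subgroup.center SL(2, F))))
    (fun t => hE t) (fun t => hL t)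
  rw [eq_top_iff]
  intro x _
  obtain ⟨y, rfl⟩ := QuotientGroup.mk_surjective x
  have hy : y ∈ K.comap (QuotientGroup.mk' (Subgroup.center SL(2, F))) := by
    rw [h]; exact Subgroup.mem_top _
  exact hy

theorem psl2_aut_ext_h9 (f g : MulAut (Matrix.ProjectiveSpecialLinearGroup (Fin 2) F))
    (hE : ∀ t : F, f (eb_h9 t) = g (eb_h9 t)) (hL : ∀ t : F, f (lb_h9 t) = g (lb_h9 t)) :
    f = g := by
  have h := psl2_gen_h9 (MonoidHom.eqLocus f.toMonoidHom g.toMonoidHom) hE hL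
  apply MulEquiv.ext
  intro x
  have hx : x ∈ MonoidHom.eqLocus f.toMonoidHom g.toMonoidHom := by
    rw [h]; exact Subgroup.mem_top _
  exact hx

/-- lifting an automorphism of `SL(2, F)` to `PSL(2, F)`. -/
noncomputable def pslLift_h9 (θ : SL(2, F) ≃* SL(2, F)) :
    MulAut (Matrix.ProjectiveSpecialLinearGroup (Fin 2) F) :=
  QuotientGroup.congr (Subgroup.center SL(2, F)) (Subgroup.center SL(2, F)) θ
    (Subgroup.characteristic_iff_map_eq.mp Subgroup.centerCharacteristic θ)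

theorem pslLift_mk_h9 (θ : SL(2, F) ≃* SL(2, F)) (x : SL(2, F)) :
    pslLift_h9 θ (QuotientGroup.mk x) = QuotientGroup.mk (θ x) := rfl

/-- conjugation by `diag(a, 1)` on `SL(2, F)`. -/
def sl2DeltaFun_h9 (a : F) (ha : a ≠ 0) (x : SL(2, F)) : SL(2, F) :=
  sl2Of_h9 (x.1 0 0) (a * x.1 0 1) (a⁻¹ * x.1 1 0) (x.1 1 1) (by
    have hdet := (sl2_entries_h9 x).2
    have h1 : a * a⁻¹ = 1 := mul_inv_cancel₀ ha
    linear_combination hdet - x.1 0 1 * x.1 1 0 * h1)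

theorem sl2DeltaFun_mul_h9 (a : F) (ha : a ≠ 0) (x y : SL(2, F)) :
    sl2DeltaFun_h9 a ha (x * y) = sl2DeltaFun_h9 a ha x * sl2DeltaFun_h9 a ha y := by
  have h1 : a * a⁻¹ = 1 := mul_inv_cancel₀ ha
  apply sl2_ext_h9 <;>
    simp only [sl2DeltaFun_h9, sl2Of00_h9, sl2Of01_h9, sl2Of10_h9, sl2Of11_h9, sl2m00_h9,
      sl2m01_h9, sl2m10_h9, sl2m11_h9]
  · linear_combination (-(x.1 0 1 * y.1 1 0)) * h1
  · ring
  · ring
  · linear_combination (-(x.1 1 0 * y.1 0 1)) * h1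

theorem sl2DeltaFun_inv_h9 (a : F) (ha : a ≠ 0) (x : SL(2, F)) :
    sl2DeltaFun_h9 a⁻¹ (inv_ne_zero ha) (sl2DeltaFun_h9 a ha x) = x := by
  have h1 : a * a⁻¹ = 1 := mul_inv_cancel₀ ha
  apply sl2_ext_h9 <;>
    simp only [sl2DeltaFun_h9, sl2Of00_h9, sl2Of01_h9, sl2Of10_h9, sl2Of11_h9, inv_inv]
  · linear_combination (x.1 0 1) * h1
  · linear_combination (x.1 1 0) * h1

theorem sl2DeltaFun_inv'_h9 (a : F) (ha : a ≠ 0) (x : SL(2, F)) :
    sl2DeltaFun_h9 a ha (sl2DeltaFun_h9 a⁻¹ (inv_ne_zero ha) x) = x := by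
  have h1 : a * a⁻¹ = 1 := mul_inv_cancel₀ ha
  apply sl2_ext_h9 <;>
    simp only [sl2DeltaFun_h9, sl2Of00_h9, sl2Of01_h9, sl2Of10_h9, sl2Of11_h9, inv_inv]
  · linear_combination (x.1 0 1) * h1
  · linear_combination (x.1 1 0) * h1

/-- conjugation by `diag(a, 1)` as an automorphism of `SL(2, F)`. -/
def sl2Delta_h9 (a : F) (ha : a ≠ 0) : SL(2, F) ≃* SL(2, F) where
  toFun := sl2DeltaFun_h9 a ha
  invFun := sl2DeltaFun_h9 a⁻¹ (inv_ne_zero ha)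
  left_inv := sl2DeltaFun_inv_h9 a ha
  right_inv := sl2DeltaFun_inv'_h9 a ha
  map_mul' := sl2DeltaFun_mul_h9 a ha

theorem sl2Delta_apply_h9 (a : F) (ha : a ≠ 0) (x : SL(2, F)) :
    sl2Delta_h9 a ha x = sl2DeltaFun_h9 a ha x := rfl

theorem sl2Delta_E_h9 (a : F) (ha : a ≠ 0) (u : F) :
    sl2Delta_h9 a ha (sl2E_h9 u) = sl2E_h9 (a * u) := by
  rw [sl2Delta_apply_h9]
  apply sl2_ext_h9 <;>
    simp only [sl2DeltaFun_h9, sl2Of00_h9, sl2Of01_h9, sl2Of10_h9, sl2Of11_h9, sl2E00_h9,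
      sl2E01_h9, sl2E10_h9, sl2E11_h9, mul_zero]

theorem sl2Delta_L_h9 (a : F) (ha : a ≠ 0) (u : F) :
    sl2Delta_h9 a ha (sl2L_h9 u) = sl2L_h9 (a⁻¹ * u) := by
  rw [sl2Delta_apply_h9]
  apply sl2_ext_h9 <;>
    simp only [sl2DeltaFun_h9, sl2Of00_h9, sl2Of01_h9, sl2Of10_h9, sl2Of11_h9, sl2L00_h9,
      sl2L01_h9, sl2L10_h9, sl2L11_h9, mul_zero]

/-- the automorphism of `SL(2, F)` induced by a field automorphism. -/
def sl2MapEquiv_h9 (τ : F ≃+* F) : SL(2, F) ≃* SL(2, F) where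
  toFun := Matrix.SpecialLinearGroup.map τ.toRingHom
  invFun := Matrix.SpecialLinearGroup.map τ.symm.toRingHom
  left_inv x := by
    apply sl2_ext_h9 <;> simp only [sl2_map_entry_h9] <;> exact τ.symm_apply_apply _
  right_inv x := by
    apply sl2_ext_h9 <;> simp only [sl2_map_entry_h9] <;> exact τ.apply_symm_apply _
  map_mul' x y := map_mul _ x y

theorem sl2MapEquiv_E_h9 (τ : F ≃+* F) (u : F) :
    sl2MapEquiv_h9 τ (sl2E_h9 u) = sl2E_h9 (τ u) :=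
  sl2_map_E_h9 τ.toRingHom u

theorem sl2MapEquiv_L_h9 (τ : F ≃+* F) (u : F) :
    sl2MapEquiv_h9 τ (sl2L_h9 u) = sl2L_h9 (τ u) :=
  sl2_map_L_h9 τ.toRingHom u

/-- the diagonal automorphism of `PSL(2, F)`. -/
noncomputable def dlt_h9 (a : Fˣ) : MulAut (Matrix.ProjectiveSpecialLinearGroup (Fin 2) F) :=
  pslLift_h9 (sl2Delta_h9 (a : F) a.ne_zero)

/-- the field automorphism of `PSL(2, F)`. -/
noncomputable def psi_h9 (τ : F ≃+* F) : MulAut (Matrix.ProjectiveSpecialLinearGroup (Fin 2) F) :=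
  pslLift_h9 (sl2MapEquiv_h9 τ)

theorem dlt_eb_h9 (a : Fˣ) (u : F) : dlt_h9 a (eb_h9 u) = eb_h9 ((a : F) * u) := by
  unfold dlt_h9 eb_h9
  rw [pslLift_mk_h9, sl2Delta_E_h9]

theorem dlt_lb_h9 (a : Fˣ) (u : F) : dlt_h9 a (lb_h9 u) = lb_h9 ((a : F)⁻¹ * u) := by
  unfold dlt_h9 lb_h9
  rw [pslLift_mk_h9, sl2Delta_L_h9]

theorem psi_eb_h9 (τ : F ≃+* F) (u : F) : psi_h9 τ (eb_h9 u) = eb_h9 (τ u) := by
  unfold psi_h9 eb_h9
  rw [pslLift_mk_h9, sl2MapEquiv_E_h9]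

theorem psi_lb_h9 (τ : F ≃+* F) (u : F) : psi_h9 τ (lb_h9 u) = lb_h9 (τ u) := by
  unfold psi_h9 lb_h9
  rw [pslLift_mk_h9, sl2MapEquiv_L_h9]

theorem dlt_mul_h9 (a b : Fˣ) : dlt_h9 (a * b) = dlt_h9 a * dlt_h9 (F := F) b := by
  apply psl2_aut_ext_h9
  · intro t
    rw [MulAut.mul_apply, dlt_eb_h9, dlt_eb_h9, dlt_eb_h9, Units.val_mul, mul_assoc]
  · intro t
    rw [MulAut.mul_apply, dlt_lb_h9, dlt_lb_h9, dlt_lb_h9, Units.val_mul, mul_inv, mul_assoc]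

theorem dlt_one_h9 : dlt_h9 (1 : Fˣ) = 1 := by
  apply psl2_aut_ext_h9
  · intro t
    rw [dlt_eb_h9, Units.val_one, one_mul]; rfl
  · intro t
    rw [dlt_lb_h9, Units.val_one, inv_one, one_mul]; rfl

/-- the diagonal automorphisms as a homomorphism. -/
noncomputable def dltHom_h9 (F : Type*) [Field F] :
    Fˣ →* MulAut (Matrix.ProjectiveSpecialLinearGroup (Fin 2) F) where
  toFun := dlt_h9
  map_one' := dlt_one_h9
  map_mul' := dlt_mul_h9

theorem psi_mul_h9 (τ₁ τ₂ : F ≃+* F) :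
    psi_h9 (τ₂.trans τ₁) = psi_h9 τ₁ * psi_h9 τ₂ := by
  apply psl2_aut_ext_h9
  · intro t
    rw [MulAut.mul_apply, psi_eb_h9, psi_eb_h9, psi_eb_h9]; rfl
  · intro t
    rw [MulAut.mul_apply, psi_lb_h9, psi_lb_h9, psi_lb_h9]; rfl

theorem psi_refl_h9 : psi_h9 (RingEquiv.refl F) = 1 := by
  apply psl2_aut_ext_h9
  · intro t
    rw [psi_eb_h9]; rfl
  · intro t
    rw [psi_lb_h9]; rfl

theorem psi_symm_h9 (τ : F ≃+* F) : psi_h9 τ.symm = (psi_h9 τ)⁻¹ := by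
  rw [eq_inv_iff_mul_eq_one, ← psi_mul_h9]
  have : τ.trans τ.symm = RingEquiv.refl F := by
    ext x; simp
  rw [this, psi_refl_h9]

/-- field automorphisms normalize the diagonal automorphisms. -/
theorem psi_dlt_h9 (τ : F ≃+* F) (a : Fˣ) :
    psi_h9 τ * dlt_h9 a * (psi_h9 τ)⁻¹ = dlt_h9 (Units.map τ.toRingHom.toMonoidHom a) := by
  rw [← psi_symm_h9]
  apply psl2_aut_ext_h9
  · intro t
    rw [MulAut.mul_apply, MulAut.mul_apply, psi_eb_h9, dlt_eb_h9, psi_eb_h9, dlt_eb_h9]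
    congr 1
    simp
  · intro t
    rw [MulAut.mul_apply, MulAut.mul_apply, psi_lb_h9, dlt_lb_h9, psi_lb_h9, dlt_lb_h9]
    congr 1
    simp

end basic

end Cfsg.Agent.Helper9
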