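import Mathlib
import Cfsg.Agent.Helper9.Au1

/-!
# Automorphisms of `PSL(2, F)`, part 2: the unipotent subgroups are Sylow; normalizing an
automorphism (helper9)
-/

set_option autoImplicit false
open scoped MatrixGroups Pointwise

namespace Cfsg.Agent.Helper9

section homs

variable (F : Type*) [Field F]

/-- the upper unipotent subgroup as a homomorphism. -/
def ebHom_h9 : Multiplicative F →* Matrix.ProjectiveSpecialLinearGroup (Fin 2) F where
  toFun u := eb_h9 (Multiplicative.toAdd u)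
  map_one' := eb_zero_h9
  map_mul' u v := eb_add_h9 _ _

/-- the lower unipotent subgroup as a homomorphism. -/
def lbHom_h9 : Multiplicative F →* Matrix.ProjectiveSpecialLinearGroup (Fin 2) F where
  toFun u := lb_h9 (Multiplicative.toAdd u)
  map_one' := lb_zero_h9
  map_mul' u v := lb_add_h9 _ _

variable {F}

theorem mem_ub_h9 (x : Matrix.ProjectiveSpecialLinearGroup (Fin 2) F) :
    x ∈ (ebHom_h9 F).range ↔ ∃ u : F, eb_h9 u = x := by
  rw [MonoidHom.mem_range]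
  constructor
  · rintro ⟨u, rfl⟩; exact ⟨Multiplicative.toAdd u, rfl⟩
  · rintro ⟨u, rfl⟩; exact ⟨Multiplicative.ofAdd u, rfl⟩

theorem mem_lbr_h9 (x : Matrix.ProjectiveSpecialLinearGroup (Fin 2) F) :
    x ∈ (lbHom_h9 F).range ↔ ∃ u : F, lb_h9 u = x := by
  rw [MonoidHom.mem_range]
  constructor
  · rintro ⟨u, rfl⟩; exact ⟨Multiplicative.toAdd u, rfl⟩
  · rintro ⟨u, rfl⟩; exact ⟨Multiplicative.ofAdd u, rfl⟩

theorem ebHom_inj_h9 : Function.Injective (ebHom_h9 F) := by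
  intro u v h
  exact Multiplicative.toAdd.injective (eb_inj_h9 _ _ h)

theorem lbHom_inj_h9 : Function.Injective (lbHom_h9 F) := by
  intro u v h
  exact Multiplicative.toAdd.injective (lb_inj_h9 _ _ h)

theorem ub_card_h9 : Nat.card (ebHom_h9 F).range = Nat.card F := by
  rw [← Nat.card_congr (MonoidHom.ofInjective (ebHom_inj_h9 (F := F))).toEquiv]
  exact Nat.card_congr Multiplicative.toAdd

theorem lbr_card_h9 : Nat.card (lbHom_h9 F).range = Nat.card F := by
  rw [← Nat.card_congr (MonoidHom.ofInjective (lbHom_inj_h9 (F := F))).toEquiv]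
  exact Nat.card_congr Multiplicative.toAdd

/-- conjugating an upper elementary matrix by a matrix with nonzero lower left entry. -/
theorem sl2_bruhat_conj_h9 (M : SL(2, F)) (a₀ : F) (ha : M.1 0 0 = a₀ * M.1 1 0) (w : F) :
    M * sl2E_h9 w = sl2E_h9 a₀ * sl2L_h9 (-(M.1 1 0) ^ 2 * w) * sl2E_h9 (-a₀) * M := by
  have hdet := (sl2_entries_h9 M).2
  rw [ha] at hdet
  apply sl2_ext_h9 <;>
    simp only [sl2m00_h9, sl2m01_h9, sl2m10_h9, sl2m11_h9, sl2E00_h9, sl2E01_h9, sl2E10_h9,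
      sl2E11_h9, sl2L00_h9, sl2L01_h9, sl2L10_h9, sl2L11_h9, ha]
  · ring
  · linear_combination (-(a₀ * M.1 1 0 * w)) * hdet
  · ring
  · linear_combination (-(M.1 1 0 * w)) * hdet

/-- conjugating an upper elementary matrix by an upper triangular matrix. -/
theorem sl2_upper_conj_h9 (M : SL(2, F)) (h0 : M.1 1 0 = 0) (w : F) :
    M * sl2E_h9 w = sl2E_h9 ((M.1 0 0) ^ 2 * w) * M := by
  have hdet := (sl2_entries_h9 M).2
  rw [h0] at hdet
  apply sl2_ext_h9 <;>
    simp only [sl2m00_h9, sl2m01_h9, sl2m10_h9, sl2m11_h9, sl2E00_h9, sl2E01_h9, sl2E10_h9,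
      sl2E11_h9, h0]
  · ring
  · linear_combination (-(M.1 0 0 * w)) * hdet
  · ring
  · ring

end homs

section sylow

variable {F : Type*} [Field F] [Fintype F] {p f : ℕ} [Fact p.Prime]

theorem psl2_card_eq_h9 (hF : Fintype.card F = p ^ f) :
    Nat.gcd 2 (p ^ f - 1) * ((p ^ f - 1) *
      Nat.card (Matrix.ProjectiveSpecialLinearGroup (Fin 2) F)) =
      ((p ^ f) ^ 2 - 1) * ((p ^ f) ^ 2 - p ^ f) := by
  have h := Cfsg.Agent.S0243.result (F := F) (q := p ^ f) hF 2 (le_refl 2)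
  rw [Fin.prod_univ_two] at h
  simpa only [Fin.val_zero, Fin.val_one, pow_zero, pow_one] using h

theorem psl2_finite_h9 (hF : Fintype.card F = p ^ f) (hf : 1 ≤ f) :
    Finite (Matrix.ProjectiveSpecialLinearGroup (Fin 2) F) := by
  apply Nat.finite_of_card_ne_zero
  intro h0
  have h := psl2_card_eq_h9 (F := F) hF
  rw [h0, mul_zero, mul_zero] at h
  have hp := (Fact.out : p.Prime).two_le
  have hq : 2 ≤ p ^ f := by
    calc 2 ≤ p := hp
      _ = p ^ 1 := (pow_one p).symm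
      _ ≤ p ^ f := Nat.pow_le_pow_right (by omega) hf
  have h2 : p ^ f < (p ^ f) ^ 2 := by nlinarith
  have h3 : 0 < ((p ^ f) ^ 2 - 1) * ((p ^ f) ^ 2 - p ^ f) :=
    Nat.mul_pos (by omega) (by omega)
  omega

/-- a subgroup of order `q` of `PSL(2, q)` has index prime to `p`. -/
theorem psl2_index_h9 (hF : Fintype.card F = p ^ f) (hf : 1 ≤ f)
    (V : Subgroup (Matrix.ProjectiveSpecialLinearGroup (Fin 2) F)) (hV : Nat.card V = p ^ f) :
    ¬ p ∣ V.index := by
  intro hdvd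
  have h := psl2_card_eq_h9 (F := F) hF
  have hidx := Subgroup.card_mul_index V
  rw [hV] at hidx
  rw [← hidx] at h
  have hp := (Fact.out : p.Prime)
  have hq : 2 ≤ p ^ f := by
    calc 2 ≤ p := hp.two_le
      _ = p ^ 1 := (pow_one p).symm
      _ ≤ p ^ f := Nat.pow_le_pow_right (by have := hp.two_le; omega) hf
  have e1 : (p ^ f) ^ 2 - p ^ f = p ^ f * (p ^ f - 1) := by
    rw [Nat.mul_sub, mul_one, sq]
  rw [e1] at h
  have h' : (p ^ f * (p ^ f - 1)) * (Nat.gcd 2 (p ^ f - 1) * V.index) =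
      (p ^ f * (p ^ f - 1)) * ((p ^ f) ^ 2 - 1) := by
    calc (p ^ f * (p ^ f - 1)) * (Nat.gcd 2 (p ^ f - 1) * V.index)
        = Nat.gcd 2 (p ^ f - 1) * ((p ^ f - 1) * (p ^ f * V.index)) := by ring
      _ = ((p ^ f) ^ 2 - 1) * (p ^ f * (p ^ f - 1)) := h
      _ = (p ^ f * (p ^ f - 1)) * ((p ^ f) ^ 2 - 1) := by ring
  have hpos : 0 < p ^ f * (p ^ f - 1) := Nat.mul_pos (by omega) (by omega)
  have h'' := Nat.eq_of_mul_eq_mul_left hpos h'
  have hd1 : p ∣ (p ^ f) ^ 2 - 1 := by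
    rw [← h'']; exact Dvd.dvd.mul_left hdvd _
  have hd2 : p ∣ (p ^ f) ^ 2 := by
    apply dvd_pow _ (by norm_num)
    exact dvd_pow_self p (by omega)
  have hd3 : p ∣ (p ^ f) ^ 2 - ((p ^ f) ^ 2 - 1) := Nat.dvd_sub hd2 hd1
  have h4 : (p ^ f) ^ 2 - ((p ^ f) ^ 2 - 1) = 1 := by
    have : 1 ≤ (p ^ f) ^ 2 := Nat.one_le_pow _ _ (by omega)
    omega
  rw [h4] at hd3
  have := hp.two_le
  have := Nat.le_of_dvd (by norm_num) hd3
  omega

/-- an automorphism can be normalized to preserve the upper unipotent subgroup. -/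
theorem aut_norm1_h9 (hF : Fintype.card F = p ^ f) (hf : 1 ≤ f)
    (α : MulAut (Matrix.ProjectiveSpecialLinearGroup (Fin 2) F)) :
    ∃ g : Matrix.ProjectiveSpecialLinearGroup (Fin 2) F,
      ∀ u : F, ∃ v : F, (MulAut.conj g * α) (eb_h9 u) = eb_h9 v := by
  haveI := psl2_finite_h9 (F := F) hF hf
  have hcU : Nat.card (ebHom_h9 F).range = p ^ f := by
    rw [ub_card_h9, Nat.card_eq_fintype_card, hF]
  have hcU' : Nat.card ((ebHom_h9 F).range.map α.toMonoidHom) = p ^ f := by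
    rw [Subgroup.card_map_of_injective α.injective, hcU]
  obtain ⟨g, hg⟩ := sylow_conj_h9 p _ _ (IsPGroup.of_card hcU') (IsPGroup.of_card hcU)
    (psl2_index_h9 hF hf _ hcU') (psl2_index_h9 hF hf _ hcU)
  refine ⟨g, fun u => ?_⟩
  have h1 : α (eb_h9 u) ∈ (ebHom_h9 F).range.map α.toMonoidHom :=
    Subgroup.mem_map_of_mem _ ((mem_ub_h9 _).mpr ⟨u, rfl⟩)
  have h2 := conj_mem_conj_smul_h9 _ g _ h1
  rw [hg, mem_ub_h9] at h2
  obtain ⟨v, hv⟩ := h2
  exact ⟨v, by rw [MulAut.mul_apply, MulAut.conj_apply, hv]⟩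

/-- an automorphism preserving the upper unipotent subgroup can be normalized to preserve
the lower one as well. -/
theorem aut_norm2_h9 (hF : Fintype.card F = p ^ f) (hf : 1 ≤ f)
    (α : MulAut (Matrix.ProjectiveSpecialLinearGroup (Fin 2) F))
    (hα : ∀ u : F, ∃ v : F, α (eb_h9 u) = eb_h9 v) :
    ∃ a₀ : F, ∀ u : F, ∃ v : F, (MulAut.conj (eb_h9 a₀) * α) (lb_h9 u) = lb_h9 v := by
  haveI := psl2_finite_h9 (F := F) hF hf
  have hcU : Nat.card (ebHom_h9 F).range = p ^ f := by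
    rw [ub_card_h9, Nat.card_eq_fintype_card, hF]
  have hcL : Nat.card (lbHom_h9 F).range = p ^ f := by
    rw [lbr_card_h9, Nat.card_eq_fintype_card, hF]
  have hcL' : Nat.card ((lbHom_h9 F).range.map α.toMonoidHom) = p ^ f := by
    rw [Subgroup.card_map_of_injective α.injective, hcL]
  have hcU' : Nat.card ((ebHom_h9 F).range.map α.toMonoidHom) = p ^ f := by
    rw [Subgroup.card_map_of_injective α.injective, hcU]
  obtain ⟨h, hh⟩ := sylow_conj_h9 p _ _ (IsPGroup.of_card hcU) (IsPGroup.of_card hcL')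
    (psl2_index_h9 hF hf _ hcU) (psl2_index_h9 hF hf _ hcL')
  obtain ⟨M, rfl⟩ := QuotientGroup.mk_surjective h
  by_cases hC : M.1 1 0 = 0
  · exfalso
    -- then the image of the lower subgroup is the upper subgroup
    have hle : (lbHom_h9 F).range.map α.toMonoidHom ≤ (ebHom_h9 F).range := by
      rw [← hh]
      intro x hx
      rw [mem_conj_smul_iff_h9, mem_ub_h9] at hx
      obtain ⟨w, hw⟩ := hx
      rw [mem_ub_h9]
      refine ⟨(M.1 0 0) ^ 2 * w, ?_⟩
      have e : x = QuotientGroup.mk M * eb_h9 w * (QuotientGroup.mk M)⁻¹ := by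
        rw [hw]; group
      rw [e, eq_mul_inv_iff_mul_eq]
      unfold eb_h9
      rw [← QuotientGroup.mk_mul, ← QuotientGroup.mk_mul, sl2_upper_conj_h9 M hC]
    have heq : (lbHom_h9 F).range.map α.toMonoidHom = (ebHom_h9 F).range :=
      Subgroup.eq_of_le_of_card_ge hle (by rw [hcU, hcL'])
    have hle2 : (ebHom_h9 F).range.map α.toMonoidHom ≤ (ebHom_h9 F).range := by
      rintro x ⟨y, hy, rfl⟩
      obtain ⟨u, rfl⟩ := (mem_ub_h9 _).mp hy
      obtain ⟨v, hv⟩ := hα u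
      exact (mem_ub_h9 _).mpr ⟨v, hv.symm⟩
    have heq2 : (ebHom_h9 F).range.map α.toMonoidHom = (ebHom_h9 F).range :=
      Subgroup.eq_of_le_of_card_ge hle2 (by rw [hcU, hcU'])
    have h3 : (lbHom_h9 F).range = (ebHom_h9 F).range :=
      Subgroup.map_injective α.injective (heq.trans heq2.symm)
    have h4 : lb_h9 (1 : F) ∈ (ebHom_h9 F).range := by
      rw [← h3]; exact (mem_lbr_h9 _).mpr ⟨1, rfl⟩
    obtain ⟨v, hv⟩ := (mem_ub_h9 _).mp h4
    exact one_ne_zero (lb_eq_eb_h9 1 v hv.symm).1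
  · refine ⟨-(M.1 0 0 / M.1 1 0), fun u => ?_⟩
    have h1 : α (lb_h9 u) ∈ (lbHom_h9 F).range.map α.toMonoidHom :=
      Subgroup.mem_map_of_mem _ ((mem_lbr_h9 _).mpr ⟨u, rfl⟩)
    rw [← hh, mem_conj_smul_iff_h9, mem_ub_h9] at h1
    obtain ⟨w, hw⟩ := h1
    refine ⟨-(M.1 1 0) ^ 2 * w, ?_⟩
    have e : α (lb_h9 u) = QuotientGroup.mk M * eb_h9 w * (QuotientGroup.mk M)⁻¹ := by
      rw [hw]; group
    have ha : M.1 0 0 = (M.1 0 0 / M.1 1 0) * M.1 1 0 := by
      field_simp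
    have hb := sl2_bruhat_conj_h9 M (M.1 0 0 / M.1 1 0) ha w
    have hb' : (QuotientGroup.mk M : Matrix.ProjectiveSpecialLinearGroup (Fin 2) F) * eb_h9 w =
        eb_h9 (M.1 0 0 / M.1 1 0) * lb_h9 (-(M.1 1 0) ^ 2 * w) *
          eb_h9 (-(M.1 0 0 / M.1 1 0)) * QuotientGroup.mk M := by
      unfold eb_h9 lb_h9
      rw [← QuotientGroup.mk_mul, ← QuotientGroup.mk_mul, ← QuotientGroup.mk_mul,
        ← QuotientGroup.mk_mul, hb]
    rw [MulAut.mul_apply, MulAut.conj_apply, e, hb', eb_neg_h9]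
    group

end sylow

end Cfsg.Agent.Helper9
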