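import Mathlib
import Cfsg.Agent.Helper9.Au2

/-!
# Automorphisms of `PSL(2, F)`, part 3: every automorphism is inner-diagonal-field (helper9)
-/

set_option autoImplicit false
open scoped MatrixGroups Pointwise

namespace Cfsg.Agent.Helper9

section ident

variable {F : Type*} [Field F]

theorem sl2N_conj_h9 (u : F) (hu : u ≠ 0) :
    sl2E_h9 u * sl2L_h9 (-u⁻¹) * sl2E_h9 u * sl2E_h9 1 =
      sl2L_h9 (-(u⁻¹) ^ 2) * (sl2E_h9 u * sl2L_h9 (-u⁻¹) * sl2E_h9 u) := by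
  have h1 : u * u⁻¹ = 1 := mul_inv_cancel₀ hu
  apply sl2_ext_h9 <;>
    simp only [sl2m00_h9, sl2m01_h9, sl2m10_h9, sl2m11_h9, sl2E00_h9, sl2E01_h9, sl2E10_h9,
      sl2E11_h9, sl2L00_h9, sl2L01_h9, sl2L10_h9, sl2L11_h9]
  · ring
  · linear_combination -h1
  · linear_combination (-(u⁻¹ ^ 2)) * h1
  · linear_combination (-(u⁻¹ * (u * u⁻¹ - 1))) * h1

theorem sl2N_diag_h9 (t : F) (ht : t ≠ 0) (u : F) :
    (sl2E_h9 t * sl2L_h9 (-t⁻¹) * sl2E_h9 t) * (sl2E_h9 (-1) * sl2L_h9 1 * sl2E_h9 (-1)) *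
        sl2E_h9 u =
      sl2E_h9 (t ^ 2 * u) * ((sl2E_h9 t * sl2L_h9 (-t⁻¹) * sl2E_h9 t) *
        (sl2E_h9 (-1) * sl2L_h9 1 * sl2E_h9 (-1))) := by
  have h1 : t * t⁻¹ = 1 := mul_inv_cancel₀ ht
  apply sl2_ext_h9 <;>
    simp only [sl2m00_h9, sl2m01_h9, sl2m10_h9, sl2m11_h9, sl2E00_h9, sl2E01_h9, sl2E10_h9,
      sl2E11_h9, sl2L00_h9, sl2L01_h9, sl2L10_h9, sl2L11_h9]
  · linear_combination (t ^ 2 * u) * h1
  · linear_combination (-2 * t * u) * h1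
  · ring
  · linear_combination (-u) * h1

end ident

section analysis

variable {F : Type*} [Field F]

/-- the analysis of an automorphism preserving both unipotent subgroups. -/
theorem aut_sigma_h9 [Finite F]
    (α : MulAut (Matrix.ProjectiveSpecialLinearGroup (Fin 2) F)) (σ τ : F → F)
    (hσ : ∀ u, α (eb_h9 u) = eb_h9 (σ u)) (hτ : ∀ u, α (lb_h9 u) = lb_h9 (τ u))
    (h1 : σ 1 = 1) :
    (∀ u v, σ (u + v) = σ u + σ v) ∧ (∀ u v, σ (u * v) = σ u * σ v) ∧ Function.Injective σ ∧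
      (∀ u, τ u = σ u) := by
  have hadd : ∀ u v, σ (u + v) = σ u + σ v := by
    intro u v
    apply eb_inj_h9
    rw [← hσ, eb_add_h9, map_mul, hσ, hσ, eb_add_h9]
  have hadd' : ∀ u v, τ (u + v) = τ u + τ v := by
    intro u v
    apply lb_inj_h9
    rw [← hτ, lb_add_h9, map_mul, hτ, hτ, lb_add_h9]
  have hinj : Function.Injective σ := by
    intro u v h
    apply eb_inj_h9
    apply α.injective
    rw [hσ, hσ, h]
  have h0 : σ 0 = 0 := by
    have := hadd 0 0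
    rw [add_zero] at this
    linear_combination -this
  have h0' : τ 0 = 0 := by
    have := hadd' 0 0
    rw [add_zero] at this
    linear_combination -this
  have hneg : ∀ u, σ (-u) = -σ u := by
    intro u
    have := hadd u (-u)
    rw [add_neg_cancel, h0] at this
    linear_combination -this
  have hne : ∀ u, u ≠ 0 → σ u ≠ 0 := fun u hu h => hu (hinj (h.trans h0.symm))
  have hneg1 : σ (-1) = -1 := by rw [hneg, h1]
  -- the key relation
  have hrel : ∀ u, u ≠ 0 → τ (-u⁻¹) = -(σ u)⁻¹ := by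
    intro u hu
    have hid : eb_h9 u * lb_h9 (-u⁻¹) * eb_h9 u * eb_h9 1 =
        lb_h9 (-(u⁻¹) ^ 2) * (eb_h9 u * lb_h9 (-u⁻¹) * eb_h9 u) := by
      unfold eb_h9 lb_h9
      rw [← QuotientGroup.mk_mul, ← QuotientGroup.mk_mul, ← QuotientGroup.mk_mul,
        ← QuotientGroup.mk_mul, sl2N_conj_h9 u hu]
    have h2 := congrArg α hid
    simp only [map_mul, hσ, hτ, h1] at h2
    unfold eb_h9 lb_h9 at h2
    rw [← QuotientGroup.mk_mul, ← QuotientGroup.mk_mul, ← QuotientGroup.mk_mul,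
      ← QuotientGroup.mk_mul, psl2_mk_eq_iff_h9] at h2
    have hkey : 1 + σ u * τ (-u⁻¹) = 0 := by
      rcases h2 with h | h
      · have e := congrArg (fun x : SL(2, F) => x.1 0 1) h
        simp only [sl2m00_h9, sl2m01_h9, sl2m10_h9, sl2m11_h9, sl2E00_h9, sl2E01_h9,
          sl2E10_h9, sl2E11_h9, sl2L00_h9, sl2L01_h9, sl2L10_h9, sl2L11_h9] at e
        linear_combination e
      · have e0 := congrArg (fun x : SL(2, F) => x.1 0 0) h
        have e1 := congrArg (fun x : SL(2, F) => x.1 0 1) h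
        simp only [sl2m00_h9, sl2m01_h9, sl2m10_h9, sl2m11_h9, sl2E00_h9, sl2E01_h9,
          sl2E10_h9, sl2E11_h9, sl2L00_h9, sl2L01_h9, sl2L10_h9, sl2L11_h9,
          Matrix.SpecialLinearGroup.coe_neg, Matrix.neg_apply] at e0 e1
        by_cases h2F : (2 : F) = 0
        · linear_combination e1 - ((1 + σ u * τ (-u⁻¹)) * σ u + σ u) * h2F
        · have h3 : (2 : F) * (1 + σ u * τ (-u⁻¹)) = 0 := by linear_combination e0
          exact (mul_eq_zero.mp h3).resolve_left h2F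
    have hs := hne u hu
    have h3 : σ u * (σ u)⁻¹ = 1 := mul_inv_cancel₀ hs
    have h4 : σ u * (τ (-u⁻¹) + (σ u)⁻¹) = 0 := by linear_combination hkey + h3
    have h5 := (mul_eq_zero.mp h4).resolve_left hs
    linear_combination h5
  have hτ1 : τ 1 = 1 := by
    have := hrel (-1) (by norm_num)
    rw [hneg1] at this
    have e : (-(-1 : F)⁻¹) = 1 := by norm_num
    rw [e] at this
    exact this
  -- the torus relation
  have hD : ∀ t : F, t ≠ 0 → ∀ u : F,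
      (eb_h9 t * lb_h9 (-t⁻¹) * eb_h9 t) * (eb_h9 (-1) * lb_h9 1 * eb_h9 (-1)) * eb_h9 u =
        eb_h9 (t ^ 2 * u) * ((eb_h9 t * lb_h9 (-t⁻¹) * eb_h9 t) *
          (eb_h9 (-1) * lb_h9 1 * eb_h9 (-1))) := by
    intro t ht u
    unfold eb_h9 lb_h9
    simp only [← QuotientGroup.mk_mul]
    rw [sl2N_diag_h9 t ht u]
  have hsq : ∀ t u : F, t ≠ 0 → σ (t ^ 2 * u) = (σ t) ^ 2 * σ u := by
    intro t u ht
    have h2 := congrArg α (hD t ht u)
    simp only [map_mul, hσ, hτ, hrel t ht, hneg1, hτ1] at h2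
    have h3 := hD (σ t) (hne t ht) (σ u)
    rw [h3] at h2
    exact (eb_inj_h9 _ _ (mul_right_cancel h2)).symm
  have hsq' : ∀ t u : F, σ (t ^ 2 * u) = (σ t) ^ 2 * σ u := by
    intro t u
    by_cases ht : t = 0
    · rw [ht, h0]; simp [h0]
    · exact hsq t u ht
  have hsq1 : ∀ t : F, σ (t ^ 2) = (σ t) ^ 2 := by
    intro t
    have := hsq' t 1
    rwa [mul_one, h1, mul_one] at this
  have hmul : ∀ u v, σ (u * v) = σ u * σ v := by
    intro t u
    by_cases h2F : (2 : F) = 0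
    · -- every element is a square
      have hsqinj : Function.Injective (fun x : F => x ^ 2) := by
        intro x y hxy
        have hxy' : x ^ 2 = y ^ 2 := hxy
        have : (x - y) ^ 2 = 0 := by linear_combination hxy' + (y ^ 2 - x * y) * h2F
        exact sub_eq_zero.mp (pow_eq_zero_iff (n := 2) (by norm_num) |>.mp this)
      obtain ⟨s, hs⟩ := Finite.injective_iff_surjective.mp hsqinj t
      have hs' : s ^ 2 = t := hs
      rw [← hs', hsq', hsq1]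
    · have e1 : σ ((t + u) ^ 2) = (σ t + σ u) ^ 2 := by rw [hsq1, hadd]
      have e2 : (t + u) ^ 2 = t ^ 2 + (t * u + t * u) + u ^ 2 := by ring
      rw [e2, hadd, hadd, hadd, hsq1, hsq1] at e1
      have h3 : (2 : F) * (σ (t * u) - σ t * σ u) = 0 := by linear_combination e1
      have h4 := (mul_eq_zero.mp h3).resolve_left h2F
      linear_combination h4
  refine ⟨hadd, hmul, hinj, ?_⟩
  intro v
  by_cases hv : v = 0
  · rw [hv, h0, h0']
  · have hu : -v⁻¹ ≠ 0 := neg_ne_zero.mpr (inv_ne_zero hv)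
    have e1 := hrel (-v⁻¹) hu
    have e2 : -(-v⁻¹)⁻¹ = v := by rw [inv_neg, inv_inv, neg_neg]
    rw [e2] at e1
    rw [e1]
    -- σ (-v⁻¹) * σ (-v) = 1
    have e3 : σ (-v⁻¹) * σ (-v) = 1 := by
      rw [← hmul]
      have : -v⁻¹ * -v = 1 := by rw [neg_mul_neg, inv_mul_cancel₀ hv]
      rw [this, h1]
    have hs := hne _ hu
    have e4 : σ (-v⁻¹) * (σ (-v⁻¹))⁻¹ = 1 := mul_inv_cancel₀ hs
    have e5 : σ (-v⁻¹) * ((σ (-v⁻¹))⁻¹ - σ (-v)) = 0 := by linear_combination e4 - e3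
    have e6 := (mul_eq_zero.mp e5).resolve_left hs
    rw [hneg v] at e6
    linear_combination -e6

theorem ringEquiv_of_h9 [Finite F] (σ : F → F) (h1 : σ 1 = 1)
    (hadd : ∀ u v, σ (u + v) = σ u + σ v) (hmul : ∀ u v, σ (u * v) = σ u * σ v)
    (hinj : Function.Injective σ) : ∃ τ : F ≃+* F, ∀ u, τ u = σ u := by
  have h0 : σ 0 = 0 := by
    have := hadd 0 0
    rw [add_zero] at this
    linear_combination -this
  have hbij : Function.Bijective σ := ⟨hinj, Finite.injective_iff_surjective.mp hinj⟩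
  exact ⟨RingEquiv.ofBijective
    ({ toFun := σ, map_one' := h1, map_mul' := hmul, map_zero' := h0, map_add' := hadd } :
      F →+* F) hbij, fun u => rfl⟩

end analysis

section decomp

variable {F : Type*} [Field F] [Fintype F] {p f : ℕ} [Fact p.Prime]

/-- every automorphism of `PSL(2, F)` is a product of an inner, a diagonal and a field
automorphism. -/
theorem aut_decomp_h9 (hF : Fintype.card F = p ^ f) (hf : 1 ≤ f)
    (α : MulAut (Matrix.ProjectiveSpecialLinearGroup (Fin 2) F)) :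
    ∃ (g : Matrix.ProjectiveSpecialLinearGroup (Fin 2) F) (a : Fˣ) (τ : F ≃+* F),
      α = MulAut.conj g * dlt_h9 a * psi_h9 τ := by
  obtain ⟨g₁, h₁⟩ := aut_norm1_h9 hF hf α
  obtain ⟨a₀, h₂⟩ := aut_norm2_h9 hF hf (MulAut.conj g₁ * α) h₁
  obtain ⟨α₂, hα₂⟩ : ∃ α₂ : MulAut (Matrix.ProjectiveSpecialLinearGroup (Fin 2) F),
      α₂ = MulAut.conj (eb_h9 a₀) * (MulAut.conj g₁ * α) := ⟨_, rfl⟩
  have hE₂ : ∀ u : F, ∃ v : F, α₂ (eb_h9 u) = eb_h9 v := by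
    intro u
    obtain ⟨v, hv⟩ := h₁ u
    refine ⟨v, ?_⟩
    rw [hα₂, MulAut.mul_apply, hv, MulAut.conj_apply, ← eb_add_h9, ← eb_neg_h9, ← eb_add_h9]
    congr 1; ring
  have hL₂ : ∀ u : F, ∃ v : F, α₂ (lb_h9 u) = lb_h9 v := by rw [hα₂]; exact h₂
  choose σ₂ hσ₂ using hE₂
  choose τ₂ hτ₂ using hL₂
  have hs1 : σ₂ 1 ≠ 0 := by
    intro h
    have e := hσ₂ 1
    rw [h, eb_zero_h9] at e
    have e' : α₂ (eb_h9 1) = α₂ 1 := by rw [e, map_one]
    have := eb_inj_h9 _ _ ((α₂.injective e').trans eb_zero_h9.symm)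
    exact one_ne_zero this
  obtain ⟨a, ha⟩ : ∃ a : Fˣ, (a : F) = (σ₂ 1)⁻¹ := ⟨Units.mk0 _ (inv_ne_zero hs1), rfl⟩
  have hσ₃ : ∀ u, (dlt_h9 a * α₂) (eb_h9 u) = eb_h9 ((σ₂ 1)⁻¹ * σ₂ u) := by
    intro u; rw [MulAut.mul_apply, hσ₂, dlt_eb_h9, ha]
  have hτ₃ : ∀ u, (dlt_h9 a * α₂) (lb_h9 u) = lb_h9 (((σ₂ 1)⁻¹)⁻¹ * τ₂ u) := by
    intro u; rw [MulAut.mul_apply, hτ₂, dlt_lb_h9, ha]
  obtain ⟨hadd, hmul, hinj, hτσ⟩ := aut_sigma_h9 (dlt_h9 a * α₂)
    (fun u => (σ₂ 1)⁻¹ * σ₂ u) (fun u => ((σ₂ 1)⁻¹)⁻¹ * τ₂ u) hσ₃ hτ₃ (inv_mul_cancel₀ hs1)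
  obtain ⟨τ, hτ⟩ := ringEquiv_of_h9 (fun u => (σ₂ 1)⁻¹ * σ₂ u) (inv_mul_cancel₀ hs1) hadd hmul
    hinj
  have h3 : dlt_h9 a * α₂ = psi_h9 τ := by
    apply psl2_aut_ext_h9
    · intro t; rw [hσ₃, psi_eb_h9, hτ]
    · intro t; rw [hτ₃, psi_lb_h9, hτ]; exact congrArg lb_h9 (hτσ t)
  refine ⟨g₁⁻¹ * (eb_h9 a₀)⁻¹, a⁻¹, τ, ?_⟩
  have h4 : α = (MulAut.conj g₁)⁻¹ * ((MulAut.conj (eb_h9 a₀))⁻¹ *
      ((dlt_h9 a)⁻¹ * (dlt_h9 a * α₂))) := by
    rw [hα₂]; group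
  have h5 : dlt_h9 a⁻¹ = (dlt_h9 a)⁻¹ := map_inv (dltHom_h9 F) a
  rw [h4, h3, map_mul, map_inv, map_inv, h5]
  group

end decomp

end Cfsg.Agent.Helper9
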