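import Mathlib
import Cfsg.Agent.Helper9.Au3
import Cfsg.Prelude.Def_KGroupFacts

/-!
# Automorphisms of `PSL(2, F)`, part 4: the structure of the outer automorphism group (helper9)
-/

set_option autoImplicit false
open scoped MatrixGroups Pointwise

namespace Cfsg.Agent.Helper9

section mat

variable {F : Type*} [Field F]

/-- a matrix conjugating an upper elementary matrix to another one is upper triangular. -/
theorem sl2_conj_E_h9 (M : SL(2, F)) (u v : F) (hu : u ≠ 0)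
    (h : M * sl2E_h9 u = sl2E_h9 v * M ∨ M * sl2E_h9 u = -(sl2E_h9 v * M)) :
    M.1 1 0 = 0 ∧ v = (M.1 0 0) ^ 2 * u := by
  have hdet := (sl2_entries_h9 M).2
  obtain ⟨n00, n01, n10, n11⟩ := sl2_neg_entries_h9 (sl2E_h9 v * M)
  rcases h with h | h
  · have e01 := congrArg (fun x : SL(2, F) => x.1 0 1) h
    have e11 := congrArg (fun x : SL(2, F) => x.1 1 1) h
    simp only [sl2m00_h9, sl2m01_h9, sl2m10_h9, sl2m11_h9, sl2E00_h9, sl2E01_h9, sl2E10_h9,
      sl2E11_h9] at e01 e11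
    have hC : M.1 1 0 = 0 := by
      have : M.1 1 0 * u = 0 := by linear_combination e11
      exact (mul_eq_zero.mp this).resolve_right hu
    refine ⟨hC, ?_⟩
    rw [hC] at hdet
    linear_combination (-(M.1 0 0)) * e01 - v * hdet
  · have e01 := congrArg (fun x : SL(2, F) => x.1 0 1) h
    have e10 := congrArg (fun x : SL(2, F) => x.1 1 0) h
    have e11 := congrArg (fun x : SL(2, F) => x.1 1 1) h
    simp only [n01, n10, n11, sl2m00_h9, sl2m01_h9, sl2m10_h9, sl2m11_h9, sl2E00_h9, sl2E01_h9,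
      sl2E10_h9, sl2E11_h9] at e01 e10 e11
    by_cases h2F : (2 : F) = 0
    · have hC : M.1 1 0 = 0 := by
        have : M.1 1 0 * u = 0 := by linear_combination e11 - M.1 1 1 * h2F
        exact (mul_eq_zero.mp this).resolve_right hu
      refine ⟨hC, ?_⟩
      rw [hC] at hdet
      linear_combination (-(M.1 0 0)) * e01 - v * hdet +
        (M.1 0 0 * M.1 0 1 + v * M.1 0 0 * M.1 1 1) * h2F
    · exfalso
      have hC : M.1 1 0 = 0 := by
        have : (2 : F) * M.1 1 0 = 0 := by linear_combination e10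
        exact (mul_eq_zero.mp this).resolve_left h2F
      have hD : M.1 1 1 = 0 := by
        have : (2 : F) * M.1 1 1 = 0 := by rw [hC] at e11; linear_combination e11
        exact (mul_eq_zero.mp this).resolve_left h2F
      rw [hC, hD] at hdet
      simp at hdet

theorem psl_conj_eb_h9 (M : SL(2, F)) (u v : F) (hu : u ≠ 0)
    (h : (QuotientGroup.mk M : Matrix.ProjectiveSpecialLinearGroup (Fin 2) F) * eb_h9 u =
      eb_h9 v * QuotientGroup.mk M) :
    M.1 1 0 = 0 ∧ v = (M.1 0 0) ^ 2 * u := by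
  unfold eb_h9 at h
  rw [← QuotientGroup.mk_mul, ← QuotientGroup.mk_mul, psl2_mk_eq_iff_h9] at h
  exact sl2_conj_E_h9 M u v hu h

theorem sl2D_conj_E_h9 (b : F) (hb : b ≠ 0) (u : F) :
    sl2D_h9 b hb * sl2E_h9 u = sl2E_h9 (b ^ 2 * u) * sl2D_h9 b hb := by
  have h1 : b * b⁻¹ = 1 := mul_inv_cancel₀ hb
  apply sl2_ext_h9 <;>
    simp only [sl2m00_h9, sl2m01_h9, sl2m10_h9, sl2m11_h9, sl2E00_h9, sl2E01_h9, sl2E10_h9,
      sl2E11_h9, sl2D00_h9, sl2D01_h9, sl2D10_h9, sl2D11_h9]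
  · ring
  · linear_combination (-(b * u)) * h1
  · ring
  · ring

theorem sl2D_conj_L_h9 (b : F) (hb : b ≠ 0) (u : F) :
    sl2D_h9 b hb * sl2L_h9 u = sl2L_h9 (b⁻¹ ^ 2 * u) * sl2D_h9 b hb := by
  have h1 : b * b⁻¹ = 1 := mul_inv_cancel₀ hb
  apply sl2_ext_h9 <;>
    simp only [sl2m00_h9, sl2m01_h9, sl2m10_h9, sl2m11_h9, sl2L00_h9, sl2L01_h9, sl2L10_h9,
      sl2L11_h9, sl2D00_h9, sl2D01_h9, sl2D10_h9, sl2D11_h9]
  · ring
  · ring
  · linear_combination (-(b⁻¹ * u)) * h1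
  · ring

/-- the diagonal automorphism attached to a square is inner. -/
theorem dlt_sq_h9 (b : Fˣ) :
    dlt_h9 (b ^ 2) = MulAut.conj
      (QuotientGroup.mk (sl2D_h9 (b : F) b.ne_zero) :
        Matrix.ProjectiveSpecialLinearGroup (Fin 2) F) := by
  apply psl2_aut_ext_h9
  · intro t
    rw [dlt_eb_h9, MulAut.conj_apply, eq_mul_inv_iff_mul_eq]
    unfold eb_h9
    rw [← QuotientGroup.mk_mul, ← QuotientGroup.mk_mul, sl2D_conj_E_h9, Units.val_pow_eq_pow_val]
  · intro t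
    rw [dlt_lb_h9, MulAut.conj_apply, eq_mul_inv_iff_mul_eq]
    unfold lb_h9
    rw [← QuotientGroup.mk_mul, ← QuotientGroup.mk_mul, sl2D_conj_L_h9, Units.val_pow_eq_pow_val,
      inv_pow]

/-- an inner diagonal automorphism comes from a square. -/
theorem dlt_inner_h9 (a : Fˣ) (g : Matrix.ProjectiveSpecialLinearGroup (Fin 2) F)
    (h : dlt_h9 a = MulAut.conj g) : ∃ b : Fˣ, b ^ 2 = a := by
  obtain ⟨M, rfl⟩ := QuotientGroup.mk_surjective g
  have h1 := congrArg (fun α : MulAut (Matrix.ProjectiveSpecialLinearGroup (Fin 2) F) =>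
    α (eb_h9 1)) h
  simp only [dlt_eb_h9, MulAut.conj_apply, mul_one] at h1
  have h2 : (QuotientGroup.mk M : Matrix.ProjectiveSpecialLinearGroup (Fin 2) F) * eb_h9 1 =
      eb_h9 (a : F) * QuotientGroup.mk M := by
    rw [h1]; group
  obtain ⟨hC, hv⟩ := psl_conj_eb_h9 M 1 (a : F) one_ne_zero h2
  have hA : M.1 0 0 ≠ 0 := by
    intro h0
    rw [h0] at hv
    have : (a : F) = 0 := by rw [hv]; ring
    exact a.ne_zero this
  refine ⟨Units.mk0 _ hA, ?_⟩
  apply Units.ext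
  rw [Units.val_pow_eq_pow_val, Units.val_mk0, hv, mul_one]

/-- a field automorphism which is inner-diagonal is trivial. -/
theorem psi_inner_diag_h9 (τ : F ≃+* F) (g : Matrix.ProjectiveSpecialLinearGroup (Fin 2) F)
    (a : Fˣ) (h : psi_h9 τ = MulAut.conj g * dlt_h9 a) : τ = RingEquiv.refl F := by
  obtain ⟨M, rfl⟩ := QuotientGroup.mk_surjective g
  have key : ∀ u : F, (QuotientGroup.mk M : Matrix.ProjectiveSpecialLinearGroup (Fin 2) F) *
      eb_h9 ((a : F) * u) = eb_h9 (τ u) * QuotientGroup.mk M := by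
    intro u
    have h1 := congrArg (fun α : MulAut (Matrix.ProjectiveSpecialLinearGroup (Fin 2) F) =>
      α (eb_h9 u)) h
    simp only [psi_eb_h9, MulAut.mul_apply, dlt_eb_h9, MulAut.conj_apply] at h1
    rw [h1]; group
  have h1 := (psl_conj_eb_h9 M ((a : F) * 1) (τ 1) (mul_ne_zero a.ne_zero one_ne_zero)
    (key 1)).2
  rw [map_one, mul_one] at h1
  ext u
  by_cases hu : u = 0
  · rw [hu, map_zero, map_zero]
  · have h2 := (psl_conj_eb_h9 M ((a : F) * u) (τ u) (mul_ne_zero a.ne_zero hu) (key u)).2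
    rw [RingEquiv.refl_apply, h2]
    linear_combination (-u) * h1

end mat

section structure_

variable {F : Type*} [Field F]

/-- the diagonal automorphisms in the outer automorphism group. -/
noncomputable def thetaHom_h9 (F : Type*) [Field F] :
    Fˣ →* Cfsg.Out (Matrix.ProjectiveSpecialLinearGroup (Fin 2) F) :=
  (QuotientGroup.mk' (Cfsg.Inn (Matrix.ProjectiveSpecialLinearGroup (Fin 2) F))).comp
    (dltHom_h9 F)

theorem thetaHom_apply_h9 (a : Fˣ) :
    thetaHom_h9 F a = (QuotientGroup.mk (dlt_h9 a) :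
      Cfsg.Out (Matrix.ProjectiveSpecialLinearGroup (Fin 2) F)) := rfl

theorem theta_ker_h9 : (thetaHom_h9 F).ker = (powMonoidHom 2 : Fˣ →* Fˣ).range := by
  ext a
  rw [MonoidHom.mem_ker, MonoidHom.mem_range, thetaHom_apply_h9, QuotientGroup.eq_one_iff]
  constructor
  · rintro ⟨g, hg⟩
    obtain ⟨b, hb⟩ := dlt_inner_h9 a g hg.symm
    exact ⟨b, hb⟩
  · rintro ⟨b, rfl⟩
    exact ⟨_, (dlt_sq_h9 b).symm⟩

theorem theta_range_card_h9 [Fintype F] :
    Nat.card (thetaHom_h9 F).range = Nat.gcd 2 (Fintype.card F - 1) := by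
  rw [← Subgroup.index_ker, theta_ker_h9, IsCyclic.index_powMonoidHom_range, Nat.card_units,
    Nat.card_eq_fintype_card, Nat.gcd_comm]

theorem theta_range_cyclic_h9 [Fintype F] : IsCyclic (thetaHom_h9 F).range :=
  isCyclic_of_surjective (thetaHom_h9 F).rangeRestrict (thetaHom_h9 F).rangeRestrict_surjective

theorem theta_range_normal_h9 [Fintype F] {p f : ℕ} [Fact p.Prime]
    (hF : Fintype.card F = p ^ f) (hf : 1 ≤ f) : (thetaHom_h9 F).range.Normal := by
  constructor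
  rintro _ ⟨a, rfl⟩ x
  obtain ⟨α, rfl⟩ := QuotientGroup.mk_surjective x
  obtain ⟨g, b, τ, rfl⟩ := aut_decomp_h9 hF hf α
  have hs : (QuotientGroup.mk (psi_h9 τ) :
      Cfsg.Out (Matrix.ProjectiveSpecialLinearGroup (Fin 2) F)) * thetaHom_h9 F a *
        (QuotientGroup.mk (psi_h9 τ))⁻¹ =
      thetaHom_h9 F (Units.map τ.toRingHom.toMonoidHom a) := by
    rw [thetaHom_apply_h9, thetaHom_apply_h9, ← psi_dlt_h9]
    rfl
  have hc : (QuotientGroup.mk (MulAut.conj g) :
      Cfsg.Out (Matrix.ProjectiveSpecialLinearGroup (Fin 2) F)) = 1 :=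
    (QuotientGroup.eq_one_iff _).mpr ⟨g, rfl⟩
  have hx : (QuotientGroup.mk (MulAut.conj g * dlt_h9 b * psi_h9 τ) :
      Cfsg.Out (Matrix.ProjectiveSpecialLinearGroup (Fin 2) F)) =
      thetaHom_h9 F b * QuotientGroup.mk (psi_h9 τ) := by
    rw [QuotientGroup.mk_mul, QuotientGroup.mk_mul, hc, one_mul]; rfl
  rw [hx]
  have e : thetaHom_h9 F b * QuotientGroup.mk (psi_h9 τ) * thetaHom_h9 F a *
      (thetaHom_h9 F b * QuotientGroup.mk (psi_h9 τ))⁻¹ =
      thetaHom_h9 F (b * Units.map τ.toRingHom.toMonoidHom a * b⁻¹) := by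
    rw [map_mul, map_mul, map_inv, ← hs]; group
  rw [e]
  exact ⟨_, rfl⟩

/-- field automorphisms over the prime field, as automorphisms of `PSL(2, F)`. -/
noncomputable def psiGalHom_h9 (K : Type*) [Field K] (F : Type*) [Field F] [Algebra K F] :
    (F ≃ₐ[K] F) →* MulAut (Matrix.ProjectiveSpecialLinearGroup (Fin 2) F) where
  toFun σ := psi_h9 σ.toRingEquiv
  map_one' := by
    apply psl2_aut_ext_h9
    · intro t; rw [psi_eb_h9]; rfl
    · intro t; rw [psi_lb_h9]; rfl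
  map_mul' σ₁ σ₂ := by
    apply psl2_aut_ext_h9
    · intro t; rw [MulAut.mul_apply, psi_eb_h9, psi_eb_h9, psi_eb_h9]; rfl
    · intro t; rw [MulAut.mul_apply, psi_lb_h9, psi_lb_h9, psi_lb_h9]; rfl

theorem psiGalHom_apply_h9 (K : Type*) [Field K] [Algebra K F] (σ : F ≃ₐ[K] F) :
    psiGalHom_h9 K F σ = psi_h9 σ.toRingEquiv := rfl

theorem out_psl2_exists_h9 [Fintype F] {p f : ℕ} [Fact p.Prime]
    (hF : Fintype.card F = p ^ f) (hf : 1 ≤ f) :
    ∃ φ : Cfsg.Out (Matrix.ProjectiveSpecialLinearGroup (Fin 2) F) →* Multiplicative (ZMod f),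
      Function.Surjective φ ∧ φ.ker = (thetaHom_h9 F).range := by
  haveI hN := theta_range_normal_h9 (F := F) hF hf
  haveI : CharP F p := charP_of_card_eq_prime_pow hF
  letI : Algebra (ZMod p) F := ZMod.algebra F p
  -- the comparison map
  obtain ⟨Ψ, hΨ⟩ : ∃ Ψ : (F ≃ₐ[ZMod p] F) →*
      (Cfsg.Out (Matrix.ProjectiveSpecialLinearGroup (Fin 2) F) ⧸ (thetaHom_h9 F).range),
      Ψ = (QuotientGroup.mk' (thetaHom_h9 F).range).comp
        ((QuotientGroup.mk' (Cfsg.Inn (Matrix.ProjectiveSpecialLinearGroup (Fin 2) F))).comp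
          (psiGalHom_h9 (ZMod p) F)) := ⟨_, rfl⟩
  have hΨa : ∀ σ : F ≃ₐ[ZMod p] F, Ψ σ = QuotientGroup.mk
      (QuotientGroup.mk (psi_h9 σ.toRingEquiv) :
        Cfsg.Out (Matrix.ProjectiveSpecialLinearGroup (Fin 2) F)) := by
    intro σ; rw [hΨ]; rfl
  have hinj : Function.Injective Ψ := by
    rw [injective_iff_map_eq_one]
    intro σ hσ
    rw [hΨa, QuotientGroup.eq_one_iff] at hσ
    obtain ⟨a, ha⟩ := hσ
    rw [thetaHom_apply_h9] at ha
    have h1 := (QuotientGroup.eq_iff_div_mem).mp ha.symm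
    obtain ⟨g, hg⟩ := h1
    have h2 : psi_h9 σ.toRingEquiv = MulAut.conj g * dlt_h9 a := eq_mul_of_div_eq hg.symm
    have h3 := psi_inner_diag_h9 _ g a h2
    apply AlgEquiv.ext
    intro x
    exact RingEquiv.congr_fun h3 x
  have hsurj : Function.Surjective Ψ := by
    intro y
    obtain ⟨x, rfl⟩ := QuotientGroup.mk_surjective y
    obtain ⟨α, rfl⟩ := QuotientGroup.mk_surjective x
    obtain ⟨g, b, τ, rfl⟩ := aut_decomp_h9 hF hf α
    have hcomm : ∀ r : ZMod p, τ (algebraMap (ZMod p) F r) = algebraMap (ZMod p) F r := fun r =>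
      RingHom.congr_fun (Subsingleton.elim (τ.toRingHom.comp (algebraMap (ZMod p) F))
        (algebraMap (ZMod p) F)) r
    refine ⟨AlgEquiv.ofRingEquiv (f := τ) hcomm, ?_⟩
    rw [hΨa]
    have hc : (QuotientGroup.mk (MulAut.conj g) :
        Cfsg.Out (Matrix.ProjectiveSpecialLinearGroup (Fin 2) F)) = 1 :=
      (QuotientGroup.eq_one_iff _).mpr ⟨g, rfl⟩
    have hd : (QuotientGroup.mk (QuotientGroup.mk (dlt_h9 b) :
        Cfsg.Out (Matrix.ProjectiveSpecialLinearGroup (Fin 2) F)) :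
        Cfsg.Out (Matrix.ProjectiveSpecialLinearGroup (Fin 2) F) ⧸ (thetaHom_h9 F).range) = 1 :=
      (QuotientGroup.eq_one_iff _).mpr ⟨b, rfl⟩
    have e : (AlgEquiv.ofRingEquiv (f := τ) hcomm).toRingEquiv = τ := RingEquiv.ext fun _ => rfl
    have h5 : (QuotientGroup.mk (MulAut.conj g * dlt_h9 b * psi_h9 τ) :
        Cfsg.Out (Matrix.ProjectiveSpecialLinearGroup (Fin 2) F)) =
        QuotientGroup.mk (dlt_h9 b) * QuotientGroup.mk (psi_h9 τ) := by
      rw [QuotientGroup.mk_mul, QuotientGroup.mk_mul, hc, one_mul]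
    rw [e, h5, QuotientGroup.mk_mul, hd, one_mul]
  have hcard : Nat.card (F ≃ₐ[ZMod p] F) = f := by
    rw [IsGalois.card_aut_eq_finrank]
    have h1 := Module.card_eq_pow_finrank (K := ZMod p) (V := F)
    rw [ZMod.card, hF] at h1
    exact (Nat.pow_right_injective (Fact.out : p.Prime).two_le h1).symm
  obtain ⟨e⟩ : Nonempty
      ((Cfsg.Out (Matrix.ProjectiveSpecialLinearGroup (Fin 2) F) ⧸ (thetaHom_h9 F).range) ≃*
        Multiplicative (ZMod f)) := by
    rw [← hcard]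
    exact ⟨(MulEquiv.ofBijective Ψ ⟨hinj, hsurj⟩).symm.trans
      (zmodCyclicMulEquiv inferInstance).symm⟩
  refine ⟨e.toMonoidHom.comp (QuotientGroup.mk' (thetaHom_h9 F).range), ?_, ?_⟩
  · intro y
    obtain ⟨x, hx⟩ := e.surjective y
    obtain ⟨z, rfl⟩ := QuotientGroup.mk_surjective x
    exact ⟨z, hx⟩
  · ext x
    rw [MonoidHom.mem_ker]
    show e (QuotientGroup.mk x) = 1 ↔ _
    rw [MulEquiv.map_eq_one_iff, QuotientGroup.eq_one_iff]

end structure_

end Cfsg.Agent.Helper9
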