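import Cfsg.Agent.Helper9.Bend1

/-!
# A lemma of Bender on subnormal self-centralizing subgroups of `F*` (helper9), part 2
-/

set_option autoImplicit false
open Cfsg
open scoped commutatorElement

namespace Cfsg.Agent.Helper9

universe u

theorem isPGroup_orderOf_coprime_h9 {H : Type*} [Group H] {p r : ℕ} [hp : Fact p.Prime]
    [hr : Fact r.Prime] (hne : r ≠ p) {X : Subgroup H} (hX : IsPGroup p X) {x : H} (hx : x ∈ X) :
    (orderOf x).Coprime r := by
  obtain ⟨k, hk⟩ := (IsPGroup.iff_orderOf.mp hX) ⟨x, hx⟩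
  rw [Subgroup.orderOf_mk] at hk
  rw [hk]
  exact Nat.Coprime.pow_left k ((Nat.coprime_primes hp.out hr.out).mpr (Ne.symm hne))

/-- **Bender**: `S` subnormal in `F*(H)` (hence in `H`) with `C_{F*(H)}(S) ≤ S`, `X` a `p`-subgroup
normalized by `S`. Then `E(H) ≤ S`, and `X` centralizes `E(H)` and `O_r(H)` for all primes `r ≠ p`. -/
theorem bender_cent_h9 {H : Type u} [Group H] [Finite H] {p : ℕ} [Fact p.Prime]
    (S X : Subgroup H) (hSF : S ≤ generalizedFittingSubgroup H) (hSsn : S.IsSubnormal)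
    (hSC : generalizedFittingSubgroup H ⊓ Subgroup.centralizer (S : Set H) ≤ S)
    (hX : IsPGroup p X) (hSX : S ≤ Subgroup.normalizer (X : Set H)) :
    (layer H ≤ S) ∧ (∀ x ∈ X, ∀ e ∈ layer H, x * e = e * x) ∧
    (∀ r : ℕ, r.Prime → r ≠ p → ∀ x ∈ X, ∀ u ∈ pCore r H, x * u = u * x) := by
  have hLS : layer H ≤ S := by
    apply sSup_le
    intro L hL
    rcases Helper10.comp_le_or_comm L S hL hSsn with h | h
    · exact h
    · apply le_trans _ hSC
      exact le_inf ((Helper10.comp_le_layer hL).trans (Helper10.layer_le_gfitting H))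
        (Subgroup.commutator_eq_bot_iff_le_centralizer.mp h)
  have hXsolv : Group.IsSolvable X := by
    have := hX.isNilpotent
    infer_instance
  have hXE : layer H ≤ Subgroup.centralizer (X : Set H) := by
    apply sSup_le
    intro L hL
    have hLS' : L ≤ S := (Helper10.comp_le_layer hL).trans hLS
    have := Helper10.comp_comm_solvable_of_normalizes L X hL hXsolv (hLS'.trans hSX)
    exact Subgroup.commutator_eq_bot_iff_le_centralizer.mp this
  refine ⟨hLS, fun x hx e he => ?_, ?_⟩
  · exact (Subgroup.mem_centralizer_iff.mp (hXE he)) x hx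
  · intro r hr hne x hx
    haveI : Fact r.Prime := ⟨hr⟩
    have hPn : (pCore r H).Normal := Cfsg.Agent.S0010.pCore_normal r
    have hPr : IsPGroup r (pCore r H) := Cfsg.Agent.S0010.pCore_isPGroup r
    have hFn : (fittingSubgroup H).Normal := Helper10.fitting_normal H
    have hdisj : X ⊓ pCore r H = ⊥ :=
      (IsPGroup.disjoint_of_ne p r (Ne.symm hne) _ _ hX hPr).eq_bot
    have h3a : ∀ x ∈ X, ∀ s ∈ S ⊓ pCore r H, x * s = s * x := by
      rintro x hx s ⟨hsS, hsP⟩
      have hcX : x * s * x⁻¹ * s⁻¹ ∈ X := by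
        have h1 : s * x⁻¹ * s⁻¹ ∈ X :=
          (Subgroup.mem_normalizer_iff.mp (hSX hsS) x⁻¹).mp (X.inv_mem hx)
        have h2 := X.mul_mem hx h1
        have e : x * s * x⁻¹ * s⁻¹ = x * (s * x⁻¹ * s⁻¹) := by group
        rw [e]; exact h2
      have hcP : x * s * x⁻¹ * s⁻¹ ∈ pCore r H :=
        (pCore r H).mul_mem (hPn.conj_mem s hsP x) ((pCore r H).inv_mem hsP)
      have h1 : x * s * x⁻¹ * s⁻¹ = 1 := by
        have h2 : x * s * x⁻¹ * s⁻¹ ∈ X ⊓ pCore r H := ⟨hcX, hcP⟩
        rw [hdisj] at h2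
        exact h2
      calc x * s = (x * s * x⁻¹ * s⁻¹) * (s * x) := by group
        _ = s * x := by rw [h1, one_mul]
    have h3b : ∀ u ∈ pCore r H, (∀ s ∈ S ⊓ pCore r H, u * s = s * u) → u ∈ S := by
      intro u hu hus
      apply hSC
      refine ⟨(Helper10.fitting_le_gfitting H) (pCore_le_fitting_h9 r hu),
        Subgroup.mem_centralizer_iff.mpr ?_⟩
      intro s hs
      have hs' : s ∈ ((layer H ⊔ fittingSubgroup H : Subgroup H) : Set H) := hSF hs
      rw [Subgroup.mul_normal] at hs'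
      obtain ⟨e, he, f, hf, rfl⟩ := Set.mem_mul.mp hs'
      have hfS : f ∈ S := by
        have := S.mul_mem (S.inv_mem (hLS he)) hs
        simpa using this
      have hue : u * e = e * u := by
        have h1 := Helper10.layer_comm_fitting H
        rw [Subgroup.commutator_eq_bot_iff_le_centralizer] at h1
        exact ((Subgroup.mem_centralizer_iff.mp (h1 he)) u (pCore_le_fitting_h9 r hu))
      obtain ⟨g₁, g₂, hg₁, hg₂, hfe, ⟨i, hi⟩, hco⟩ := exists_r_decomp_h9 r f
      have hg₁S : g₁ ∈ S := (Subgroup.zpowers_le.mpr hfS) hg₁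
      have hg₁F : g₁ ∈ fittingSubgroup H := (Subgroup.zpowers_le.mpr hf) hg₁
      have hg₁P : g₁ ∈ pCore r H := mem_pCore_of_mem_fitting_h9 r g₁ hg₁F ⟨i, hi⟩
      have h1 := hus g₁ ⟨hg₁S, hg₁P⟩
      have hg₂F : g₂ ∈ fittingSubgroup H := (Subgroup.zpowers_le.mpr hf) hg₂
      have h2 : u * g₂ = g₂ * u := pCore_comm_coprime_h9 r u hu g₂ hg₂F hco
      rw [hfe]
      calc e * (g₁ * g₂) * u = e * g₁ * (g₂ * u) := by group
        _ = e * g₁ * (u * g₂) := by rw [h2]
        _ = e * (g₁ * u) * g₂ := by group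
        _ = e * (u * g₁) * g₂ := by rw [h1]
        _ = (e * u) * g₁ * g₂ := by group
        _ = (u * e) * g₁ * g₂ := by rw [hue]
        _ = u * (e * (g₁ * g₂)) := by group
    exact Cfsg.Agent.Helper18.thompson_AxB (p := r) (pCore r H) (S ⊓ pCore r H) hPr
      (hPr.to_le inf_le_right) (inf_le_right.trans Subgroup.le_normalizer) x
      (fun u hu => hPn.conj_mem u hu x) (isPGroup_orderOf_coprime_h9 hne hX hx) (h3a x hx)
      (fun u hu hus => h3a x hx u ⟨h3b u hu hus, hu⟩)

/-- the centre of `O_s(H)` centralizes `F*(H)`. -/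
theorem pCore_center_comm_gfitting_h9 {H : Type u} [Group H] [Finite H] (s : ℕ) [hs : Fact s.Prime]
    (z : H) (hz : z ∈ pCore s H) (hzc : ∀ u ∈ pCore s H, z * u = u * z) :
    ∀ g ∈ generalizedFittingSubgroup H, z * g = g * z := by
  have hzF : z ∈ fittingSubgroup H := pCore_le_fitting_h9 s hz
  have hPs : IsPGroup s (pCore s H) := Cfsg.Agent.S0010.pCore_isPGroup s
  have h1 : layer H ≤ Subgroup.centralizer ({z} : Set H) := by
    intro e he
    rw [Subgroup.mem_centralizer_singleton_iff]
    have h1 := Helper10.layer_comm_fitting H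
    rw [Subgroup.commutator_eq_bot_iff_le_centralizer] at h1
    exact ((Subgroup.mem_centralizer_iff.mp (h1 he)) z hzF).symm
  have h2 : fittingSubgroup H ≤ Subgroup.centralizer ({z} : Set H) := by
    rw [Cfsg.Agent.S0009.result]
    apply iSup_le
    intro t
    intro u hu
    rw [Subgroup.mem_centralizer_singleton_iff]
    haveI : Fact (t : ℕ).Prime := ⟨t.2⟩
    by_cases hts : (t : ℕ) = s
    · rw [hts] at hu
      exact (hzc u hu).symm
    · have hco : (orderOf z).Coprime (t : ℕ) := isPGroup_orderOf_coprime_h9 hts hPs hz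
      exact pCore_comm_coprime_h9 (t : ℕ) u hu z hzF hco
  intro g hg
  have h3 : g ∈ Subgroup.centralizer ({z} : Set H) := (sup_le h1 h2) hg
  rw [Subgroup.mem_centralizer_singleton_iff] at h3
  exact h3.symm

theorem pCore_eq_bot_of_not_dvd_h9 {H : Type u} [Group H] [Finite H] (q : ℕ) [hq : Fact q.Prime]
    (h : ¬ q ∣ Nat.card (fittingSubgroup H)) : pCore q H = ⊥ := by
  have hP : IsPGroup q (pCore q H) := Cfsg.Agent.S0010.pCore_isPGroup q
  obtain ⟨k, hk⟩ := IsPGroup.iff_card.mp hP
  have hdvd : Nat.card (pCore q H) ∣ Nat.card (fittingSubgroup H) :=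
    Subgroup.card_dvd_of_le (pCore_le_fitting_h9 q)
  rcases Nat.eq_zero_or_pos k with rfl | hkpos
  · rw [pow_zero] at hk
    exact Subgroup.card_eq_one.mp hk
  · exfalso
    apply h
    refine dvd_trans ?_ hdvd
    rw [hk]
    exact dvd_pow_self q hkpos.ne'

theorem pCore_ne_bot_of_dvd_h9 {H : Type u} [Group H] [Finite H] (s : ℕ) [hs : Fact s.Prime]
    (h : s ∣ Nat.card (fittingSubgroup H)) : pCore s H ≠ ⊥ := by
  obtain ⟨x, hx⟩ := exists_prime_orderOf_dvd_card' (G := ↥(fittingSubgroup H)) s h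
  intro hbot
  have h1 : (x : H) ∈ pCore s H := by
    apply mem_pCore_of_mem_fitting_h9 s (x : H) x.2 ⟨1, ?_⟩
    rw [pow_one, ← Subgroup.coe_pow, ← hx, pow_orderOf_eq_one, Subgroup.coe_one]
  rw [hbot, Subgroup.mem_bot] at h1
  have h2 : x = 1 := Subtype.ext h1
  rw [h2, orderOf_one] at hx
  exact hs.out.ne_one hx.symm

/-- **Bender**, first part: if moreover `O_q(H) = 1` then `X = 1`. -/
theorem bender_trivial_h9 {H : Type u} [Group H] [Finite H] {q : ℕ} [hq : Fact q.Prime]
    (S X : Subgroup H) (hSF : S ≤ generalizedFittingSubgroup H) (hSsn : S.IsSubnormal)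
    (hSC : generalizedFittingSubgroup H ⊓ Subgroup.centralizer (S : Set H) ≤ S)
    (hX : IsPGroup q X) (hSX : S ≤ Subgroup.normalizer (X : Set H))
    (hqF : ¬ q ∣ Nat.card (fittingSubgroup H)) : X = ⊥ := by
  obtain ⟨hLS, hXE, hXr⟩ := bender_cent_h9 S X hSF hSsn hSC hX hSX
  have hPq : pCore q H = ⊥ := pCore_eq_bot_of_not_dvd_h9 q hqF
  have hFn : (generalizedFittingSubgroup H).Normal := Helper10.gfitting_normal H
  rw [eq_bot_iff]
  intro x hx
  -- x centralizes F*
  have h1 : layer H ≤ Subgroup.centralizer ({x} : Set H) := by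
    intro e he
    rw [Subgroup.mem_centralizer_singleton_iff]
    exact (hXE x hx e he).symm
  have h2 : fittingSubgroup H ≤ Subgroup.centralizer ({x} : Set H) := by
    rw [Cfsg.Agent.S0009.result]
    apply iSup_le
    intro t u hu
    rw [Subgroup.mem_centralizer_singleton_iff]
    by_cases htq : (t : ℕ) = q
    · rw [htq, hPq, Subgroup.mem_bot] at hu
      rw [hu, one_mul, mul_one]
    · exact (hXr (t : ℕ) t.2 htq x hx u hu).symm
  have h3 : ∀ g ∈ generalizedFittingSubgroup H, g * x = x * g := by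
    intro g hg
    have := (sup_le h1 h2) hg
    rwa [Subgroup.mem_centralizer_singleton_iff] at this
  have hxC : x ∈ Subgroup.centralizer (generalizedFittingSubgroup H : Set H) := by
    rw [Subgroup.mem_centralizer_iff]
    exact h3
  have hxF : x ∈ generalizedFittingSubgroup H := Helper10.centralizer_gfitting_le H hxC
  -- the centre of F* is a normal abelian subgroup, hence lies in the Fitting subgroup
  set Zc : Subgroup H := generalizedFittingSubgroup H ⊓
    Subgroup.centralizer (generalizedFittingSubgroup H : Set H) with hZc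
  have hZn : Zc.Normal := by
    have : (Subgroup.centralizer (generalizedFittingSubgroup H : Set H)).Normal :=
      Subgroup.normal_centralizer
    exact Subgroup.normal_inf_normal _ _
  have hZnil : Group.IsNilpotent Zc := by
    letI cg : CommGroup Zc :=
      { (inferInstance : Group Zc) with
        mul_comm := fun a b => Subtype.ext
          ((Subgroup.mem_centralizer_iff.mp b.2.2) a a.2.1) }
    exact CommGroup.isNilpotent
  have hZF : Zc ≤ fittingSubgroup H := le_sSup ⟨hZn, hZnil⟩
  have hxZ : x ∈ fittingSubgroup H := hZF ⟨hxF, hxC⟩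
  have hxP : x ∈ pCore q H := by
    apply mem_pCore_of_mem_fitting_h9 q x hxZ
    obtain ⟨k, hk⟩ := hX ⟨x, hx⟩
    exact ⟨k, by simpa using congrArg Subtype.val hk⟩
  rwa [hPq] at hxP

end Cfsg.Agent.Helper9
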