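import Cfsg.Agent.Helper9.Bend2
import Cfsg.Agent.Helper9.QD2

/-!
# A lemma of Bender on subnormal self-centralizing subgroups of `F*` (helper9), part 3:
transfer to a maximal subgroup `A` of a simple group `G`.
-/

set_option autoImplicit false
open Cfsg
open scoped commutatorElement

namespace Cfsg.Agent.Helper9

universe u

/-- Transfer of Bender's lemma to a subgroup `A` of `G`. -/
theorem bender_transfer_h9 {G : Type u} [Group G] [Finite G] (A : Subgroup G) {p : ℕ}
    [Fact p.Prime] (S X : Subgroup G)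
    (hSF : S ≤ (generalizedFittingSubgroup ↥A).map A.subtype)
    (hSsn : (S.subgroupOf ((generalizedFittingSubgroup ↥A).map A.subtype)).IsSubnormal)
    (hSC : (generalizedFittingSubgroup ↥A).map A.subtype ⊓ Subgroup.centralizer (S : Set G) ≤ S)
    (hXA : X ≤ A) (hX : IsPGroup p X) (hSX : S ≤ Subgroup.normalizer (X : Set G)) :
    ((layer ↥A).map A.subtype ≤ S) ∧
    (∀ x ∈ X, ∀ e ∈ (layer ↥A).map A.subtype, x * e = e * x) ∧
    (∀ r : ℕ, r.Prime → r ≠ p → ∀ x ∈ X, ∀ u ∈ (pCore r ↥A).map A.subtype, x * u = u * x) ∧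
    (¬ p ∣ Nat.card (fittingSubgroup ↥A) → X = ⊥) := by
  set F := generalizedFittingSubgroup ↥A with hF
  have hSA : S ≤ A := hSF.trans (Subgroup.map_subtype_le _)
  have h1 : S.subgroupOf A ≤ F := by
    intro a ha
    have ha' : (a : G) ∈ S := ha
    obtain ⟨b, hb, hba⟩ := hSF ha'
    have : b = a := Subtype.ext hba
    rw [← this]; exact hb
  have h2 : ((S.subgroupOf A).subgroupOf F).IsSubnormal := by
    have h := hSsn.comap (A.subtype.subgroupMap F)
    have e : (S.subgroupOf (F.map A.subtype)).comap (A.subtype.subgroupMap F)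
        = (S.subgroupOf A).subgroupOf F := by
      ext x
      simp [Subgroup.mem_subgroupOf]
    rwa [e] at h
  have h3 : (S.subgroupOf A).IsSubnormal :=
    Subgroup.IsSubnormal.trans h1 h2 (Helper10.gfitting_normal ↥A).isSubnormal
  have h4 : F ⊓ Subgroup.centralizer ((S.subgroupOf A : Subgroup ↥A) : Set ↥A)
      ≤ S.subgroupOf A := by
    rintro x ⟨hxF, hxC⟩
    show (x : G) ∈ S
    apply hSC
    refine ⟨⟨x, hxF, rfl⟩, Subgroup.mem_centralizer_iff.mpr ?_⟩
    intro s hs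
    have := (Subgroup.mem_centralizer_iff.mp hxC) ⟨s, hSA hs⟩ hs
    exact congrArg Subtype.val this
  have h5 : IsPGroup p (X.subgroupOf A) := hX.comap_subtype
  have h6 : S.subgroupOf A ≤ Subgroup.normalizer ((X.subgroupOf A : Subgroup ↥A) : Set ↥A) := by
    intro a ha
    rw [Subgroup.mem_normalizer_iff]
    intro x
    exact (Subgroup.mem_normalizer_iff.mp (hSX ha)) (x : G)
  obtain ⟨hLS, hXE, hXr⟩ := bender_cent_h9 (S.subgroupOf A) (X.subgroupOf A) h1 h3 h4 h5 h6
  refine ⟨?_, ?_, ?_, ?_⟩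
  · rintro _ ⟨e, he, rfl⟩
    exact hLS he
  · rintro x hx _ ⟨e, he, rfl⟩
    exact congrArg Subtype.val (hXE ⟨x, hXA hx⟩ hx e he)
  · rintro r hr hne x hx _ ⟨u, hu, rfl⟩
    exact congrArg Subtype.val (hXr r hr hne ⟨x, hXA hx⟩ hx u hu)
  · intro hq
    have := bender_trivial_h9 (S.subgroupOf A) (X.subgroupOf A) h1 h3 h4 h5 h6 hq
    rw [eq_bot_iff]
    intro x hx
    have hx' : (⟨x, hXA hx⟩ : ↥A) ∈ X.subgroupOf A := hx
    rw [this, Subgroup.mem_bot] at hx'
    exact congrArg Subtype.val hx'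

/-- a nontrivial subgroup of the coatom `A` normalized by `A` has normalizer inside `A`. -/
theorem normalizer_le_coatom_h9 {G : Type*} [Group G] [IsSimpleGroup G] (A : Subgroup G)
    (hA : IsCoatom A) (K : Subgroup G) (hK : K ≠ ⊥) (hKA : K ≤ A)
    (hAK : A ≤ Subgroup.normalizer (K : Set G)) :
    Subgroup.normalizer (K : Set G) ≤ A := by
  rcases eq_or_lt_of_le hAK with h | h
  · exact h.ge
  · exfalso
    have h1 : Subgroup.normalizer (K : Set G) = ⊤ := hA.2 _ h
    have h2 : K.Normal := Subgroup.normalizer_eq_top_iff.mp h1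
    rcases h2.eq_bot_or_eq_top with h3 | h3
    · exact hK h3
    · rw [h3] at hKA
      exact hA.1 (top_le_iff.mp hKA)

theorem commutator_le_of_le_normalizer_h9 {G : Type*} [Group G] (H₁ H₂ : Subgroup G)
    (h : H₂ ≤ Subgroup.normalizer (H₁ : Set G)) : ⁅H₁, H₂⁆ ≤ H₁ := by
  rw [Subgroup.commutator_le]
  intro g₁ hg₁ g₂ hg₂
  have h1 : g₂ * g₁⁻¹ * g₂⁻¹ ∈ H₁ :=
    (Subgroup.mem_normalizer_iff.mp (h hg₂) g₁⁻¹).mp (H₁.inv_mem hg₁)
  have : ⁅g₁, g₂⁆ = g₁ * (g₂ * g₁⁻¹ * g₂⁻¹) := by rw [commutatorElement_def]; group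
  rw [this]; exact H₁.mul_mem hg₁ h1

/-- the image in `G` of a normal subgroup of `A` is normalized by `A`. -/
theorem le_normalizer_map_subtype_h9 {G : Type*} [Group G] (A : Subgroup G) (N : Subgroup ↥A)
    [hN : N.Normal] : A ≤ Subgroup.normalizer ((N.map A.subtype : Subgroup G) : Set G) := by
  intro a ha
  rw [Subgroup.mem_normalizer_iff]
  intro g
  constructor
  · rintro ⟨n, hn, rfl⟩
    exact ⟨⟨a, ha⟩ * n * ⟨a, ha⟩⁻¹, hN.conj_mem n hn ⟨a, ha⟩, rfl⟩
  · rintro ⟨n, hn, hng⟩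
    refine ⟨⟨a, ha⟩⁻¹ * n * ⟨a, ha⟩, ?_, ?_⟩
    · have := hN.conj_mem n hn ⟨a, ha⟩⁻¹
      simpa using this
    · have h1 : (A.subtype n : G) = a * g * a⁻¹ := hng
      simp only [map_mul, map_inv, Subgroup.subtype_apply] at h1 ⊢
      rw [h1]; group

theorem comm_eq_one_of_coprime_h9 {G : Type*} [Group G] (t x c : G)
    (hc : c = t * x * t⁻¹ * x⁻¹) (hcx : c * x = x * c)
    (hco : (orderOf c).Coprime (orderOf x)) : c = 1 := by
  have h1 : c * x = t * x * t⁻¹ := by rw [hc]; group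
  have h2 : (c * x) ^ orderOf x = c ^ orderOf x * x ^ orderOf x :=
    (show Commute c x from hcx).mul_pow _
  have h3 : (t * x * t⁻¹) ^ orderOf x = 1 := by
    rw [conj_pow, pow_orderOf_eq_one]; group
  have h4 : c ^ orderOf x = 1 := by
    rw [h1, h3, pow_orderOf_eq_one, mul_one] at h2
    exact h2.symm
  have h5 : orderOf c ∣ orderOf x := orderOf_dvd_of_pow_eq_one h4
  have h6 : orderOf c = 1 := Nat.Coprime.eq_one_of_dvd hco h5
  exact orderOf_eq_one_iff.mp h6

/-- properties of the image in `G` of the centre of `O_s(A)`. -/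
theorem pCore_center_props_h9 {G : Type u} [Group G] [Finite G] (A : Subgroup G) (s : ℕ)
    [hs : Fact s.Prime] (S : Subgroup G)
    (hSF : S ≤ (generalizedFittingSubgroup ↥A).map A.subtype)
    (hSC : (generalizedFittingSubgroup ↥A).map A.subtype ⊓ Subgroup.centralizer (S : Set G) ≤ S)
    (hne : pCore s ↥A ≠ ⊥) :
    ∃ ZA : Subgroup G, ZA ≠ ⊥ ∧ ZA ≤ A ∧ A ≤ Subgroup.normalizer (ZA : Set G) ∧ ZA ≤ S ∧
      ZA ≤ (pCore s ↥A).map A.subtype := by
  set P : Subgroup ↥A := pCore s ↥A with hP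
  have hPn : P.Normal := Cfsg.Agent.S0010.pCore_normal s
  have hPp : IsPGroup s P := Cfsg.Agent.S0010.pCore_isPGroup s
  set Z : Subgroup ↥A := P ⊓ Subgroup.centralizer (P : Set ↥A) with hZ
  have hZn : Z.Normal := by
    have : (Subgroup.centralizer (P : Set ↥A)).Normal := Subgroup.normal_centralizer
    exact Subgroup.normal_inf_normal _ _
  have hZne : Z ≠ ⊥ := by
    haveI : Nontrivial P := (Subgroup.nontrivial_iff_ne_bot P).mpr hne
    haveI := hPp.center_nontrivial
    obtain ⟨z, hz⟩ := exists_ne (1 : Subgroup.center P)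
    intro hbot
    have hzZ : ((z : P) : ↥A) ∈ Z := by
      refine ⟨(z : P).2, Subgroup.mem_centralizer_iff.mpr ?_⟩
      intro u hu
      have := (Subgroup.mem_center_iff.mp z.2) ⟨u, hu⟩
      exact congrArg Subtype.val this
    rw [hbot, Subgroup.mem_bot] at hzZ
    apply hz
    exact Subtype.ext (Subtype.ext hzZ)
  refine ⟨Z.map A.subtype, ?_, Subgroup.map_subtype_le _, le_normalizer_map_subtype_h9 A Z, ?_,
    Subgroup.map_mono inf_le_left⟩
  · intro h
    exact hZne ((Subgroup.map_eq_bot_iff_of_injective _ A.subtype_injective).mp h)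
  · have hcent : ∀ z ∈ Z.map A.subtype,
        ∀ g ∈ (generalizedFittingSubgroup ↥A).map A.subtype, z * g = g * z := by
      rintro _ ⟨z, hz, rfl⟩ _ ⟨g, hg, rfl⟩
      have := pCore_center_comm_gfitting_h9 s z hz.1
        (fun u hu => ((Subgroup.mem_centralizer_iff.mp hz.2) u hu).symm) g hg
      exact congrArg Subtype.val this
    intro z hz
    apply hSC
    refine ⟨?_, Subgroup.mem_centralizer_iff.mpr ?_⟩
    · obtain ⟨z', hz', rfl⟩ := hz
      exact ⟨z', (Helper10.fitting_le_gfitting ↥A) (pCore_le_fitting_h9 s hz'.1), rfl⟩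
    · intro s' hs'
      exact (hcent z hz s' (hSF hs')).symm

end Cfsg.Agent.Helper9
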