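import Cfsg.Agent.Helper9.Bend3

/-!
# A lemma of Bender on subnormal self-centralizing subgroups of `F*` (helper9), part 4:
the main argument in a maximal subgroup `A` of a simple group `G`.
-/

set_option autoImplicit false
open Cfsg
open scoped commutatorElement

namespace Cfsg.Agent.Helper9

universe u

theorem bender_main_h9 {G : Type u} [Group G] [Finite G] [IsSimpleGroup G] (A : Subgroup G)
    (hA : IsCoatom A) {p : ℕ} [hp : Fact p.Prime] (S Y : Subgroup G)
    (hSF : S ≤ (generalizedFittingSubgroup ↥A).map A.subtype)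
    (hSsn : (S.subgroupOf ((generalizedFittingSubgroup ↥A).map A.subtype)).IsSubnormal)
    (hSC : (generalizedFittingSubgroup ↥A).map A.subtype ⊓ Subgroup.centralizer (S : Set G) ≤ S)
    (hY : IsPGroup p Y) (hSY : S ≤ Subgroup.normalizer (Y : Set G))
    (hpF : p ∣ Nat.card (fittingSubgroup ↥A)) :
    (∀ x ∈ Y, ∀ e ∈ (layer ↥A).map A.subtype, x * e = e * x) ∧
    (∀ r : ℕ, r.Prime → r ≠ p → ∀ x ∈ Y, ∀ u ∈ (pCore r ↥A).map A.subtype, x * u = u * x) := by
  classical
  have hSA : S ≤ A := hSF.trans (Subgroup.map_subtype_le _)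
  obtain ⟨ZA, hZAne, hZAA, hAZA, hZAS, hZAP⟩ :=
    pCore_center_props_h9 A p S hSF hSC (pCore_ne_bot_of_dvd_h9 p hpF)
  have hNZA : Subgroup.normalizer (ZA : Set G) ≤ A :=
    normalizer_le_coatom_h9 A hA ZA hZAne hZAA hAZA
  have hZAp : IsPGroup p ZA :=
    ((Cfsg.Agent.S0010.pCore_isPGroup (G := ↥A) p).map A.subtype).to_le hZAP
  -- the `p`-group `T = Y ZA`
  set T : Subgroup G := Y ⊔ ZA with hT
  have hTp : IsPGroup p T := IsPGroup.to_sup_of_normal_left' hY hZAp (hZAS.trans hSY)
  have hST : S ≤ Subgroup.normalizer (T : Set G) :=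
    (le_inf hSY (hSA.trans hAZA)).trans (Subgroup.normalizer_inf_normalizer_le_normalizer_sup Y ZA)
  set W : Subgroup G := T ⊓ A with hW
  have hWp : IsPGroup p W := hTp.to_le inf_le_left
  have hSW : S ≤ Subgroup.normalizer (W : Set G) :=
    (le_inf hST (hSA.trans Subgroup.le_normalizer)).trans
      Subgroup.inf_normalizer_le_normalizer_inf
  have hZAW : ZA ≤ W := le_inf le_sup_right hZAA
  obtain ⟨hES, hWE, hWr, -⟩ := bender_transfer_h9 A S W hSF hSsn hSC inf_le_right hWp hSW
  by_cases hTA : T ≤ A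
  · have hYW : Y ≤ W := le_inf le_sup_left (le_sup_left.trans hTA)
    exact ⟨fun x hx => hWE x (hYW hx), fun r hr hne x hx => hWr r hr hne x (hYW hx)⟩
  · -- `T ≰ A`: then `E(A) = 1` and `O_r(A) = 1` for `r ≠ p`.
    have hWT : W < T := lt_of_le_of_ne inf_le_left (fun h => hTA (h ▸ inf_le_right))
    haveI : Group.IsNilpotent T := hTp.isNilpotent
    have hlt : W.subgroupOf T < ⊤ :=
      lt_top_iff_ne_top.mpr (fun h => hWT.not_ge (Subgroup.subgroupOf_eq_top.mp h))
    have hnc := Group.normalizerCondition_of_isNilpotent (G := T) (W.subgroupOf T) hlt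
    obtain ⟨t, htN, htW⟩ := SetLike.exists_of_lt hnc
    have htA : (t : G) ∉ A := fun h => htW ⟨t.2, h⟩
    have htNW : (t : G) ∈ Subgroup.normalizer (W : Set G) := by
      apply mem_normalizer_of_conj_mem
      intro w hw
      have := (Subgroup.mem_normalizer_iff.mp htN ⟨w, hw.1⟩).mp hw
      exact this
    set zt : Subgroup G := Subgroup.zpowers (t : G) with hzt
    have hztT : zt ≤ T := Subgroup.zpowers_le.mpr t.2
    have hCWA : Subgroup.centralizer (W : Set G) ≤ A :=
      ((Subgroup.centralizer_le (show (ZA : Set G) ⊆ W from hZAW)).trans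
        (Subgroup.centralizer_le_normalizer _)).trans hNZA
    have key : ∀ X₀ : Subgroup G, X₀ ≤ S → (∀ w ∈ W, ∀ x ∈ X₀, w * x = x * w) →
        ⁅zt, X₀⁆ ≤ W := by
      intro X₀ hX₀S hX₀W
      have h1 : ⁅X₀, W⁆ = ⊥ := by
        rw [Subgroup.commutator_eq_bot_iff_le_centralizer]
        intro x hx
        exact Subgroup.mem_centralizer_iff.mpr (fun w hw => hX₀W w hw x hx)
      have h2 : ⁅⁅X₀, W⁆, zt⁆ = ⊥ := by rw [h1]; exact Subgroup.commutator_bot_left _
      have h3 : ⁅⁅W, zt⁆, X₀⁆ = ⊥ := by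
        have h3a : ⁅W, zt⁆ ≤ W :=
          commutator_le_of_le_normalizer_h9 W zt (Subgroup.zpowers_le.mpr htNW)
        have h3b : ⁅⁅W, zt⁆, X₀⁆ ≤ ⁅W, X₀⁆ := Subgroup.commutator_mono h3a le_rfl
        rw [Subgroup.commutator_comm W X₀, h1] at h3b
        exact le_bot_iff.mp h3b
      have h4 : ⁅⁅zt, X₀⁆, W⁆ = ⊥ := Subgroup.commutator_commutator_eq_bot_of_rotate h2 h3
      have h5 : ⁅zt, X₀⁆ ≤ Subgroup.centralizer (W : Set G) :=
        Subgroup.commutator_eq_bot_iff_le_centralizer.mp h4
      have h6 : ⁅zt, X₀⁆ ≤ T :=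
        (Subgroup.commutator_mono hztT le_rfl).trans
          (commutator_le_of_le_normalizer_h9 T X₀ (hX₀S.trans hST))
      exact le_inf h6 (h5.trans hCWA)
    -- `E(A) = 1`
    set EA : Subgroup G := (layer ↥A).map A.subtype with hEA
    have hEbot : EA = ⊥ := by
      by_contra hne
      have k := key EA hES hWE
      have h1 : ⁅⁅zt, EA⁆, EA⁆ = ⊥ := by
        rw [Subgroup.commutator_eq_bot_iff_le_centralizer]
        intro c hc
        exact Subgroup.mem_centralizer_iff.mpr (fun e he => (hWE c (k hc) e he).symm)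
      have h2 : ⁅⁅EA, zt⁆, EA⁆ = ⊥ := by rw [Subgroup.commutator_comm EA zt]; exact h1
      have h3 : ⁅⁅EA, EA⁆, zt⁆ = ⊥ := Subgroup.commutator_commutator_eq_bot_of_rotate h2 h1
      have hperf : ⁅EA, EA⁆ = EA := by
        rw [hEA, ← Subgroup.map_commutator, Helper10.layer_perfect]
      rw [hperf, Subgroup.commutator_eq_bot_iff_le_centralizer] at h3
      have htC : (t : G) ∈ Subgroup.centralizer (EA : Set G) := by
        refine Subgroup.mem_centralizer_iff.mpr ?_
        intro e he
        exact ((Subgroup.mem_centralizer_iff.mp (h3 he)) (t : G) (Subgroup.mem_zpowers _)).symm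
      haveI := Helper10.layer_normal ↥A
      have hNE : Subgroup.normalizer (EA : Set G) ≤ A :=
        normalizer_le_coatom_h9 A hA EA hne (Subgroup.map_subtype_le _)
          (le_normalizer_map_subtype_h9 A (layer ↥A))
      exact htA (hNE (Subgroup.centralizer_le_normalizer _ htC))
    have hrbot : ∀ r : ℕ, r.Prime → r ≠ p → pCore r ↥A = ⊥ := by
      intro r hr hne
      haveI : Fact r.Prime := ⟨hr⟩
      by_contra hne'
      obtain ⟨ZR, hZRne, hZRA, hAZR, hZRS, hZRP⟩ := pCore_center_props_h9 A r S hSF hSC hne'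
      have hNZR : Subgroup.normalizer (ZR : Set G) ≤ A :=
        normalizer_le_coatom_h9 A hA ZR hZRne hZRA hAZR
      have hWZR : ∀ w ∈ W, ∀ x ∈ ZR, w * x = x * w :=
        fun w hw x hx => hWr r hr hne w hw x (hZRP hx)
      have k := key ZR hZRS hWZR
      have hZRr : IsPGroup r ZR :=
        ((Cfsg.Agent.S0010.pCore_isPGroup (G := ↥A) r).map A.subtype).to_le hZRP
      have htC : (t : G) ∈ Subgroup.centralizer (ZR : Set G) := by
        refine Subgroup.mem_centralizer_iff.mpr ?_
        intro x hx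
        have hcW : ⁅(t : G), x⁆ ∈ W :=
          k (Subgroup.commutator_mem_commutator (Subgroup.mem_zpowers _) hx)
        have hcx : ⁅(t : G), x⁆ * x = x * ⁅(t : G), x⁆ := hWZR _ hcW x hx
        have hco : (orderOf ⁅(t : G), x⁆).Coprime (orderOf x) := by
          have h1 : (orderOf ⁅(t : G), x⁆).Coprime r :=
            isPGroup_orderOf_coprime_h9 hne hWp hcW
          obtain ⟨j, hj⟩ := (IsPGroup.iff_orderOf.mp hZRr) ⟨x, hx⟩
          rw [Subgroup.orderOf_mk] at hj
          rw [hj]
          exact Nat.Coprime.pow_right j h1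
        have h1 := comm_eq_one_of_coprime_h9 (t : G) x ⁅(t : G), x⁆
          (by rw [commutatorElement_def]) hcx hco
        rw [commutatorElement_def] at h1
        calc x * (t : G) = ((t : G) * x * (t : G)⁻¹ * x⁻¹)⁻¹ * ((t : G) * x) := by group
          _ = (t : G) * x := by rw [h1, inv_one, one_mul]
      exact htA (hNZR (Subgroup.centralizer_le_normalizer _ htC))
    refine ⟨?_, ?_⟩
    · intro x _ e he
      rw [hEbot, Subgroup.mem_bot] at he
      rw [he, mul_one, one_mul]
    · intro r hr hne x _ u hu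
      rw [hrbot r hr hne, Subgroup.map_bot, Subgroup.mem_bot] at hu
      rw [hu, mul_one, one_mul]

theorem bender_final_h9 {G : Type u} [Group G] [Finite G] (A : Subgroup G) {p : ℕ}
    [hp : Fact p.Prime] (x : G)
    (hE : ∀ e ∈ (layer ↥A).map A.subtype, x * e = e * x)
    (hr : ∀ r : ℕ, r.Prime → r ≠ p → ∀ u ∈ (pCore r ↥A).map A.subtype, x * u = u * x) :
    ∀ y ∈ (pResidual p ↥(generalizedFittingSubgroup ↥A)).map
        (generalizedFittingSubgroup ↥A).subtype,
      x * (A.subtype y) = (A.subtype y) * x := by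
  set C : Subgroup ↥A := (Subgroup.centralizer ({x} : Set G)).subgroupOf A with hC
  have hCmem : ∀ a : ↥A, a ∈ C ↔ (a : G) * x = x * (a : G) := by
    intro a
    rw [hC, Subgroup.mem_subgroupOf, Subgroup.mem_centralizer_singleton_iff]
  set N : Subgroup ↥A := C.normalCore with hN
  have hNn : N.Normal := Subgroup.normalCore_normal C
  have hLN : layer ↥A ≤ N := by
    haveI := Helper10.layer_normal ↥A
    rw [hN, Subgroup.normal_le_normalCore]
    intro e he
    rw [hCmem]
    exact (hE _ ⟨e, he, rfl⟩).symm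
  have hrN : ∀ r : ℕ, r.Prime → r ≠ p → pCore r ↥A ≤ N := by
    intro r hr' hne
    haveI := Cfsg.Agent.S0010.pCore_normal (G := ↥A) r
    rw [hN, Subgroup.normal_le_normalCore]
    intro u hu
    rw [hCmem]
    exact (hr r hr' hne _ ⟨u, hu, rfl⟩).symm
  set P : Subgroup ↥A := pCore p ↥A with hP
  have hPp : IsPGroup p P := Cfsg.Agent.S0010.pCore_isPGroup p
  have hFle : generalizedFittingSubgroup ↥A ≤ N ⊔ P := by
    apply sup_le
    · exact hLN.trans le_sup_left
    · rw [Cfsg.Agent.S0009.result]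
      apply iSup_le
      intro t
      by_cases htp : (t : ℕ) = p
      · rw [htp]; exact le_sup_right
      · exact (hrN t t.2 htp).trans le_sup_left
  have hy' : (pResidual p ↥(generalizedFittingSubgroup ↥A)).map
      (generalizedFittingSubgroup ↥A).subtype ≤ C := by
    rw [Subgroup.map_le_iff_le_comap]
    unfold pResidual
    rw [Subgroup.closure_le]
    intro g hg
    have hg' : Nat.Coprime (orderOf g) p := hg
    show (g : ↥A) ∈ C
    have hgF : (g : ↥A) ∈ ((N ⊔ P : Subgroup ↥A) : Set ↥A) := hFle g.2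
    rw [Subgroup.normal_mul] at hgF
    obtain ⟨n, hn, a, ha, hna⟩ := Set.mem_mul.mp hgF
    obtain ⟨k, hk⟩ := IsPGroup.iff_card.mp hPp
    have h1 : (g : ↥A) ^ (p ^ k) ∈ N := by
      rw [← QuotientGroup.eq_one_iff, QuotientGroup.mk_pow, ← hna, QuotientGroup.mk_mul,
        (QuotientGroup.eq_one_iff n).mpr hn, one_mul, ← QuotientGroup.mk_pow]
      have ha1 : a ^ (p ^ k) = 1 := by
        have := pow_card_eq_one' (G := ↥P) (x := ⟨a, ha⟩)
        rw [hk] at this
        exact congrArg Subtype.val this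
      rw [ha1]; rfl
    have hco : (p ^ k).Coprime (orderOf (g : ↥A)) := by
      rw [Subgroup.orderOf_coe]
      exact Nat.Coprime.pow_left k hg'.symm
    obtain ⟨m, hm⟩ := exists_pow_eq_self_of_coprime hco
    rw [← hm]
    exact (Subgroup.normalCore_le C) (N.pow_mem h1 m)
  intro y hy
  have := (hCmem y).mp (hy' hy)
  exact this.symm

end Cfsg.Agent.Helper9
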