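import Mathlib
import Cfsg.Prelude.Def_Involutions
import Cfsg.Agent.Helper9.StrEmb

set_option autoImplicit false

namespace Cfsg.Agent.Helper9

section cit

variable {G : Type*} [Group G] [Finite G] (T : Sylow 2 G)

/-- the CIT hypothesis: centralizers of involutions are elementary abelian 2-groups -/
def CITHyp (G : Type*) [Group G] : Prop :=
  ∀ t : G, orderOf t = 2 → IsMulCommutative (Subgroup.centralizer ({t} : Set G)) ∧
    ∀ c ∈ Subgroup.centralizer ({t} : Set G), c ^ 2 = 1

theorem cit_centralizer_pgroup (hC : CITHyp G) {t : G} (ht : orderOf t = 2) :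
    IsPGroup 2 (Subgroup.centralizer ({t} : Set G)) := by
  intro c
  refine ⟨1, ?_⟩
  rw [pow_one]
  apply Subtype.ext
  simpa using (hC t ht).2 c c.2

theorem cit_ne_bot (hnc : ¬ IsCyclic (T : Subgroup G)) : (T : Subgroup G) ≠ ⊥ := by
  intro h
  apply hnc
  have : Subsingleton (T : Subgroup G) := by
    rw [h]; infer_instance
  exact isCyclic_of_subsingleton

/-- a central involution of `T` -/
theorem cit_exists_central (hnc : ¬ IsCyclic (T : Subgroup G)) :
    ∃ z : G, z ∈ (T : Subgroup G) ∧ orderOf z = 2 ∧ ∀ s ∈ (T : Subgroup G), s * z = z * s := by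
  have hfact : Fact (Nat.Prime 2) := ⟨Nat.prime_two⟩
  have hnt : Nontrivial (T : Subgroup G) :=
    (Subgroup.nontrivial_iff_ne_bot _).2 (cit_ne_bot T hnc)
  have hcn : Nontrivial (Subgroup.center (T : Subgroup G)) := T.2.center_nontrivial
  have hcp : IsPGroup 2 (Subgroup.center (T : Subgroup G)) := T.2.to_subgroup _
  obtain ⟨n, hn, hcard⟩ := hcp.nontrivial_iff_card.1 hcn
  have h2 : 2 ∣ Nat.card (Subgroup.center (T : Subgroup G)) := by
    rw [hcard]; exact dvd_pow_self 2 hn.ne'
  obtain ⟨z, hz⟩ := exists_prime_orderOf_dvd_card' 2 h2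
  refine ⟨((z : (T : Subgroup G)) : G), (z : (T : Subgroup G)).2, ?_, ?_⟩
  · rw [Subgroup.orderOf_coe, Subgroup.orderOf_coe]; exact hz
  · intro s hs
    have := Subgroup.mem_center_iff.1 z.2 ⟨s, hs⟩
    exact congrArg Subtype.val this

theorem cit_centralizer_eq (hC : CITHyp G) {t : G} (ht : orderOf t = 2)
    (hT : (T : Subgroup G) ≤ Subgroup.centralizer ({t} : Set G)) :
    Subgroup.centralizer ({t} : Set G) = T :=
  T.is_maximal' (cit_centralizer_pgroup hC ht) hT

/-- `T` is elementary abelian -/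
theorem cit_elem_abelian (hnc : ¬ IsCyclic (T : Subgroup G)) (hC : CITHyp G) :
    (∀ a ∈ (T : Subgroup G), a * a = 1) ∧
      ∀ a ∈ (T : Subgroup G), ∀ b ∈ (T : Subgroup G), a * b = b * a := by
  obtain ⟨z, hzT, hz, hzc⟩ := cit_exists_central T hnc
  have hle : (T : Subgroup G) ≤ Subgroup.centralizer ({z} : Set G) := by
    intro s hs
    rw [Subgroup.mem_centralizer_singleton_iff]
    exact hzc s hs
  have heq := cit_centralizer_eq T hC hz hle
  constructor
  · intro a ha
    rw [← heq] at ha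
    have := (hC z hz).2 a ha
    rwa [pow_two] at this
  · intro a ha b hb
    rw [← heq] at ha hb
    have := (isMulCommutative_iff.1 (hC z hz).1) ⟨a, ha⟩ ⟨b, hb⟩
    exact congrArg Subtype.val this

theorem cit_centralizer_eq' (hnc : ¬ IsCyclic (T : Subgroup G)) (hC : CITHyp G) {t : G}
    (ht : orderOf t = 2) (htT : t ∈ (T : Subgroup G)) :
    Subgroup.centralizer ({t} : Set G) = T := by
  apply cit_centralizer_eq T hC ht
  intro s hs
  rw [Subgroup.mem_centralizer_singleton_iff]
  exact (cit_elem_abelian T hnc hC).2 s hs t htT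

/-- involutions of the normalizer of `T` lie in `T` -/
theorem cit_inv_mem {v : G} (hv : orderOf v = 2)
    (hvN : v ∈ Subgroup.normalizer ((T : Subgroup G) : Set G)) : v ∈ (T : Subgroup G) := by
  have hfact : Fact (Nat.Prime 2) := ⟨Nat.prime_two⟩
  have h1 : IsPGroup 2 (Subgroup.zpowers v) := by
    apply IsPGroup.of_card (n := 1)
    rw [Nat.card_zpowers, hv, pow_one]
  have h2 : Subgroup.zpowers v ≤ Subgroup.normalizer ((T : Subgroup G) : Set G) := by
    rw [Subgroup.zpowers_le]; exact hvN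
  have h3 : IsPGroup 2 (Subgroup.zpowers v ⊔ (T : Subgroup G) : Subgroup G) :=
    IsPGroup.to_sup_of_normal_right' h1 T.2 h2
  have h4 := T.is_maximal' h3 le_sup_right
  have : v ∈ (Subgroup.zpowers v ⊔ (T : Subgroup G) : Subgroup G) :=
    (le_sup_left : Subgroup.zpowers v ≤ _) (Subgroup.mem_zpowers v)
  rwa [h4] at this

/-- S1226: `N_G(T)` is strongly embedded -/
theorem cit_strEmb (hnc : ¬ IsCyclic (T : Subgroup G)) (hnn : ¬ (T : Subgroup G).Normal)
    (hC : CITHyp G) :
    Cfsg.IsStronglyEmbedded (Subgroup.normalizer ((T : Subgroup G) : Set G)) := by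
  have hfact : Fact (Nat.Prime 2) := ⟨Nat.prime_two⟩
  refine ⟨?_, ?_, ?_⟩
  · intro h
    exact hnn (Subgroup.normalizer_eq_top_iff.1 h)
  · have hnt : Nontrivial (T : Subgroup G) :=
      (Subgroup.nontrivial_iff_ne_bot _).2 (cit_ne_bot T hnc)
    obtain ⟨n, hn, hcard⟩ := T.2.nontrivial_iff_card.1 hnt
    have h2 : 2 ∣ Nat.card (T : Subgroup G) := by
      rw [hcard]; exact dvd_pow_self 2 hn.ne'
    exact even_iff_two_dvd.2 (h2.trans (Subgroup.card_dvd_of_le Subgroup.le_normalizer))
  · intro g hg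
    by_contra hodd
    rw [Nat.not_odd_iff_even] at hodd
    obtain ⟨v, hv⟩ := exists_prime_orderOf_dvd_card' 2 (even_iff_two_dvd.1 hodd)
    have hvo : orderOf (v : G) = 2 := by rw [Subgroup.orderOf_coe]; exact hv
    have hv1 : (v : G) ∈ Subgroup.normalizer ((T : Subgroup G) : Set G) := (Subgroup.mem_inf.1 v.2).1
    have hv2 : g⁻¹ * (v : G) * g ∈ Subgroup.normalizer ((T : Subgroup G) : Set G) :=
      (mem_map_conj' _ g _).1 (Subgroup.mem_inf.1 v.2).2
    generalize (v : G) = w at hvo hv1 hv2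
    have hvT : w ∈ (T : Subgroup G) := cit_inv_mem T hvo hv1
    have hvo' : orderOf (g⁻¹ * w * g) = 2 := by
      have := orderOf_conj_two hvo g⁻¹
      simpa using this
    have hvT' : g⁻¹ * w * g ∈ (T : Subgroup G) := cit_inv_mem T hvo' hv2
    have c1 := cit_centralizer_eq' T hnc hC hvo hvT
    have c2 := cit_centralizer_eq' T hnc hC hvo' hvT'
    apply hg
    rw [Subgroup.mem_normalizer_iff]
    intro h
    have m1 : h ∈ (T : Subgroup G) ↔ h * (g⁻¹ * w * g) = (g⁻¹ * w * g) * h := by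
      rw [← Subgroup.mem_centralizer_singleton_iff, c2]
    have m2 : g * h * g⁻¹ ∈ (T : Subgroup G) ↔ g * h * g⁻¹ * w = w * (g * h * g⁻¹) := by
      rw [← Subgroup.mem_centralizer_singleton_iff, c1]
    rw [m1, m2]
    constructor
    · intro e
      calc g * h * g⁻¹ * w = g * (h * (g⁻¹ * w * g)) * g⁻¹ := by group
        _ = g * ((g⁻¹ * w * g) * h) * g⁻¹ := by rw [e]
        _ = w * (g * h * g⁻¹) := by group
    · intro e
      calc h * (g⁻¹ * w * g) = g⁻¹ * (g * h * g⁻¹ * w) * g := by group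
        _ = g⁻¹ * (w * (g * h * g⁻¹)) * g := by rw [e]
        _ = g⁻¹ * w * g * h := by group

/-- S1227 -/
theorem cit_two_point (hnc : ¬ IsCyclic (T : Subgroup G)) (hnn : ¬ (T : Subgroup G).Normal)
    (hC : CITHyp G) (u : G) (hu : orderOf u = 2)
    (huH : u ∉ Subgroup.normalizer ((T : Subgroup G) : Set G)) :
    (∀ d ∈ Subgroup.normalizer ((T : Subgroup G) : Set G) ⊓
        (Subgroup.normalizer ((T : Subgroup G) : Set G)).map (MulAut.conj u).toMonoidHom,
        u * d * u⁻¹ = d⁻¹) ∧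
    Nat.card (Subgroup.normalizer ((T : Subgroup G) : Set G)) = Nat.card T * (Nat.card T - 1) ∧
    Subgroup.IsComplement'
      ((Subgroup.normalizer ((T : Subgroup G) : Set G) ⊓
        (Subgroup.normalizer ((T : Subgroup G) : Set G)).map (MulAut.conj u).toMonoidHom).subgroupOf
          (Subgroup.normalizer ((T : Subgroup G) : Set G)))
      ((T : Subgroup G).subgroupOf (Subgroup.normalizer ((T : Subgroup G) : Set G))) := by
  have hfact : Fact (Nat.Prime 2) := ⟨Nat.prime_two⟩
  set H : Subgroup G := Subgroup.normalizer ((T : Subgroup G) : Set G) with hH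
  set D : Subgroup G := H ⊓ H.map (MulAut.conj u).toMonoidHom with hD
  have hSE : Cfsg.IsStronglyEmbedded H := cit_strEmb T hnc hnn hC
  have hTH : (T : Subgroup G) ≤ H := Subgroup.le_normalizer
  have hDH : D ≤ H := inf_le_left
  have hDodd : Odd (Nat.card D) := hSE.2.2 u huH
  obtain ⟨hexp, hcomm⟩ := cit_elem_abelian T hnc hC
  -- D ∩ T = 1
  have hDT : ∀ x : G, x ∈ D → x ∈ (T : Subgroup G) → x = 1 := by
    intro x hxD hxT
    have h1 : orderOf x ∣ 2 := orderOf_dvd_of_pow_eq_one (by rw [pow_two]; exact hexp x hxT)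
    have h2 : orderOf x ∣ Nat.card D := Subgroup.orderOf_dvd_natCard _ hxD
    have h3 : orderOf x = 1 := by
      rcases (Nat.dvd_prime Nat.prime_two).1 h1 with h | h
      · exact h
      · exfalso
        rw [h] at h2
        exact (Nat.not_even_iff_odd.2 hDodd) (even_iff_two_dvd.2 h2)
    exact orderOf_eq_one_iff.1 h3
  -- a fixed involution of T
  obtain ⟨t₁, ht₁T, ht₁, -⟩ := cit_exists_central T hnc
  have hcent : Subgroup.centralizer ({t₁} : Set G) = T := cit_centralizer_eq' T hnc hC ht₁ ht₁T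
  -- every element of H is d * t with d ∈ D, t ∈ T
  have hfactor : ∀ h ∈ H, ∃ d ∈ D, ∃ t ∈ (T : Subgroup G), h = d * t := by
    intro h hh
    have hconjT : h * t₁ * h⁻¹ ∈ (T : Subgroup G) := by
      have := (Subgroup.mem_normalizer_iff.1 hh t₁).1 ht₁T
      exact this
    have hconjH : h * t₁ * h⁻¹ ∈ H := hTH hconjT
    obtain ⟨d, hd, hdc⟩ := conj_by_two_point hSE u hu huH t₁ (h * t₁ * h⁻¹) ht₁ (hTH ht₁T)
      (orderOf_conj_two ht₁ h) hconjH
    refine ⟨d, hd, d⁻¹ * h, ?_, by group⟩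
    rw [← hcent, Subgroup.mem_centralizer_singleton_iff]
    calc d⁻¹ * h * t₁ = d⁻¹ * (h * t₁ * h⁻¹) * h := by group
      _ = d⁻¹ * (d * t₁ * d⁻¹) * h := by rw [hdc]
      _ = t₁ * (d⁻¹ * h) := by group
  have hcompl : Subgroup.IsComplement' (D.subgroupOf H) ((T : Subgroup G).subgroupOf H) := by
    apply Subgroup.isComplement'_of_disjoint_and_mul_eq_univ
    · rw [disjoint_iff, Subgroup.eq_bot_iff_forall]
      rintro ⟨x, hx⟩ hmem
      rw [Subgroup.mem_inf, Subgroup.mem_subgroupOf, Subgroup.mem_subgroupOf] at hmem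
      apply Subtype.ext
      exact hDT x hmem.1 hmem.2
    · rw [Set.eq_univ_iff_forall]
      rintro ⟨h, hh⟩
      obtain ⟨d, hd, t, ht, rfl⟩ := hfactor h hh
      refine ⟨⟨d, hDH hd⟩, ?_, ⟨t, hTH ht⟩, ?_, rfl⟩
      · exact Subgroup.mem_subgroupOf.2 hd
      · exact Subgroup.mem_subgroupOf.2 ht
  have hcardD : Nat.card (D.subgroupOf H) = Nat.card D :=
    Nat.card_congr (Subgroup.subgroupOfEquivOfLe hDH).toEquiv
  have hcardT : Nat.card ((T : Subgroup G).subgroupOf H) = Nat.card T :=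
    Nat.card_congr (Subgroup.subgroupOfEquivOfLe hTH).toEquiv
  have hmul : Nat.card D * Nat.card T = Nat.card H := by
    rw [← hcardD, ← hcardT]; exact hcompl.card_mul_card
  -- the number of involutions of H is |D|
  have hinvD : Nat.card {t : G // orderOf t = 2 ∧ t ∈ H} = Nat.card D := by
    have hmapD : ∀ d : D, orderOf ((d : G) * t₁ * (d : G)⁻¹) = 2 ∧ (d : G) * t₁ * (d : G)⁻¹ ∈ H := by
      intro d
      refine ⟨orderOf_conj_two ht₁ _, ?_⟩
      exact H.mul_mem (H.mul_mem (hDH d.2) (hTH ht₁T)) (H.inv_mem (hDH d.2))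
    have hbij : Function.Bijective (fun d : D =>
        (⟨(d : G) * t₁ * (d : G)⁻¹, hmapD d⟩ : {t : G // orderOf t = 2 ∧ t ∈ H})) := by
      constructor
      · intro d d' h
        have h' : (d : G) * t₁ * (d : G)⁻¹ = (d' : G) * t₁ * (d' : G)⁻¹ := congrArg Subtype.val h
        have hmemT : (d' : G)⁻¹ * (d : G) ∈ (T : Subgroup G) := by
          rw [← hcent, Subgroup.mem_centralizer_singleton_iff]
          calc (d' : G)⁻¹ * (d : G) * t₁ = (d' : G)⁻¹ * ((d : G) * t₁ * (d : G)⁻¹) * (d : G) := by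
                group
            _ = (d' : G)⁻¹ * ((d' : G) * t₁ * (d' : G)⁻¹) * (d : G) := by rw [h']
            _ = t₁ * ((d' : G)⁻¹ * (d : G)) := by group
        have := hDT _ (D.mul_mem (D.inv_mem d'.2) d.2) hmemT
        apply Subtype.ext
        have e : (d : G) = (d' : G) * ((d' : G)⁻¹ * (d : G)) := by group
        rw [e, this, mul_one]
      · rintro ⟨t, hto, htH⟩
        obtain ⟨d, hd, hdc⟩ := conj_by_two_point hSE u hu huH t₁ t ht₁ (hTH ht₁T) hto htH
        exact ⟨⟨d, hd⟩, Subtype.ext hdc⟩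
    exact (Nat.card_congr (Equiv.ofBijective _ hbij)).symm
  -- |D| = |T| - 1
  have hcardD1 : Nat.card D + 1 = Nat.card T := by
    rw [← hinvD]
    have e : {t : G // orderOf t = 2 ∧ t ∈ H} ≃ {t : (T : Subgroup G) // t ≠ 1} :=
      { toFun := fun t => ⟨⟨t.1, cit_inv_mem T t.2.1 t.2.2⟩, fun h => inv_ne_one t.2.1
          (congrArg Subtype.val h)⟩
        invFun := fun t => ⟨t.1.1, orderOf_two_of (hexp _ t.1.2)
          (fun h => t.2 (Subtype.ext h)), hTH t.1.2⟩
        left_inv := fun t => rfl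
        right_inv := fun t => rfl }
    rw [Nat.card_congr e]
    have h1 : Nat.card {t : (T : Subgroup G) // t ≠ 1} + 1 = Nat.card (T : Subgroup G) := by
      classical
      rw [← Finite.card_option]
      exact Nat.card_congr (Equiv.optionSubtypeNe (1 : (T : Subgroup G)))
    exact h1
  refine ⟨?_, ?_, hcompl⟩
  · -- u inverts D
    set α : G ⧸ H := ((1 : G) : G ⧸ H) with hα
    set β : G ⧸ H := ((u : G) : G ⧸ H) with hβ
    have hαβ : α ≠ β := by
      intro h
      rw [hα, hβ, QuotientGroup.eq] at h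
      apply huH
      simpa using h
    have huα : u • α = β := by rw [hα, hβ]; show ((u * 1 : G) : G ⧸ H) = _; rw [mul_one]
    have huβ : u • β = α := by rw [← huα, ← mul_smul, inv_sq hu, one_smul]
    have hM : Nat.card {i : G // orderOf i = 2 ∧ i • α = β} = Nat.card D := by
      rw [card_swap_eq_card_inv hSE α β hαβ, hinvD]
    -- injection from M to J
    have hmapJ : ∀ i : {i : G // orderOf i = 2 ∧ i • α = β},
        u * (i : G) ∈ D ∧ u * (u * (i : G)) * u⁻¹ = (u * (i : G))⁻¹ := by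
      rintro ⟨i, hi, hiα⟩
      have hiβ : i • β = α := by rw [← hiα, ← mul_smul, inv_sq hi, one_smul]
      refine ⟨?_, ?_⟩
      · rw [hD, Subgroup.mem_inf]
        constructor
        · have : (u * i) • α = α := by rw [mul_smul, hiα, huβ]
          rw [hα, smul_mk_eq_iff] at this
          simpa using this
        · rw [mem_map_conj']
          have : (u * i) • β = β := by rw [mul_smul, hiβ, huα]
          rw [hβ, smul_mk_eq_iff] at this
          exact this
      · show u * (u * i) * u⁻¹ = (u * i)⁻¹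
        rw [mul_inv_rev, inv_inv_eq hu, inv_inv_eq hi, ← mul_assoc, inv_sq hu, one_mul]
    have hle : Nat.card D ≤ Nat.card {d : G // d ∈ D ∧ u * d * u⁻¹ = d⁻¹} := by
      rw [← hM]
      apply Nat.card_le_card_of_injective (fun i : {i : G // orderOf i = 2 ∧ i • α = β} =>
        (⟨u * (i : G), hmapJ i⟩ : {d : G // d ∈ D ∧ u * d * u⁻¹ = d⁻¹}))
      intro i i' h
      have h' : u * (i : G) = u * (i' : G) := congrArg Subtype.val h
      exact Subtype.ext (mul_left_cancel h')
    have hinj : Function.Injective (fun d : {d : G // d ∈ D ∧ u * d * u⁻¹ = d⁻¹} =>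
        (⟨d.1, d.2.1⟩ : D)) := by
      intro d d' h
      have h' : (⟨d.1, d.2.1⟩ : D) = ⟨d'.1, d'.2.1⟩ := h
      have h'' : d.1 = d'.1 := congrArg (fun x : D => (x : G)) h'
      exact Subtype.ext h''
    have hbij := hinj.bijective_of_nat_card_le hle
    intro d hd
    obtain ⟨⟨d', hd'1, hd'2⟩, hdd⟩ := hbij.2 ⟨d, hd⟩
    have : d' = d := congrArg Subtype.val hdd
    rw [← this]
    exact hd'2
  · rw [← hmul, ← hcardD1]
    simp [mul_comm]

end cit

end Cfsg.Agent.Helper9
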