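import Mathlib
import Cfsg.Prelude.Def_Involutions
import Cfsg.Agent.Helper9.StrEmb
import Cfsg.Agent.Helper9.CIT

set_option autoImplicit false

namespace Cfsg.Agent.Helper9

section cit2

variable {G : Type*} [Group G] [Finite G] (T : Sylow 2 G)

/-- `H = N_G(T)` -/
abbrev citH : Subgroup G := Subgroup.normalizer ((T : Subgroup G) : Set G)

/-- `D = H ∩ uHu⁻¹` -/
abbrev citD (u : G) : Subgroup G := citH T ⊓ (citH T).map (MulAut.conj u).toMonoidHom

omit [Finite G] in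
theorem smul_mk_one (H : Subgroup G) (u : G) : u • ((1 : G) : G ⧸ H) = (u : G ⧸ H) := by
  show ((u * 1 : G) : G ⧸ H) = u
  rw [mul_one]

omit [Finite G] in
theorem smul_mk_one_iff (H : Subgroup G) (d : G) : d • ((1 : G) : G ⧸ H) = ((1 : G) : G ⧸ H) ↔ d ∈ H := by
  rw [smul_mk_one, eq_comm, QuotientGroup.eq]
  simp

theorem citD_iff (u d : G) : d ∈ citD T u ↔
    d • ((1 : G) : G ⧸ citH T) = ((1 : G) : G ⧸ citH T) ∧ d • (u : G ⧸ citH T) = (u : G ⧸ citH T) := by
  rw [Subgroup.mem_inf, mem_map_conj', smul_mk_one_iff, smul_mk_eq_iff]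

variable (hnc : ¬ IsCyclic (T : Subgroup G)) (hnn : ¬ (T : Subgroup G).Normal) (hC : CITHyp G)

include hnc in
theorem cit_card_T_ge : 3 ≤ Nat.card T := by
  have hfact : Fact (Nat.Prime 2) := ⟨Nat.prime_two⟩
  have h0 : 0 < Nat.card T := Nat.card_pos
  by_contra hlt
  have hle : Nat.card T ≤ 2 := by omega
  rcases Nat.lt_or_ge (Nat.card T) 2 with h | h
  · have h1 : Nat.card T = 1 := by omega
    have : Subsingleton (T : Subgroup G) := (Nat.card_eq_one_iff_unique.mp h1).1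
    exact hnc isCyclic_of_subsingleton
  · have h2 : Nat.card T = 2 := by omega
    exact hnc (isCyclic_of_prime_card h2)

include hnc hnn hC in
theorem citD_card (u : G) (hu : orderOf u = 2) (huH : u ∉ citH T) :
    Nat.card (citD T u) + 1 = Nat.card T := by
  obtain ⟨-, hcard, hcompl⟩ := cit_two_point T hnc hnn hC u hu huH
  have hcardD : Nat.card ((citD T u).subgroupOf (citH T)) = Nat.card (citD T u) :=
    Nat.card_congr (Subgroup.subgroupOfEquivOfLe inf_le_left).toEquiv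
  have hcardT : Nat.card ((T : Subgroup G).subgroupOf (citH T)) = Nat.card T :=
    Nat.card_congr (Subgroup.subgroupOfEquivOfLe Subgroup.le_normalizer).toEquiv
  have hmul := hcompl.card_mul_card
  rw [hcardD, hcardT, hcard] at hmul
  have h3 := cit_card_T_ge T hnc
  have hpos : 0 < Nat.card T := by omega
  have h4 : Nat.card (citD T u) = Nat.card T - 1 := by
    rw [mul_comm] at hmul
    exact Nat.eq_of_mul_eq_mul_left hpos hmul
  omega

include hnc hnn hC in
theorem citD_odd (u : G) (huH : u ∉ citH T) : Odd (Nat.card (citD T u)) :=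
  (cit_strEmb T hnc hnn hC).2.2 u huH

include hnc hnn hC in
theorem citD_inv (u : G) (hu : orderOf u = 2) (huH : u ∉ citH T) :
    ∀ d ∈ citD T u, u * d * u⁻¹ = d⁻¹ := (cit_two_point T hnc hnn hC u hu huH).1

include hnc hnn hC in
theorem citD_comm (u : G) (hu : orderOf u = 2) (huH : u ∉ citH T) :
    ∀ d ∈ citD T u, ∀ e ∈ citD T u, d * e = e * d := by
  intro d hd e he
  have h1 := citD_inv T hnc hnn hC u hu huH d hd
  have h2 := citD_inv T hnc hnn hC u hu huH e he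
  have h3 := citD_inv T hnc hnn hC u hu huH (d * e) ((citD T u).mul_mem hd he)
  have h4 : (d * e)⁻¹ = d⁻¹ * e⁻¹ := by
    rw [← h3, ← h1, ← h2]; group
  have h5 : d * e = (d⁻¹ * e⁻¹)⁻¹ := by rw [← h4, inv_inv]
  rw [h5]; group

include hnc hnn hC in
theorem citD_sq (u : G) (huH : u ∉ citH T) {d : G} (hd : d ∈ citD T u) (h : d * d = 1) : d = 1 := by
  have hodd := citD_odd T hnc hnn hC u huH
  have h1 : orderOf d ∣ 2 := orderOf_dvd_of_pow_eq_one (by rw [pow_two]; exact h)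
  have h2 : orderOf d ∣ Nat.card (citD T u) := Subgroup.orderOf_dvd_natCard _ hd
  have h3 : orderOf d = 1 := by
    rcases (Nat.dvd_prime Nat.prime_two).1 h1 with h | h
    · exact h
    · exfalso
      rw [h] at h2
      exact (Nat.not_even_iff_odd.2 hodd) (even_iff_two_dvd.2 h2)
  exact orderOf_eq_one_iff.1 h3

include hnc hnn hC in
theorem citD_inf_T (u : G) (huH : u ∉ citH T) {x : G} (hxD : x ∈ citD T u)
    (hxT : x ∈ (T : Subgroup G)) : x = 1 :=
  citD_sq T hnc hnn hC u huH hxD ((cit_elem_abelian T hnc hC).1 x hxT)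

include hnc hnn hC in
theorem citD_factor (u : G) (hu : orderOf u = 2) (huH : u ∉ citH T) :
    ∀ h ∈ citH T, ∃ d ∈ citD T u, ∃ t ∈ (T : Subgroup G), h = d * t := by
  intro h hh
  obtain ⟨-, -, hcompl⟩ := cit_two_point T hnc hnn hC u hu huH
  obtain ⟨⟨⟨d, hd⟩, ⟨t, ht⟩⟩, hdt⟩ := hcompl.2 ⟨h, hh⟩
  refine ⟨d.1, Subgroup.mem_subgroupOf.mp hd, t.1, Subgroup.mem_subgroupOf.mp ht, ?_⟩
  have := congrArg Subtype.val hdt
  exact this.symm

include hnc hnn hC in
theorem citD_exists_ne_one (u : G) (hu : orderOf u = 2) (huH : u ∉ citH T) :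
    ∃ d ∈ citD T u, d ≠ 1 := by
  have h1 := citD_card T hnc hnn hC u hu huH
  have h3 := cit_card_T_ge T hnc
  have h2 : 1 < Nat.card (citD T u) := by omega
  rw [Finite.one_lt_card_iff_nontrivial] at h2
  obtain ⟨d, hd⟩ := exists_ne (1 : citD T u)
  exact ⟨d.1, d.2, fun h => hd (Subtype.ext h)⟩

include hnc hnn hC in
/-- a nontrivial element of `D` commutes with no involution of `T` -/
theorem cit_T_commute (u : G) (huH : u ∉ citH T) {d t : G} (hd : d ∈ citD T u) (hd1 : d ≠ 1)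
    (ht : t ∈ (T : Subgroup G)) (hcomm : t * d = d * t) : t = 1 := by
  by_contra ht1
  have hto : orderOf t = 2 := orderOf_two_of ((cit_elem_abelian T hnc hC).1 t ht) ht1
  have hcent := cit_centralizer_eq' T hnc hC hto ht
  have hdT : d ∈ (T : Subgroup G) := by
    rw [← hcent, Subgroup.mem_centralizer_singleton_iff]
    exact hcomm.symm
  exact hd1 (citD_inf_T T hnc hnn hC u huH hd hdT)

include hnc hnn hC in
theorem cit_exists_inv_swap (x : G ⧸ citH T) (hx : x ≠ ((1 : G) : G ⧸ citH T)) :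
    ∃ w : G, orderOf w = 2 ∧ (w : G ⧸ citH T) = x ∧ w ∉ citH T := by
  have hSE := cit_strEmb T hnc hnn hC
  have h1 := card_swap_eq_card_inv hSE ((1 : G) : G ⧸ citH T) x (Ne.symm hx)
  obtain ⟨h, hh, hhH⟩ := exists_inv_mem hSE
  have h2 : 0 < Nat.card {t : G // orderOf t = 2 ∧ t ∈ citH T} :=
    Nat.card_pos_iff.mpr ⟨⟨⟨h, hh, hhH⟩⟩, inferInstance⟩
  rw [← h1] at h2
  obtain ⟨⟨⟨w, hw, hwx⟩⟩, -⟩ := Nat.card_pos_iff.mp h2
  rw [smul_mk_one] at hwx
  refine ⟨w, hw, hwx, ?_⟩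
  intro hwH
  apply hx
  rw [← hwx, eq_comm, QuotientGroup.eq]
  simpa using hwH

include hnc hnn hC in
theorem citD_eq_of_le (u w : G) (hu : orderOf u = 2) (huH : u ∉ citH T) (hw : orderOf w = 2)
    (hwH : w ∉ citH T) (hle : citD T u ≤ citD T w) : citD T u = citD T w := by
  have h1 := citD_card T hnc hnn hC u hu huH
  have h2 := citD_card T hnc hnn hC w hw hwH
  exact Subgroup.eq_of_le_of_card_ge hle (by omega)

include hnc hnn hC in
/-- the only cosets fixed by all of `D` are `H` and `uH` -/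
theorem cit_fix_D (u : G) (hu : orderOf u = 2) (huH : u ∉ citH T) (γ : G ⧸ citH T)
    (hγ : ∀ d ∈ citD T u, d • γ = γ) : γ = ((1 : G) : G ⧸ citH T) ∨ γ = (u : G ⧸ citH T) := by
  by_contra hcon
  push Not at hcon
  obtain ⟨hγα, hγβ⟩ := hcon
  obtain ⟨w, hw, hwγ, hwH⟩ := cit_exists_inv_swap T hnc hnn hC γ hγα
  have hwγ' : w • ((1 : G) : G ⧸ citH T) = γ := by rw [smul_mk_one]; exact hwγ
  have hdα : ∀ d ∈ citD T u, d • ((1 : G) : G ⧸ citH T) = ((1 : G) : G ⧸ citH T) :=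
    fun d hd => ((citD_iff T u d).mp hd).1
  have hle : citD T u ≤ citD T w := by
    intro d hd
    rw [citD_iff]
    exact ⟨hdα d hd, by rw [hwγ]; exact hγ d hd⟩
  have hDeq := citD_eq_of_le T hnc hnn hC u w hu huH hw hwH hle
  have hwinv : ∀ d ∈ citD T u, w * d * w⁻¹ = d⁻¹ := by
    intro d hd
    exact citD_inv T hnc hnn hC w hw hwH d (hle hd)
  have huinv := citD_inv T hnc hnn hC u hu huH
  have hn : ∀ d ∈ citD T u, (w * u) * d * (w * u)⁻¹ = d := by
    intro d hd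
    have h1 := huinv d hd
    have h2 := hwinv d⁻¹ ((citD T u).inv_mem hd)
    calc (w * u) * d * (w * u)⁻¹ = w * (u * d * u⁻¹) * w⁻¹ := by group
      _ = w * d⁻¹ * w⁻¹ := by rw [h1]
      _ = d := by rw [h2, inv_inv]
  have hδfix : ∀ d ∈ citD T u, d • ((w * u) • ((1 : G) : G ⧸ citH T)) =
      (w * u) • ((1 : G) : G ⧸ citH T) := by
    intro d hd
    have h1 := hn d hd
    have h2 : d * (w * u) = (w * u) * d := by
      calc d * (w * u) = ((w * u) * d * (w * u)⁻¹) * (w * u) := by rw [h1]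
        _ = (w * u) * d := by group
    rw [← mul_smul, h2, mul_smul, hdα d hd]
  have hδα : (w * u) • ((1 : G) : G ⧸ citH T) ≠ ((1 : G) : G ⧸ citH T) := by
    intro h
    apply hγβ
    have h3 : u • ((1 : G) : G ⧸ citH T) = w • ((1 : G) : G ⧸ citH T) := by
      have := congrArg (fun x => w • x) h
      rw [← mul_smul, ← mul_assoc, inv_sq hw, one_mul] at this
      exact this
    rw [← hwγ', ← h3, smul_mk_one]
  obtain ⟨w', hw', hw'δ, hw'H⟩ := cit_exists_inv_swap T hnc hnn hC _ hδα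
  have hw'δ' : w' • ((1 : G) : G ⧸ citH T) = (w * u) • ((1 : G) : G ⧸ citH T) := by
    rw [smul_mk_one]; exact hw'δ
  have hle' : citD T u ≤ citD T w' := by
    intro d hd
    rw [citD_iff]
    exact ⟨hdα d hd, by rw [hw'δ]; exact hδfix d hd⟩
  have hw'inv : ∀ d ∈ citD T u, w' * d * w'⁻¹ = d⁻¹ := by
    intro d hd
    exact citD_inv T hnc hnn hC w' hw' hw'H d (hle' hd)
  have hmH : w' * (w * u) ∈ citH T := by
    rw [← smul_mk_one_iff, mul_smul, ← hw'δ', ← mul_smul, inv_sq hw', one_smul]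
  have hminv : ∀ d ∈ citD T u, (w' * (w * u)) * d * (w' * (w * u))⁻¹ = d⁻¹ := by
    intro d hd
    calc (w' * (w * u)) * d * (w' * (w * u))⁻¹ = w' * ((w * u) * d * (w * u)⁻¹) * w'⁻¹ := by group
      _ = w' * d * w'⁻¹ := by rw [hn d hd]
      _ = d⁻¹ := hw'inv d hd
  obtain ⟨e, he, t, ht, hmet⟩ := citD_factor T hnc hnn hC u hu huH _ hmH
  have htinv : ∀ d ∈ citD T u, t * d * t⁻¹ = d⁻¹ := by
    intro d hd
    have h1 := hminv d hd
    rw [hmet] at h1
    have h2 := citD_comm T hnc hnn hC u hu huH e he d⁻¹ ((citD T u).inv_mem hd)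
    calc t * d * t⁻¹ = e⁻¹ * ((e * t) * d * (e * t)⁻¹) * e := by group
      _ = e⁻¹ * d⁻¹ * e := by rw [h1]
      _ = e⁻¹ * (d⁻¹ * e) := by group
      _ = e⁻¹ * (e * d⁻¹) := by rw [h2]
      _ = d⁻¹ := by group
  obtain ⟨d, hd, hd1⟩ := citD_exists_ne_one T hnc hnn hC u hu huH
  apply hd1
  have hd2 : d⁻¹ * d⁻¹ ∈ (T : Subgroup G) := by
    have h1 := htinv d hd
    have h2 : d * t⁻¹ * d⁻¹ ∈ (T : Subgroup G) :=
      (Subgroup.mem_normalizer_iff.mp ((Subgroup.mem_inf.mp hd).1 : d ∈ citH T) t⁻¹).mp (inv_mem ht)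
    have h3 : d⁻¹ * d⁻¹ = t * (d * t⁻¹ * d⁻¹) := by
      calc d⁻¹ * d⁻¹ = (t * d * t⁻¹) * d⁻¹ := by rw [h1]
        _ = _ := by group
    rw [h3]; exact mul_mem ht h2
  have hd3 : d⁻¹ * d⁻¹ = 1 :=
    citD_inf_T T hnc hnn hC u huH (mul_mem (inv_mem hd) (inv_mem hd)) hd2
  have hd4 : d * d = 1 := by
    have : (d * d)⁻¹ = 1 := by rw [mul_inv_rev]; exact hd3
    exact inv_eq_one.mp this
  exact citD_sq T hnc hnn hC u huH hd hd4

include hnc hnn hC in
/-- a nontrivial element of `D` fixes only the cosets `H` and `uH` -/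
theorem cit_fix_elt (u : G) (hu : orderOf u = 2) (huH : u ∉ citH T) {d : G} (hd : d ∈ citD T u)
    (hd1 : d ≠ 1) (γ : G ⧸ citH T) (hdγ : d • γ = γ) :
    γ = ((1 : G) : G ⧸ citH T) ∨ γ = (u : G ⧸ citH T) := by
  by_cases hγα : γ = ((1 : G) : G ⧸ citH T)
  · left; exact hγα
  obtain ⟨w, hw, hwγ, hwH⟩ := cit_exists_inv_swap T hnc hnn hC γ hγα
  have hdw : d ∈ citD T w := by
    rw [citD_iff]
    exact ⟨((citD_iff T u d).mp hd).1, by rw [hwγ]; exact hdγ⟩
  have hle : citD T w ≤ citD T u := by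
    intro e' he'
    have hc : e' * d = d * e' := citD_comm T hnc hnn hC w hw hwH e' he' d hdw
    obtain ⟨e, he, t, ht, het⟩ := citD_factor T hnc hnn hC u hu huH e' (Subgroup.mem_inf.mp he').1
    have htd : t * d = d * t := by
      have h1 := citD_comm T hnc hnn hC u hu huH e he d hd
      have ht' : t = e⁻¹ * e' := by rw [het]; group
      rw [ht']
      calc e⁻¹ * e' * d = e⁻¹ * (e' * d) := by group
        _ = e⁻¹ * (d * e') := by rw [hc]
        _ = e⁻¹ * (d * e) * e⁻¹ * e' := by group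
        _ = e⁻¹ * (e * d) * e⁻¹ * e' := by rw [h1]
        _ = d * (e⁻¹ * e') := by group
    have ht1 := cit_T_commute T hnc hnn hC u huH hd hd1 ht htd
    rw [het, ht1, mul_one]; exact he
  have hDeq := citD_eq_of_le T hnc hnn hC w u hw hwH hu huH hle
  apply cit_fix_D T hnc hnn hC u hu huH γ
  intro e he
  rw [← hDeq] at he
  rw [← hwγ]; exact ((citD_iff T w e).mp he).2

include hnc hnn hC in
/-- `T` acts freely off the coset `H` -/
theorem cit_T_free {t : G} (ht : t ∈ (T : Subgroup G)) (x : G ⧸ citH T)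
    (hx : x ≠ ((1 : G) : G ⧸ citH T)) (htx : t • x = x) : t = 1 := by
  by_contra ht1
  have hto : orderOf t = 2 := orderOf_two_of ((cit_elem_abelian T hnc hC).1 t ht) ht1
  have hSE := cit_strEmb T hnc hnn hC
  have htα : t • ((1 : G) : G ⧸ citH T) = ((1 : G) : G ⧸ citH T) :=
    (smul_mk_one_iff _ t).mpr (Subgroup.le_normalizer ht)
  exact hx (fix_unique hSE hto htx htα)

include hnc hnn hC in
/-- `T` is transitive off the coset `H` -/
theorem cit_T_trans (u : G) (hu : orderOf u = 2) (huH : u ∉ citH T) (x : G ⧸ citH T)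
    (hx : x ≠ ((1 : G) : G ⧸ citH T)) : ∃ t ∈ (T : Subgroup G), t • (u : G ⧸ citH T) = x := by
  obtain ⟨d, hd, hd1⟩ := citD_exists_ne_one T hnc hnn hC u hu huH
  have hdH : d ∈ citH T := (Subgroup.mem_inf.mp hd).1
  obtain ⟨w, hw, hwx, hwH⟩ := cit_exists_inv_swap T hnc hnn hC x hx
  obtain ⟨e, he, s, hs, hes⟩ := citD_factor T hnc hnn hC w hw hwH d⁻¹ (inv_mem hdH)
  have hex : e • x = x := by rw [← hwx]; exact ((citD_iff T w e).mp he).2
  have hdx : d • x = s⁻¹ • x := by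
    have : d = s⁻¹ * e⁻¹ := by rw [← inv_inv d, hes]; group
    rw [this, mul_smul]
    congr 1
    rw [inv_smul_eq_iff, hex]
  have hconjT : ∀ t ∈ (T : Subgroup G), d * t * d⁻¹ ∈ (T : Subgroup G) := fun t ht =>
    (Subgroup.mem_normalizer_iff.mp hdH t).mp ht
  let φ : ↥(T : Subgroup G) → ↥(T : Subgroup G) := fun t =>
    ⟨t.1⁻¹ * (d * t.1 * d⁻¹), mul_mem (inv_mem t.2) (hconjT t.1 t.2)⟩
  have hφinj : Function.Injective φ := by
    intro t t' h
    have h' : t.1⁻¹ * (d * t.1 * d⁻¹) = t'.1⁻¹ * (d * t'.1 * d⁻¹) := congrArg Subtype.val h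
    have hc : (t.1 * t'.1⁻¹) * d = d * (t.1 * t'.1⁻¹) := by
      have h2 : d * t.1 * d⁻¹ = t.1 * t'.1⁻¹ * (d * t'.1 * d⁻¹) := by
        calc d * t.1 * d⁻¹ = t.1 * (t.1⁻¹ * (d * t.1 * d⁻¹)) := by group
          _ = t.1 * (t'.1⁻¹ * (d * t'.1 * d⁻¹)) := by rw [h']
          _ = _ := by group
      calc (t.1 * t'.1⁻¹) * d = (t.1 * t'.1⁻¹ * (d * t'.1 * d⁻¹)) * d * t'.1⁻¹ := by group
        _ = (d * t.1 * d⁻¹) * d * t'.1⁻¹ := by rw [← h2]
        _ = d * (t.1 * t'.1⁻¹) := by group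
    have := cit_T_commute T hnc hnn hC u huH hd hd1 (mul_mem t.2 (inv_mem t'.2)) hc
    apply Subtype.ext
    exact mul_inv_eq_one.mp this
  have hφsurj := Finite.injective_iff_surjective.mp hφinj
  obtain ⟨t, ht⟩ := hφsurj ⟨s, hs⟩
  have ht' : t.1⁻¹ * (d * t.1 * d⁻¹) = s := congrArg Subtype.val ht
  have hfix : d • (t.1 • x) = t.1 • x := by
    have e1 : d * t.1 = t.1 * s * d := by
      calc d * t.1 = t.1 * (t.1⁻¹ * (d * t.1 * d⁻¹)) * d := by group
        _ = t.1 * s * d := by rw [ht']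
    rw [← mul_smul, e1, mul_smul, hdx, mul_smul, smul_inv_smul]
  have htα : t.1 • ((1 : G) : G ⧸ citH T) = ((1 : G) : G ⧸ citH T) :=
    (smul_mk_one_iff _ t.1).mpr (Subgroup.le_normalizer t.2)
  rcases cit_fix_elt T hnc hnn hC u hu huH hd hd1 (t.1 • x) hfix with h | h
  · exfalso
    apply hx
    calc x = t.1⁻¹ • (t.1 • x) := by rw [inv_smul_smul]
      _ = t.1⁻¹ • ((1 : G) : G ⧸ citH T) := by rw [h]
      _ = ((1 : G) : G ⧸ citH T) := by rw [inv_smul_eq_iff, htα]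
  · refine ⟨t.1⁻¹, inv_mem t.2, ?_⟩
    rw [← h, inv_smul_smul]

end cit2

end Cfsg.Agent.Helper9
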