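import Mathlib
import Cfsg.Agent.Helper9.Dl1

/-!
# Dickson's lemma over general fields, part 2: multipliers and the Lanczos descent (helper9)
-/

set_option autoImplicit false
open scoped MatrixGroups

namespace Cfsg.Agent.Helper9

section mult

variable (k : Type*) {F : Type*} [Field k] [Field F] [Algebra k F] (α : F)

theorem dlT_one_h9 : (1 : F) ∈ dlT_h9 k α := by
  have := dlG_E_h9 k α 1
  rw [map_one] at this
  exact this

/-- an element of the group mapping `∞` to `0` gives multipliers of `T`. -/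
theorem dl_w_h9 (h2 : (2 : k) ≠ 0) (hα : α ≠ 0) (c : k) (hc0 : c ≠ 0) (hc1 : c ^ 2 ≠ 1)
    (g : SL(2, F)) (hg : g ∈ dlG_h9 k α) (h00 : g.1 0 0 = 0) (t : F) (ht : t ∈ dlT_h9 k α) :
    g.1 1 0 ^ 2 / α * t ∈ dlT_h9 k α ∧ α / g.1 1 0 ^ 2 * t ∈ dlT_h9 k α := by
  have hdet := (sl2_entries_h9 g).2
  rw [h00] at hdet
  have hdet' : g.1 0 1 * g.1 1 0 = -1 := by linear_combination -hdet
  have hr : g.1 1 0 ≠ 0 := by
    intro h; rw [h] at hdet'; simp at hdet'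
  have hd : algebraMap k F c ≠ 0 := (map_ne_zero _).mpr hc0
  obtain ⟨Y, hYG, y00, y01, y10, y11⟩ : ∃ Y ∈ dlG_h9 k α, Y.1 0 0 = g.1 0 0 ∧
      Y.1 0 1 = algebraMap k F c ^ 2 * g.1 0 1 ∧ Y.1 1 0 = g.1 1 0 / algebraMap k F c ^ 2 ∧
      Y.1 1 1 = g.1 1 1 := by
    obtain ⟨c00, c01, c10, c11⟩ := dl_conjD_entries_h9 (algebraMap k F c) hd g
    exact ⟨_, dl_conjD_mem_h9 k α c hc0 hd g hg, c00, c01, c10, c11⟩
  have hX := (dlG_h9 k α).mul_mem ((dlG_h9 k α).inv_mem hg) hYG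
  have hB := dl_borel_h9 k α h2 c hc0 hc1 _ hX (by
    rw [sl2m10_h9, sl2i10_h9, sl2i11_h9, y00, y10, h00]; ring)
  have eB : (g⁻¹ * Y).1 0 1 * (g⁻¹ * Y).1 1 1
      = algebraMap k F ((c ^ 2 - 1) * c ^ 2) * (g.1 0 1 * g.1 1 1) := by
    rw [sl2m01_h9, sl2m11_h9, sl2i00_h9, sl2i01_h9, sl2i10_h9, sl2i11_h9, y01, y11, h00,
      map_mul, map_sub, map_pow, map_one]
    linear_combination (-(algebraMap k F c) ^ 2 * g.1 1 1 * g.1 0 1 * ((algebraMap k F c) ^ 2 - 1)) * hdet'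
  rw [eB] at hB
  have hne : (c ^ 2 - 1) * c ^ 2 ≠ 0 := mul_ne_zero (sub_ne_zero.mpr hc1) (pow_ne_zero 2 hc0)
  have hy : g.1 0 1 * g.1 1 1 ∈ dlT_h9 k α := by
    have h3 := dlT_smul_h9 k α h2 (((c ^ 2 - 1) * c ^ 2)⁻¹) _ hB
    rwa [← mul_assoc, ← map_mul, inv_mul_cancel₀ hne, map_one, one_mul] at h3
  obtain ⟨w, hwG, hw00, hw01, hw10, hw11⟩ : ∃ w ∈ dlG_h9 k α, w.1 0 0 = 0 ∧ w.1 0 1 = g.1 0 1 ∧
      w.1 1 0 = g.1 1 0 ∧ w.1 1 1 = 0 := by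
    refine ⟨g * sl2E_h9 (g.1 0 1 * g.1 1 1), (dlG_h9 k α).mul_mem hg hy, ?_, ?_, ?_, ?_⟩
    · rw [sl2m00_h9, sl2E00_h9, sl2E10_h9, h00]; ring
    · rw [sl2m01_h9, sl2E01_h9, sl2E11_h9, h00]; ring
    · rw [sl2m10_h9, sl2E00_h9, sl2E10_h9]; ring
    · rw [sl2m11_h9, sl2E01_h9, sl2E11_h9]; linear_combination g.1 1 1 * hdet'
  constructor
  · have hZ := (dlG_h9 k α).mul_mem ((dlG_h9 k α).mul_mem hwG ((mem_dlT_h9 k α t).mp ht))
      ((dlG_h9 k α).inv_mem hwG)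
    have e : w * sl2E_h9 t * w⁻¹ = sl2L_h9 (-(g.1 1 0 ^ 2 * t)) := by
      apply sl2_ext_h9 <;>
        simp only [sl2m00_h9, sl2m01_h9, sl2m10_h9, sl2m11_h9, sl2i00_h9, sl2i01_h9, sl2i10_h9,
          sl2i11_h9, sl2E00_h9, sl2E01_h9, sl2E10_h9, sl2E11_h9, sl2L00_h9, sl2L01_h9, sl2L10_h9,
          sl2L11_h9, hw00, hw01, hw10, hw11]
      · linear_combination -hdet'
      · ring
      · ring
      · linear_combination -hdet'
    rw [e] at hZ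
    have h4 := dl_E_of_L_h9 k α hα _ hZ
    have e2 : -(-(g.1 1 0 ^ 2 * t)) / α = g.1 1 0 ^ 2 / α * t := by field_simp
    rwa [e2] at h4
  · have hL := dl_L_of_E_h9 k α hα t ht
    have hZ := (dlG_h9 k α).mul_mem ((dlG_h9 k α).mul_mem ((dlG_h9 k α).inv_mem hwG) hL) hwG
    have e : w⁻¹ * sl2L_h9 (-(α * t)) * w = sl2E_h9 (g.1 0 1 ^ 2 * (α * t)) := by
      apply sl2_ext_h9 <;>
        simp only [sl2m00_h9, sl2m01_h9, sl2m10_h9, sl2m11_h9, sl2i00_h9, sl2i01_h9, sl2i10_h9,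
          sl2i11_h9, sl2E00_h9, sl2E01_h9, sl2E10_h9, sl2E11_h9, sl2L00_h9, sl2L01_h9, sl2L10_h9,
          sl2L11_h9, hw00, hw01, hw10, hw11]
      · linear_combination -hdet'
      · ring
      · ring
      · linear_combination -hdet'
    rw [e] at hZ
    have e2 : g.1 0 1 ^ 2 * (α * t) = α / g.1 1 0 ^ 2 * t := by
      have h01 : g.1 0 1 = -(g.1 1 0)⁻¹ := by
        field_simp
        linear_combination hdet'
      rw [h01]; field_simp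
    rw [e2] at hZ
    exact hZ

/-- the multiplier algebra of `T`. -/
def dlR_h9 (h2 : (2 : k) ≠ 0) : Subalgebra k F where
  carrier := {ρ | ∀ t ∈ dlT_h9 k α, ρ * t ∈ dlT_h9 k α}
  mul_mem' := by
    intro a b ha hb t ht
    rw [mul_assoc]; exact ha _ (hb t ht)
  one_mem' := by
    intro t ht
    rwa [one_mul]
  add_mem' := by
    intro a b ha hb t ht
    rw [add_mul]; exact (dlT_h9 k α).add_mem (ha t ht) (hb t ht)
  zero_mem' := by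
    intro t _
    rw [zero_mul]; exact (dlT_h9 k α).zero_mem
  algebraMap_mem' := by
    intro c t ht
    exact dlT_smul_h9 k α h2 c t ht

theorem mem_dlR_h9 (h2 : (2 : k) ≠ 0) (ρ : F) :
    ρ ∈ dlR_h9 k α h2 ↔ ∀ t ∈ dlT_h9 k α, ρ * t ∈ dlT_h9 k α := Iff.rfl

theorem dl_top_of_R_h9 (h2 : (2 : k) ≠ 0) (hα : α ≠ 0) (hgen : Algebra.adjoin k {α} = ⊤)
    (hαR : α ∈ dlR_h9 k α h2) : dlG_h9 k α = ⊤ := by
  have hle : Algebra.adjoin k {α} ≤ dlR_h9 k α h2 :=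
    Algebra.adjoin_le (by rintro _ rfl; exact hαR)
  rw [hgen] at hle
  apply dl_top_h9 k α hα
  intro t
  have := (mem_dlR_h9 k α h2 t).mp (hle Algebra.mem_top) 1 (dlT_one_h9 k α)
  rwa [mul_one] at this

end mult

section lanczos

variable {k F : Type*} [Field k] [Field F] [Algebra k F] (α : F)

/-- span of `1, α, …, α^(j-1)`. -/
def dlV_h9 (k : Type*) {F : Type*} [Field k] [Field F] [Algebra k F] (α : F) (j : ℕ) :
    Submodule k F :=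
  Submodule.span k (Set.range fun i : Fin j => α ^ (i : ℕ))

theorem dlV_pow_h9 (j i : ℕ) (h : i < j) : α ^ i ∈ dlV_h9 k α j :=
  Submodule.subset_span ⟨⟨i, h⟩, rfl⟩

theorem dlV_mono_h9 {j m : ℕ} (h : j ≤ m) : dlV_h9 k α j ≤ dlV_h9 k α m := by
  apply Submodule.span_mono
  rintro _ ⟨i, rfl⟩
  exact ⟨⟨i, lt_of_lt_of_le i.2 h⟩, rfl⟩

theorem dlV_mul_h9 (j : ℕ) (v : F) (hv : v ∈ dlV_h9 k α j) : α * v ∈ dlV_h9 k α (j + 1) := by
  induction hv using Submodule.span_induction with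
  | mem x hx =>
    obtain ⟨i, rfl⟩ := hx
    have e : α * α ^ (i : ℕ) = α ^ ((i : ℕ) + 1) := by rw [pow_succ]; ring
    rw [e]
    have := i.2
    exact dlV_pow_h9 α _ _ (by omega)
  | zero => rw [mul_zero]; exact Submodule.zero_mem _
  | add x y _ _ hx hy => rw [mul_add]; exact Submodule.add_mem _ hx hy
  | smul c x _ hx => rw [mul_smul_comm]; exact Submodule.smul_mem _ c hx

/-- the state of the Lanczos descent after `j` double steps. -/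
def dlSt_h9 (ℓ : F →ₗ[k] k) (j : ℕ) : Prop :=
  ∃ g ∈ dlG_h9 k α, ∃ v ∈ dlV_h9 k α j, ∃ Q ∈ dlV_h9 k α (j + 1),
    g.1 0 0 = 1 + α * v ∧ g.1 1 0 = α * Q ∧ Q ≠ 0 ∧
    (∀ i < j, ℓ ((1 + α * v) * α ^ i) = 0) ∧ (∀ i < j, ℓ (α * Q * α ^ i) = 0)

theorem dl_half_h9 (n : ℕ) (ℓ : F →ₗ[k] k)
    (hR1 : ∀ m, 1 ≤ m → m ≤ n → ∀ v ∈ dlV_h9 k α m, (∀ i < m, ℓ (α * v * α ^ i) = 0) → v = 0)
    (j : ℕ) (hj : j < n) (h : dlSt_h9 α ℓ j) :
    ∃ g ∈ dlG_h9 k α, ∃ v ∈ dlV_h9 k α (j + 1), ∃ Q ∈ dlV_h9 k α (j + 1),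
      g.1 0 0 = 1 + α * v ∧ g.1 1 0 = α * Q ∧ Q ≠ 0 ∧
      (∀ i < j + 1, ℓ ((1 + α * v) * α ^ i) = 0) ∧ (∀ i < j, ℓ (α * Q * α ^ i) = 0) ∧
      ℓ (α * Q * α ^ j) ≠ 0 := by
  obtain ⟨g, hg, v, hv, Q, hQ, h00, h10, hQ0, hP, hQo⟩ := h
  have hden : ℓ (α * Q * α ^ j) ≠ 0 := by
    intro h0
    apply hQ0
    apply hR1 (j + 1) (by omega) (by omega) Q hQ
    intro i hi
    rcases Nat.lt_succ_iff_lt_or_eq.mp hi with h | rfl
    · exact hQo i h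
    · exact h0
  obtain ⟨c, hc⟩ : ∃ c : k, ℓ ((1 + α * v) * α ^ j) + c * ℓ (α * Q * α ^ j) = 0 :=
    ⟨-ℓ ((1 + α * v) * α ^ j) / ℓ (α * Q * α ^ j), by rw [div_mul_cancel₀ _ hden, add_neg_cancel]⟩
  refine ⟨sl2E_h9 (algebraMap k F c) * g, (dlG_h9 k α).mul_mem (dlG_E_h9 k α c) hg, v + c • Q, ?_,
    Q, hQ, ?_, ?_, hQ0, ?_, hQo, hden⟩
  · exact Submodule.add_mem _ (dlV_mono_h9 α (Nat.le_succ j) hv) (Submodule.smul_mem _ c hQ)
  · rw [sl2m00_h9, sl2E00_h9, sl2E01_h9, h00, h10, Algebra.smul_def]; ring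
  · rw [sl2m10_h9, sl2E10_h9, sl2E11_h9, h10]; ring
  · intro i hi
    have e : (1 + α * (v + c • Q)) * α ^ i = (1 + α * v) * α ^ i + c • (α * Q * α ^ i) := by
      rw [Algebra.smul_def, Algebra.smul_def]; ring
    rw [e, map_add, map_smul, smul_eq_mul]
    rcases Nat.lt_succ_iff_lt_or_eq.mp hi with h | rfl
    · rw [hP i h, hQo i h]; ring
    · exact hc

theorem dl_step_h9 (n : ℕ) (ℓ : F →ₗ[k] k)
    (hR0 : ∀ m, 1 ≤ m → m ≤ n → ∀ v ∈ dlV_h9 k α m, (∀ i < m, ℓ (v * α ^ i) = 0) → v = 0)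
    (hR1 : ∀ m, 1 ≤ m → m ≤ n → ∀ v ∈ dlV_h9 k α m, (∀ i < m, ℓ (α * v * α ^ i) = 0) → v = 0)
    (hind : ∀ m, m < n → ∀ v ∈ dlV_h9 k α m, 1 + α * v ≠ 0)
    (j : ℕ) (hj : j + 1 < n) (h : dlSt_h9 α ℓ j) : dlSt_h9 α ℓ (j + 1) := by
  obtain ⟨g, hg, v, hv, Q, hQ, h00, h10, hQ0, hP, hQo, hden⟩ :=
    dl_half_h9 α n ℓ hR1 j (by omega) h
  have hP0 : 1 + α * v ≠ 0 := hind (j + 1) hj v hv
  have hPV : 1 + α * v ∈ dlV_h9 k α (j + 2) := by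
    apply Submodule.add_mem
    · have := dlV_pow_h9 (k := k) α (j + 2) 0 (by omega)
      rwa [pow_zero] at this
    · exact dlV_mul_h9 α (j + 1) v hv
  have hden0 : ℓ ((1 + α * v) * α ^ (j + 1)) ≠ 0 := by
    intro h0
    apply hP0
    apply hR0 (j + 2) (by omega) (by omega) _ hPV
    intro i hi
    rcases Nat.lt_succ_iff_lt_or_eq.mp hi with h | rfl
    · exact hP i h
    · exact h0
  obtain ⟨d, hd0, hd⟩ : ∃ d : k, d ≠ 0 ∧
      ℓ (α * Q * α ^ j) + d * ℓ ((1 + α * v) * α ^ (j + 1)) = 0 :=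
    ⟨-ℓ (α * Q * α ^ j) / ℓ ((1 + α * v) * α ^ (j + 1)),
      div_ne_zero (neg_ne_zero.mpr hden) hden0, by rw [div_mul_cancel₀ _ hden0, add_neg_cancel]⟩
  refine ⟨sl2L_h9 (algebraMap k F d * α) * g, (dlG_h9 k α).mul_mem (dlG_L_h9 k α d) hg, v, hv,
    Q + d • (1 + α * v), ?_, ?_, ?_, ?_, hP, ?_⟩
  · exact Submodule.add_mem _ (dlV_mono_h9 α (Nat.le_succ _) hQ) (Submodule.smul_mem _ d hPV)
  · rw [sl2m00_h9, sl2L00_h9, sl2L01_h9, h00]; ring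
  · rw [sl2m10_h9, sl2L10_h9, sl2L11_h9, h00, h10, Algebra.smul_def]; ring
  · intro hQ'
    apply hP0
    have hPQ : 1 + α * v = (-d⁻¹) • Q := by
      have hQe : Q = -(d • (1 + α * v)) := eq_neg_of_add_eq_zero_left hQ'
      conv_rhs => rw [hQe]
      rw [smul_neg, neg_smul, neg_neg, smul_smul, inv_mul_cancel₀ hd0, one_smul]
    apply hR0 (j + 1) (by omega) (by omega) _ (by rw [hPQ]; exact Submodule.smul_mem _ _ hQ)
    exact hP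
  · intro i hi
    have e : α * (Q + d • (1 + α * v)) * α ^ i
        = α * Q * α ^ i + d • ((1 + α * v) * α ^ (i + 1)) := by
      rw [Algebra.smul_def, Algebra.smul_def, pow_succ]; ring
    rw [e, map_add, map_smul, smul_eq_mul]
    rcases Nat.lt_succ_iff_lt_or_eq.mp hi with h | rfl
    · rw [hQo i h, hP (i + 1) (by omega)]; ring
    · exact hd

/-- **Lanczos descent**: a regular functional gives a group element mapping `∞` to `0`. -/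
theorem dl_lanczos_h9 (n : ℕ) (ℓ : F →ₗ[k] k)
    (hR0 : ∀ m, 1 ≤ m → m ≤ n → ∀ v ∈ dlV_h9 k α m, (∀ i < m, ℓ (v * α ^ i) = 0) → v = 0)
    (hR1 : ∀ m, 1 ≤ m → m ≤ n → ∀ v ∈ dlV_h9 k α m, (∀ i < m, ℓ (α * v * α ^ i) = 0) → v = 0)
    (hind : ∀ m, m < n → ∀ v ∈ dlV_h9 k α m, 1 + α * v ≠ 0)
    (htop : ∀ x : F, x ∈ dlV_h9 k α n) (hn : 1 ≤ n) :
    ∃ g ∈ dlG_h9 k α, g.1 0 0 = 0 ∧ ∀ i, i + 1 < n → ℓ (g.1 1 0 * α ^ i) = 0 := by
  have hall : ∀ j, j < n → dlSt_h9 α ℓ j := by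
    intro j
    induction j with
    | zero =>
      intro _
      refine ⟨sl2L_h9 (algebraMap k F 1 * α), dlG_L_h9 k α 1, 0, Submodule.zero_mem _, 1, ?_, ?_, ?_,
        one_ne_zero, ?_, ?_⟩
      · have := dlV_pow_h9 (k := k) α 1 0 (by omega)
        rwa [pow_zero] at this
      · rw [sl2L00_h9]; ring
      · rw [sl2L10_h9, map_one]; ring
      · intro i hi; omega
      · intro i hi; omega
    | succ j ih =>
      intro hj
      exact dl_step_h9 α n ℓ hR0 hR1 hind j hj (ih (by omega))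
  obtain ⟨g, hg, v, hv, Q, hQ, h00, h10, hQ0, hP, hQo, hden⟩ :=
    dl_half_h9 α n ℓ hR1 (n - 1) (by omega) (hall (n - 1) (by omega))
  have hn1 : n - 1 + 1 = n := by omega
  rw [hn1] at hP
  refine ⟨g, hg, ?_, ?_⟩
  · rw [h00]
    exact hR0 n hn le_rfl _ (htop _) hP
  · intro i hi
    rw [h10]
    exact hQo i (by omega)

end lanczos

end Cfsg.Agent.Helper9
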