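import Mathlib
import Cfsg.Agent.Helper9.Dl2

/-!
# Dickson's lemma over general fields, part 3: generic functionals, the infinite case (helper9)
-/

set_option autoImplicit false
open scoped MatrixGroups

namespace Cfsg.Agent.Helper9

theorem dl_common_h9 {k V ι : Type*} [Field k] [Infinite k] [AddCommGroup V] [Module k V]
    (s : Finset ι) (Ψ : ι → V → k)
    (hpoly : ∀ i ∈ s, ∀ γ₁ γ₂ : V, ∃ p : Polynomial k, ∀ t : k, p.eval t = Ψ i (γ₁ + t • γ₂))
    (hwit : ∀ i ∈ s, ∃ γ, Ψ i γ ≠ 0) : ∃ γ, ∀ i ∈ s, Ψ i γ ≠ 0 := by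
  classical
  induction s using Finset.induction_on with
  | empty => exact ⟨0, fun i hi => absurd hi (Finset.notMem_empty i)⟩
  | insert a s ha ih =>
    obtain ⟨γs, hγs⟩ := ih (fun i hi => hpoly i (Finset.mem_insert_of_mem hi))
      (fun i hi => hwit i (Finset.mem_insert_of_mem hi))
    obtain ⟨γa, hγa⟩ := hwit a (Finset.mem_insert_self a s)
    have hex : ∀ i, ∃ p : Polynomial k, i ∈ insert a s →
        ∀ t : k, p.eval t = Ψ i (γs + t • (γa - γs)) := by
      intro i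
      by_cases hi : i ∈ insert a s
      · obtain ⟨p, hp⟩ := hpoly i hi γs (γa - γs)
        exact ⟨p, fun _ => hp⟩
      · exact ⟨0, fun h => absurd h hi⟩
    choose p hp using hex
    have hne : ∀ i ∈ insert a s, p i ≠ 0 := by
      intro i hi h0
      rcases Finset.mem_insert.mp hi with hia | his
      · have := hp i hi 1
        rw [h0, Polynomial.eval_zero, one_smul, add_sub_cancel, hia] at this
        exact hγa this.symm
      · have := hp i hi 0
        rw [h0, Polynomial.eval_zero, zero_smul, add_zero] at this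
        exact hγs i his this.symm
    have hP : (∏ i ∈ insert a s, p i) ≠ 0 := Finset.prod_ne_zero_iff.mpr hne
    obtain ⟨t, ht⟩ : ∃ t : k, (∏ i ∈ insert a s, p i).eval t ≠ 0 := by
      by_contra hcon
      push_neg at hcon
      apply hP
      apply Polynomial.eq_zero_of_infinite_isRoot
      have : {x | (∏ i ∈ insert a s, p i).IsRoot x} = Set.univ := by
        ext x; simp [Polynomial.IsRoot, hcon x]
      rw [this]; exact Set.infinite_univ
    refine ⟨γs + t • (γa - γs), fun i hi => ?_⟩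
    rw [Polynomial.eval_prod] at ht
    have := Finset.prod_ne_zero_iff.mp ht i hi
    rwa [hp i hi t] at this

section generic

variable {k F : Type*} [Field k] [Field F] [Algebra k F] (pb : PowerBasis k F)

/-- the coefficient functional of the top power. -/
noncomputable def dlL0_h9 : F →ₗ[k] k :=
  pb.basis.coord ⟨pb.dim - 1, Nat.sub_lt pb.dim_pos one_pos⟩

theorem dlL0_pow_h9 (e : ℕ) (he : e < pb.dim) :
    dlL0_h9 pb (pb.gen ^ e) = if e = pb.dim - 1 then 1 else 0 := by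
  have h1 : pb.gen ^ e = pb.basis ⟨e, he⟩ := (pb.basis_eq_pow ⟨e, he⟩).symm
  rw [h1]
  unfold dlL0_h9
  rw [Module.Basis.coord_apply, Module.Basis.repr_self, Finsupp.single_apply]
  by_cases h : e = pb.dim - 1
  · rw [if_pos h, if_pos (Fin.ext h)]
  · rw [if_neg h, if_neg (fun h' => h (congrArg Fin.val h'))]

/-- the functional `x ↦ ℓ₀(γ x)`. -/
noncomputable def dlLg_h9 (γ : F) : F →ₗ[k] k := (dlL0_h9 pb).comp (LinearMap.mulLeft k γ)

theorem dlLg_apply_h9 (γ x : F) : dlLg_h9 pb γ x = dlL0_h9 pb (γ * x) := rfl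

/-- the Gram (Hankel) matrices. -/
noncomputable def dlGm_h9 (ε m : ℕ) (γ : F) : Matrix (Fin m) (Fin m) k :=
  Matrix.of fun a b => dlL0_h9 pb (γ * pb.gen ^ ((a : ℕ) + (b : ℕ) + ε))

theorem dlGm_apply_h9 (ε m : ℕ) (γ : F) (a b : Fin m) :
    dlGm_h9 pb ε m γ a b = dlL0_h9 pb (γ * pb.gen ^ ((a : ℕ) + (b : ℕ) + ε)) := rfl

/-- regular functionals. -/
def dlReg_h9 (γ : F) : Prop :=
  ∀ m, 1 ≤ m → m ≤ pb.dim → (dlGm_h9 pb 0 m γ).det ≠ 0 ∧ (dlGm_h9 pb 1 m γ).det ≠ 0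

theorem dl_gram_sum_h9 (γ : F) (ε m : ℕ) (c : Fin m → k) (b : ℕ) :
    dlL0_h9 pb (γ * (pb.gen ^ ε * (∑ a, c a • pb.gen ^ (a : ℕ)) * pb.gen ^ b))
      = ∑ a, c a * dlL0_h9 pb (γ * pb.gen ^ ((a : ℕ) + b + ε)) := by
  have e : γ * (pb.gen ^ ε * (∑ a, c a • pb.gen ^ (a : ℕ)) * pb.gen ^ b)
      = ∑ a, c a • (γ * pb.gen ^ ((a : ℕ) + b + ε)) := by
    rw [Finset.mul_sum, Finset.sum_mul, Finset.mul_sum]
    apply Finset.sum_congr rfl
    intro a _
    rw [Algebra.smul_def, Algebra.smul_def, pow_add, pow_add]; ring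
  rw [e, map_sum]
  apply Finset.sum_congr rfl
  intro a _
  rw [map_smul, smul_eq_mul]

theorem dl_R_of_det_h9 (γ : F) (ε m : ℕ) (hdet : (dlGm_h9 pb ε m γ).det ≠ 0) (v : F)
    (hv : v ∈ dlV_h9 k pb.gen m)
    (h : ∀ i < m, dlL0_h9 pb (γ * (pb.gen ^ ε * v * pb.gen ^ i)) = 0) : v = 0 := by
  obtain ⟨c, rfl⟩ := (Submodule.mem_span_range_iff_exists_fun k).mp hv
  have hc : Matrix.vecMul c (dlGm_h9 pb ε m γ) = 0 := by
    funext b
    have hb := h b b.2
    rw [dl_gram_sum_h9] at hb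
    simp only [Matrix.vecMul, dotProduct, Pi.zero_apply]
    rw [← hb]
    rfl
  have h0 := Matrix.eq_zero_of_vecMul_eq_zero hdet hc
  simp [h0]

theorem dl_ind_h9 (m : ℕ) (hm : m < pb.dim) (v : F) (hv : v ∈ dlV_h9 k pb.gen m) :
    1 + pb.gen * v ≠ 0 := by
  have h1 : pb.basis.coord ⟨0, pb.dim_pos⟩ (1 : F) = 1 := by
    have e : (1 : F) = pb.basis ⟨0, pb.dim_pos⟩ := by rw [pb.basis_eq_pow]; simp
    rw [e, Module.Basis.coord_apply, Module.Basis.repr_self, Finsupp.single_eq_same]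
  have h2 : ∀ w ∈ dlV_h9 k pb.gen m, pb.basis.coord ⟨0, pb.dim_pos⟩ (pb.gen * w) = 0 := by
    intro w hw
    induction hw using Submodule.span_induction with
    | mem x hx =>
      obtain ⟨i, rfl⟩ := hx
      have hi := i.2
      have e : pb.gen * pb.gen ^ (i : ℕ) = pb.basis ⟨(i : ℕ) + 1, by omega⟩ := by
        rw [pb.basis_eq_pow]; simp [pow_succ, mul_comm]
      rw [e, Module.Basis.coord_apply, Module.Basis.repr_self, Finsupp.single_apply, if_neg]
      intro h'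
      have := congrArg Fin.val h'
      simp at this
    | zero => rw [mul_zero, map_zero]
    | add x y _ _ hx hy => rw [mul_add, map_add, hx, hy, add_zero]
    | smul c x _ hx => rw [mul_smul_comm, map_smul, hx, smul_zero]
  intro h
  have h3 := congrArg (pb.basis.coord ⟨0, pb.dim_pos⟩) h
  rw [map_add, h1, h2 v hv, map_zero, add_zero] at h3
  exact one_ne_zero h3

theorem dl_Vtop_h9 (x : F) : x ∈ dlV_h9 k pb.gen pb.dim := by
  rw [← pb.basis.sum_repr x]
  apply Submodule.sum_mem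
  intro i _
  apply Submodule.smul_mem
  rw [pb.basis_eq_pow]
  exact dlV_pow_h9 pb.gen _ _ i.2

/-- an element orthogonal to `1, …, α^(n-2)` for the top coefficient functional is a scalar. -/
theorem dl_const_h9 (x : F) (h : ∀ i, i + 1 < pb.dim → dlL0_h9 pb (x * pb.gen ^ i) = 0) :
    ∃ c : k, x = algebraMap k F c := by
  have hn := pb.dim_pos
  have hx : x = ∑ a, (pb.basis.repr x a) • pb.gen ^ (a : ℕ) := by
    conv_lhs => rw [← pb.basis.sum_repr x]
    exact Finset.sum_congr rfl (fun a _ => by rw [pb.basis_eq_pow])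
  have key : ∀ j, j + 1 ≤ pb.dim → ∀ a : Fin pb.dim, pb.dim ≤ (a : ℕ) + j →
      pb.basis.repr x a = 0 := by
    intro j
    induction j with
    | zero =>
      intro _ a ha
      have := a.2
      omega
    | succ j ih =>
      intro hj a ha
      by_cases ha' : pb.dim ≤ (a : ℕ) + j
      · exact ih (by omega) a ha'
      · have haj : (a : ℕ) + j = pb.dim - 1 := by omega
        have h0 := h j (by omega)
        have e : x * pb.gen ^ j = 1 * (pb.gen ^ 0 *
            (∑ a, (pb.basis.repr x a) • pb.gen ^ (a : ℕ)) * pb.gen ^ j) := by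
          rw [pow_zero, one_mul, one_mul, ← hx]
        rw [e, dl_gram_sum_h9, Finset.sum_eq_single a] at h0
        · rw [one_mul, add_zero, dlL0_pow_h9 pb _ (by omega), if_pos haj, mul_one] at h0
          exact h0
        · intro b _ hba
          by_cases hb : pb.dim ≤ (b : ℕ) + j
          · rw [ih (by omega) b hb, zero_mul]
          · rw [one_mul, add_zero, dlL0_pow_h9 pb _ (by omega), if_neg, mul_zero]
            intro hbj
            apply hba
            apply Fin.ext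
            omega
        · intro ha''
          exact absurd (Finset.mem_univ a) ha''
  refine ⟨pb.basis.repr x ⟨0, hn⟩, ?_⟩
  conv_lhs => rw [hx]
  rw [Finset.sum_eq_single (⟨0, hn⟩ : Fin pb.dim)]
  · rw [Algebra.smul_def]; simp
  · intro b _ hb
    have hb' : (b : ℕ) ≠ 0 := fun h' => hb (Fin.ext h')
    rw [key (pb.dim - 1) (by omega) b (by omega), zero_smul]
  · intro h'
    exact absurd (Finset.mem_univ _) h'

theorem dl_gram_poly_h9 (ε m : ℕ) (γ₁ γ₂ : F) :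
    ∃ p : Polynomial k, ∀ t : k, p.eval t = (dlGm_h9 pb ε m (γ₁ + t • γ₂)).det := by
  refine ⟨(Matrix.of fun a b : Fin m => Polynomial.C (dlGm_h9 pb ε m γ₁ a b) +
    Polynomial.X * Polynomial.C (dlGm_h9 pb ε m γ₂ a b)).det, ?_⟩
  intro t
  rw [← Polynomial.coe_evalRingHom, RingHom.map_det]
  congr 1
  ext a b
  simp only [RingHom.mapMatrix_apply, Matrix.map_apply, Matrix.of_apply,
    Polynomial.coe_evalRingHom, Polynomial.eval_add, Polynomial.eval_C, Polynomial.eval_mul,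
    Polynomial.eval_X, dlGm_apply_h9]
  rw [add_mul, map_add, smul_mul_assoc, map_smul, smul_eq_mul]

theorem dl_witness_h9 (hα0 : pb.gen ≠ 0) (m : ℕ) (hm : m ≤ pb.dim) (ε : ℕ) :
    (dlGm_h9 pb ε m (pb.gen ^ (pb.dim - m) * (pb.gen⁻¹) ^ ε)).det ≠ 0 := by
  have hent : ∀ a b : Fin m, dlGm_h9 pb ε m (pb.gen ^ (pb.dim - m) * (pb.gen⁻¹) ^ ε) a b
      = dlL0_h9 pb (pb.gen ^ (pb.dim - m + ((a : ℕ) + (b : ℕ)))) := by
    intro a b
    rw [dlGm_apply_h9]
    congr 1
    have hne : pb.gen ^ ε ≠ 0 := pow_ne_zero _ hα0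
    rw [pow_add _ _ ε, inv_pow]
    have e1 : pb.gen ^ (pb.dim - m) * (pb.gen ^ ε)⁻¹ * (pb.gen ^ ((a : ℕ) + (b : ℕ)) * pb.gen ^ ε)
        = pb.gen ^ (pb.dim - m) * pb.gen ^ ((a : ℕ) + (b : ℕ)) := by
      field_simp
    rw [e1, ← pow_add]
  have hlow : ((dlGm_h9 pb ε m (pb.gen ^ (pb.dim - m) * (pb.gen⁻¹) ^ ε)).submatrix id
      (Fin.revPerm : Equiv.Perm (Fin m))).IsLowerTriangular := by
    intro i j hij
    have hij' : i < j := hij
    have hij'' : (i : ℕ) < (j : ℕ) := hij'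
    have hi := i.2
    have hj := j.2
    rw [Matrix.submatrix_apply, id, hent, Fin.revPerm_apply, Fin.val_rev,
      dlL0_pow_h9 pb _ (by omega), if_neg (by omega)]
  have hdiag : ∀ i : Fin m, ((dlGm_h9 pb ε m (pb.gen ^ (pb.dim - m) * (pb.gen⁻¹) ^ ε)).submatrix id
      (Fin.revPerm : Equiv.Perm (Fin m))) i i = 1 := by
    intro i
    have hi := i.2
    rw [Matrix.submatrix_apply, id, hent, Fin.revPerm_apply, Fin.val_rev,
      dlL0_pow_h9 pb _ (by omega), if_pos (by omega)]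
  have h1 := Matrix.det_of_isLowerTriangular _ hlow
  rw [Finset.prod_congr rfl (fun i _ => hdiag i), Finset.prod_const_one] at h1
  have h2 := Matrix.det_permute' (Fin.revPerm : Equiv.Perm (Fin m))
    (dlGm_h9 pb ε m (pb.gen ^ (pb.dim - m) * (pb.gen⁻¹) ^ ε))
  intro h0
  rw [h0, mul_zero] at h2
  rw [h2] at h1
  exact zero_ne_one h1

theorem dl_exists_regular_h9 [Infinite k] (hα0 : pb.gen ≠ 0) : ∃ γ : F, dlReg_h9 pb γ := by
  obtain ⟨γ, hγ⟩ := dl_common_h9 (k := k) (V := F)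
    ((Finset.Icc 1 pb.dim) ×ˢ (Finset.range 2))
    (fun i γ => (dlGm_h9 pb i.2 i.1 γ).det)
    (fun i _ γ₁ γ₂ => dl_gram_poly_h9 pb i.2 i.1 γ₁ γ₂)
    (fun i hi => ⟨_, dl_witness_h9 pb hα0 i.1
      (Finset.mem_Icc.mp (Finset.mem_product.mp hi).1).2 i.2⟩)
  refine ⟨γ, fun m hm1 hm => ⟨?_, ?_⟩⟩
  · exact hγ (m, 0) (Finset.mem_product.mpr ⟨Finset.mem_Icc.mpr ⟨hm1, hm⟩, by simp⟩)
  · exact hγ (m, 1) (Finset.mem_product.mpr ⟨Finset.mem_Icc.mpr ⟨hm1, hm⟩, by simp⟩)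

theorem dl_regular_line_h9 (γ₁ γ₂ : F) (hreg : dlReg_h9 pb γ₁) :
    ∃ B : Finset k, ∀ t, t ∉ B → dlReg_h9 pb (γ₁ + t • γ₂) := by
  classical
  choose p hp using fun (ε m : ℕ) => dl_gram_poly_h9 pb ε m γ₁ γ₂
  have hp0 : ∀ ε m, (p ε m).eval 0 = (dlGm_h9 pb ε m γ₁).det := by
    intro ε m
    rw [hp, zero_smul, add_zero]
  refine ⟨(Finset.Icc 1 pb.dim).biUnion
    (fun m => (p 0 m).roots.toFinset ∪ (p 1 m).roots.toFinset), ?_⟩
  intro t ht m hm1 hm
  have ht' : t ∉ (p 0 m).roots.toFinset ∪ (p 1 m).roots.toFinset := by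
    intro h
    exact ht (Finset.mem_biUnion.mpr ⟨m, Finset.mem_Icc.mpr ⟨hm1, hm⟩, h⟩)
  rw [Finset.mem_union, not_or, Multiset.mem_toFinset, Multiset.mem_toFinset] at ht'
  have hne0 : p 0 m ≠ 0 := by
    intro h0
    have := hp0 0 m
    rw [h0, Polynomial.eval_zero] at this
    exact (hreg m hm1 hm).1 this.symm
  have hne1 : p 1 m ≠ 0 := by
    intro h0
    have := hp0 1 m
    rw [h0, Polynomial.eval_zero] at this
    exact (hreg m hm1 hm).2 this.symm
  constructor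
  · rw [← hp]
    intro h
    exact ht'.1 ((Polynomial.mem_roots hne0).mpr h)
  · rw [← hp]
    intro h
    exact ht'.2 ((Polynomial.mem_roots hne1).mpr h)

/-- a regular `γ` gives the multipliers `α γ²` and `(α γ²)⁻¹`. -/
theorem dl_regular_mult_h9 (h2 : (2 : k) ≠ 0) (h3 : Nat.card k ≠ 3) (hα0 : pb.gen ≠ 0) (γ : F)
    (hreg : dlReg_h9 pb γ) :
    pb.gen * γ ^ 2 ∈ dlR_h9 k pb.gen h2 ∧ (pb.gen * γ ^ 2)⁻¹ ∈ dlR_h9 k pb.gen h2 := by
  obtain ⟨c, hc0, hc1⟩ := exists_good_scalar_h9 h2 h3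
  have hn := pb.dim_pos
  have hγ0 : γ ≠ 0 := by
    rintro rfl
    apply (hreg 1 le_rfl hn).1
    have : dlGm_h9 pb 0 1 (0 : F) = 0 := by
      ext a b
      rw [dlGm_apply_h9, zero_mul, map_zero]; rfl
    rw [this]
    exact Matrix.det_zero
  obtain ⟨g, hg, h00, horth⟩ := dl_lanczos_h9 (k := k) pb.gen pb.dim (dlLg_h9 pb γ)
    (fun m hm1 hm v hv h => dl_R_of_det_h9 pb γ 0 m (hreg m hm1 hm).1 v hv (fun i hi => by
      have := h i hi
      rw [dlLg_apply_h9] at this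
      rw [pow_zero, one_mul]; exact this))
    (fun m hm1 hm v hv h => dl_R_of_det_h9 pb γ 1 m (hreg m hm1 hm).2 v hv (fun i hi => by
      have := h i hi
      rw [dlLg_apply_h9] at this
      rw [pow_one]; exact this))
    (fun m hm v hv => dl_ind_h9 pb m hm v hv) (dl_Vtop_h9 pb) hn
  have hdet := (sl2_entries_h9 g).2
  rw [h00] at hdet
  have hr : g.1 1 0 ≠ 0 := by
    intro h; rw [h] at hdet; simp at hdet
  obtain ⟨c', hc'⟩ := dl_const_h9 pb (γ * g.1 1 0) (fun i hi => by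
    have := horth i hi
    rw [dlLg_apply_h9] at this
    rw [mul_assoc]; exact this)
  have hc'0 : c' ≠ 0 := by
    rintro rfl
    rw [map_zero] at hc'
    exact mul_ne_zero hγ0 hr hc'
  have hac : algebraMap k F c' ≠ 0 := (map_ne_zero _).mpr hc'0
  constructor
  · intro t ht
    have h1 := (dl_w_h9 k pb.gen h2 hα0 c hc0 hc1 g hg h00 t ht).2
    have h2' := dlT_smul_h9 k pb.gen h2 (c' ^ 2) _ h1
    have e : algebraMap k F (c' ^ 2) * (pb.gen / g.1 1 0 ^ 2 * t) = pb.gen * γ ^ 2 * t := by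
      rw [map_pow, ← hc']; field_simp
    rwa [e] at h2'
  · intro t ht
    have h1 := (dl_w_h9 k pb.gen h2 hα0 c hc0 hc1 g hg h00 t ht).1
    have h2' := dlT_smul_h9 k pb.gen h2 ((c' ^ 2)⁻¹) _ h1
    have e : algebraMap k F ((c' ^ 2)⁻¹) * (g.1 1 0 ^ 2 / pb.gen * t) = (pb.gen * γ ^ 2)⁻¹ * t := by
      rw [map_inv₀, map_pow, ← hc']; field_simp
    rwa [e] at h2'

/-- **Dickson's lemma, infinite base field.** -/
theorem dl_infinite_h9 [Infinite k] (h2 : (2 : k) ≠ 0) (hα0 : pb.gen ≠ 0) :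
    dlG_h9 k pb.gen = ⊤ := by
  classical
  have h3 : Nat.card k ≠ 3 := by rw [Nat.card_eq_zero_of_infinite]; norm_num
  obtain ⟨γ₀, hreg⟩ := dl_exists_regular_h9 pb hα0
  obtain ⟨B, hB⟩ := dl_regular_line_h9 pb γ₀ (γ₀ * pb.gen) hreg
  obtain ⟨t₁, ht₁⟩ := Infinite.exists_notMem_finset B
  obtain ⟨t₂, ht₂⟩ := Infinite.exists_notMem_finset (insert t₁ B)
  obtain ⟨t₃, ht₃⟩ := Infinite.exists_notMem_finset (insert t₂ (insert t₁ B))
  have h12 : t₁ ≠ t₂ := fun h => ht₂ (by rw [h]; exact Finset.mem_insert_self _ _)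
  have h23 : t₂ ≠ t₃ := fun h => ht₃ (by rw [h]; exact Finset.mem_insert_self _ _)
  have hB₂ : t₂ ∉ B := fun h => ht₂ (Finset.mem_insert_of_mem h)
  have hB₃ : t₃ ∉ B := fun h => ht₃ (Finset.mem_insert_of_mem (Finset.mem_insert_of_mem h))
  have hγ₀ : γ₀ ≠ 0 := by
    rintro rfl
    apply (hreg 1 le_rfl pb.dim_pos).1
    have : dlGm_h9 pb 0 1 (0 : F) = 0 := by
      ext a b
      rw [dlGm_apply_h9, zero_mul, map_zero]; rfl
    rw [this]
    exact Matrix.det_zero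
  have hinv := (dl_regular_mult_h9 pb h2 h3 hα0 γ₀ hreg).2
  have hsq : ∀ t, t ∉ B → (1 + algebraMap k F t * pb.gen) ^ 2 ∈ dlR_h9 k pb.gen h2 := by
    intro t ht
    have h1 := (dl_regular_mult_h9 pb h2 h3 hα0 _ (hB t ht)).1
    have h2' := (dlR_h9 k pb.gen h2).mul_mem h1 hinv
    have e : pb.gen * (γ₀ + t • (γ₀ * pb.gen)) ^ 2 * (pb.gen * γ₀ ^ 2)⁻¹
        = (1 + algebraMap k F t * pb.gen) ^ 2 := by
      rw [Algebra.smul_def]; field_simp
    rwa [e] at h2'
  have he₁ := hsq t₁ ht₁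
  have he₂ := hsq t₂ hB₂
  have he₃ := hsq t₃ hB₃
  have h2F : (2 : F) ≠ 0 := by
    have := (map_ne_zero (algebraMap k F)).mpr h2
    rwa [map_ofNat] at this
  have ha12 : algebraMap k F t₁ - algebraMap k F t₂ ≠ 0 :=
    sub_ne_zero.mpr (fun h => h12 ((algebraMap k F).injective h))
  have ha23 : algebraMap k F t₂ - algebraMap k F t₃ ≠ 0 :=
    sub_ne_zero.mpr (fun h => h23 ((algebraMap k F).injective h))
  have hu12 : 2 * pb.gen + (algebraMap k F t₁ + algebraMap k F t₂) * pb.gen ^ 2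
      ∈ dlR_h9 k pb.gen h2 := by
    have e : 2 * pb.gen + (algebraMap k F t₁ + algebraMap k F t₂) * pb.gen ^ 2
        = algebraMap k F ((t₁ - t₂)⁻¹) * ((1 + algebraMap k F t₁ * pb.gen) ^ 2 -
          (1 + algebraMap k F t₂ * pb.gen) ^ 2) := by
      rw [map_inv₀, map_sub]; field_simp; ring
    rw [e]
    exact (dlR_h9 k pb.gen h2).mul_mem ((dlR_h9 k pb.gen h2).algebraMap_mem _)
      ((dlR_h9 k pb.gen h2).sub_mem he₁ he₂)
  have hu13 : 2 * pb.gen + (algebraMap k F t₂ + algebraMap k F t₃) * pb.gen ^ 2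
      ∈ dlR_h9 k pb.gen h2 := by
    have e : 2 * pb.gen + (algebraMap k F t₂ + algebraMap k F t₃) * pb.gen ^ 2
        = algebraMap k F ((t₂ - t₃)⁻¹) * ((1 + algebraMap k F t₂ * pb.gen) ^ 2 -
          (1 + algebraMap k F t₃ * pb.gen) ^ 2) := by
      rw [map_inv₀, map_sub]; field_simp; ring
    rw [e]
    exact (dlR_h9 k pb.gen h2).mul_mem ((dlR_h9 k pb.gen h2).algebraMap_mem _)
      ((dlR_h9 k pb.gen h2).sub_mem he₂ he₃)
  have h13 : t₁ ≠ t₃ := fun h => ht₃ (by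
    rw [← h]; exact Finset.mem_insert_of_mem (Finset.mem_insert_self _ _))
  have ha13 : algebraMap k F t₁ - algebraMap k F t₃ ≠ 0 :=
    sub_ne_zero.mpr (fun h => h13 ((algebraMap k F).injective h))
  have hα2 : pb.gen ^ 2 ∈ dlR_h9 k pb.gen h2 := by
    have e : pb.gen ^ 2 = algebraMap k F ((t₁ - t₃)⁻¹) *
        ((2 * pb.gen + (algebraMap k F t₁ + algebraMap k F t₂) * pb.gen ^ 2) -
          (2 * pb.gen + (algebraMap k F t₂ + algebraMap k F t₃) * pb.gen ^ 2)) := by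
      rw [map_inv₀, map_sub]; field_simp; ring
    rw [e]
    exact (dlR_h9 k pb.gen h2).mul_mem ((dlR_h9 k pb.gen h2).algebraMap_mem _)
      ((dlR_h9 k pb.gen h2).sub_mem hu12 hu13)
  have hαR : pb.gen ∈ dlR_h9 k pb.gen h2 := by
    have e : pb.gen = algebraMap k F (2⁻¹) *
        ((2 * pb.gen + (algebraMap k F t₁ + algebraMap k F t₂) * pb.gen ^ 2) -
          (algebraMap k F t₁ + algebraMap k F t₂) * pb.gen ^ 2) := by
      rw [map_inv₀, map_ofNat]; field_simp; ring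
    have hmem : algebraMap k F (2⁻¹) *
        ((2 * pb.gen + (algebraMap k F t₁ + algebraMap k F t₂) * pb.gen ^ 2) -
          (algebraMap k F t₁ + algebraMap k F t₂) * pb.gen ^ 2) ∈ dlR_h9 k pb.gen h2 :=
      (dlR_h9 k pb.gen h2).mul_mem ((dlR_h9 k pb.gen h2).algebraMap_mem _)
        ((dlR_h9 k pb.gen h2).sub_mem hu12
          ((dlR_h9 k pb.gen h2).mul_mem ((dlR_h9 k pb.gen h2).add_mem
            ((dlR_h9 k pb.gen h2).algebraMap_mem _) ((dlR_h9 k pb.gen h2).algebraMap_mem _)) hα2))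
    rwa [← e] at hmem
  exact dl_top_of_R_h9 k pb.gen h2 hα0 pb.adjoin_gen_eq_top hαR

end generic

end Cfsg.Agent.Helper9
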