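import Mathlib
import Cfsg.Agent.Helper9.Dl3

/-!
# Dickson's lemma over general fields, part 4: the finite case via the subgroup structure (helper9)
-/

set_option autoImplicit false
open scoped MatrixGroups

namespace Cfsg.Agent.Helper9

theorem sl2L_zero_h9 {F : Type*} [Field F] : sl2L_h9 (0 : F) = 1 := by
  obtain ⟨o00, o01, o10, o11⟩ := sl2_one_entries_h9 (F := F)
  apply sl2_ext_h9
  · rw [sl2L00_h9, o00]
  · rw [sl2L01_h9, o01]
  · rw [sl2L10_h9, o10]
  · rw [sl2L11_h9, o11]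

theorem sl2L_add_h9 {F : Type*} [Field F] (u v : F) :
    sl2L_h9 u * sl2L_h9 v = sl2L_h9 (u + v) := by
  apply sl2_ext_h9 <;>
    simp only [sl2m00_h9, sl2m01_h9, sl2m10_h9, sl2m11_h9, sl2L00_h9, sl2L01_h9, sl2L10_h9,
      sl2L11_h9] <;> ring

theorem sl2L_pow_h9 {F : Type*} [Field F] (u : F) (n : ℕ) : sl2L_h9 u ^ n = sl2L_h9 (n * u) := by
  induction n with
  | zero => simp [sl2L_zero_h9]
  | succ n ih =>
    rw [pow_succ, ih, sl2L_add_h9]
    congr 1
    push_cast; ring

section finite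

variable {k F : Type*} [Field k] [Field F] [Algebra k F] [Finite F] (pb : PowerBasis k F)

/-- **Dickson's lemma, finite fields.** -/
theorem dl_finite_h9 (h2 : (2 : k) ≠ 0) (h3 : Nat.card k ≠ 3) (hα0 : pb.gen ≠ 0) :
    dlG_h9 k pb.gen = ⊤ := by
  classical
  haveI : Fintype F := Fintype.ofFinite F
  obtain ⟨p, hcp⟩ := CharP.exists F
  haveI : Fact p.Prime := ⟨CharP.char_is_prime F p⟩
  have h2F : (2 : F) ≠ 0 := by
    have := (map_ne_zero (algebraMap k F)).mpr h2
    rwa [map_ofNat] at this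
  have hp2 : p ≠ 2 := by
    rintro rfl
    exact h2F (by exact_mod_cast CharP.cast_eq_zero F 2)
  have hpodd : Odd p := (Fact.out : p.Prime).odd_of_ne_two hp2
  -- the conjugated group
  obtain ⟨u, hu⟩ : ∃ u : SL(2, F), u = sl2E_h9 (-(pb.gen)⁻¹) := ⟨_, rfl⟩
  obtain ⟨L', hL'⟩ : ∃ L' : Subgroup SL(2, F),
      L' = (dlG_h9 k pb.gen).map (MulAut.conj u).toMonoidHom := ⟨_, rfl⟩
  obtain ⟨H', hH'⟩ : ∃ H' : Subgroup (Matrix.ProjectiveSpecialLinearGroup (Fin 2) F),
      H' = L'.map (QuotientGroup.mk' (Subgroup.center SL(2, F))) := ⟨_, rfl⟩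
  have hmemL : ∀ x ∈ dlG_h9 k pb.gen, u * x * u⁻¹ ∈ L' := by
    intro x hx
    rw [hL']
    exact Subgroup.mem_map_of_mem (MulAut.conj u).toMonoidHom hx
  have hmemH : ∀ y ∈ L', (QuotientGroup.mk y : Matrix.ProjectiveSpecialLinearGroup (Fin 2) F) ∈ H' := by
    intro y hy
    rw [hH']
    exact Subgroup.mem_map_of_mem (QuotientGroup.mk' (Subgroup.center SL(2, F))) hy
  have hconjE : ∀ t : F, u * sl2E_h9 t * u⁻¹ = sl2E_h9 t := by
    intro t
    rw [hu, sl2E_inv_h9, sl2E_mul_h9, sl2E_mul_h9]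
    congr 1; ring
  have hEc : ∀ c : k, (QuotientGroup.mk (sl2E_h9 (algebraMap k F c)) :
      Matrix.ProjectiveSpecialLinearGroup (Fin 2) F) ∈ H' := by
    intro c
    have := hmemH _ (hmemL _ (dlG_E_h9 k pb.gen c))
    rwa [hconjE] at this
  have hE : (QuotientGroup.mk (sl2E_h9 (1 : F)) :
      Matrix.ProjectiveSpecialLinearGroup (Fin 2) F) ∈ H' := by
    have := hEc 1
    rwa [map_one] at this
  -- the element with zero corner
  obtain ⟨X, hXL, hX00, hX10, hX11⟩ : ∃ X ∈ L', X.1 0 0 = 0 ∧ X.1 1 0 = pb.gen ∧ X.1 1 1 = 2 := by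
    refine ⟨u * sl2L_h9 (algebraMap k F 1 * pb.gen) * u⁻¹, hmemL _ (dlG_L_h9 k pb.gen 1), ?_, ?_, ?_⟩
    · rw [hu, map_one]
      simp only [sl2m00_h9, sl2m01_h9, sl2m10_h9, sl2m11_h9, sl2i00_h9, sl2i01_h9, sl2i10_h9,
        sl2i11_h9, sl2E00_h9, sl2E01_h9, sl2E10_h9, sl2E11_h9, sl2L00_h9, sl2L01_h9, sl2L10_h9,
        sl2L11_h9]
      field_simp; ring
    · rw [hu, map_one]
      simp only [sl2m00_h9, sl2m01_h9, sl2m10_h9, sl2m11_h9, sl2i00_h9, sl2i01_h9, sl2i10_h9,
        sl2i11_h9, sl2E00_h9, sl2E01_h9, sl2E10_h9, sl2E11_h9, sl2L00_h9, sl2L01_h9, sl2L10_h9,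
        sl2L11_h9]
      ring
    · rw [hu, map_one]
      simp only [sl2m00_h9, sl2m01_h9, sl2m10_h9, sl2m11_h9, sl2i00_h9, sl2i01_h9, sl2i10_h9,
        sl2i11_h9, sl2E00_h9, sl2E01_h9, sl2E10_h9, sl2E11_h9, sl2L00_h9, sl2L01_h9, sl2L10_h9,
        sl2L11_h9]
      field_simp; ring
  have hXH := hmemH X hXL
  have hout := psl2_out_mk_h9 X
  have hg₀ : (Quotient.out (QuotientGroup.mk X : Matrix.ProjectiveSpecialLinearGroup (Fin 2) F) :
      SL(2, F)).1 0 0 = 0 := by
    rcases hout with h | h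
    · rw [h, hX00]
    · rw [h, (sl2_neg_entries_h9 X).1, hX00, neg_zero]
  -- the order of the unipotent subgroup
  haveI : Finite k := Finite.of_injective (algebraMap k F) (algebraMap k F).injective
  have hk4 : 4 ≤ Nat.card k := by
    haveI : Fintype k := Fintype.ofFinite k
    have h1 : 1 < Nat.card k := Finite.one_lt_card
    have hne2 : Nat.card k ≠ 2 := by
      intro h
      apply h2
      have := Nat.cast_card_eq_zero k
      rw [← Nat.card_eq_fintype_card, h] at this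
      exact_mod_cast this
    omega
  have hcomm : ∀ c : k, psl2Comm_h9 (QuotientGroup.mk (sl2E_h9 (algebraMap k F c)) :
      Matrix.ProjectiveSpecialLinearGroup (Fin 2) F) (QuotientGroup.mk (sl2E_h9 (1 : F))) := by
    intro c
    rw [psl2Comm_iff_h9]
    show sl2E_h9 (algebraMap k F c) * sl2E_h9 1 = sl2E_h9 1 * sl2E_h9 (algebraMap k F c)
    rw [sl2E_mul_h9, sl2E_mul_h9, add_comm]
  have hkq : Nat.card k ≤ Nat.card (psl2Tau_h9 H' ⟨QuotientGroup.mk (sl2E_h9 (1 : F)), hE⟩) := by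
    apply Nat.card_le_card_of_injective
      (fun c : k => (⟨⟨QuotientGroup.mk (sl2E_h9 (algebraMap k F c)), hEc c⟩, hcomm c⟩ :
        psl2Tau_h9 H' ⟨QuotientGroup.mk (sl2E_h9 (1 : F)), hE⟩))
    intro c c' hcc
    have h1 : (QuotientGroup.mk (sl2E_h9 (algebraMap k F c)) :
        Matrix.ProjectiveSpecialLinearGroup (Fin 2) F) = QuotientGroup.mk (sl2E_h9 (algebraMap k F c')) :=
      congrArg (fun z : psl2Tau_h9 H' ⟨QuotientGroup.mk (sl2E_h9 (1 : F)), hE⟩ => (z.1.1 :
        Matrix.ProjectiveSpecialLinearGroup (Fin 2) F)) hcc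
    rcases (psl2_mk_eq_iff_h9 _ _).mp h1 with h | h
    · have := congrArg (fun z : SL(2, F) => z.1 0 1) h
      simp only [sl2E01_h9] at this
      exact (algebraMap k F).injective this
    · exfalso
      have := congrArg (fun z : SL(2, F) => z.1 0 0) h
      simp only [sl2E00_h9, (sl2_neg_entries_h9 _).1] at this
      apply h2F
      linear_combination this
  have h4 : 4 ≤ Nat.card (psl2Tau_h9 H' ⟨QuotientGroup.mk (sl2E_h9 (1 : F)), hE⟩) :=
    le_trans hk4 hkq
  obtain ⟨k', hcard, hk2, hkq', hS, hEL, hb, hform, -⟩ :=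
    np3_struct_h9 (p := p) H' hE ⟨QuotientGroup.mk X, hXH⟩ hg₀ _ rfl h4
  -- the subfield is everything
  have hSk : ∀ c : k, algebraMap k F c ∈ npS_h9 H' := fun c => hb _ (hEc c)
  have hSα : pb.gen ∈ npS_h9 H' := by
    obtain ⟨lam, hlam, hent⟩ := hform ⟨QuotientGroup.mk X, hXH⟩
    have h11 : (2 : F) / lam ∈ npS_h9 H' := by
      rcases hout with h | h
      · have := hent 1 1
        rwa [h, hX11] at this
      · have := hent 1 1
        rw [h, (sl2_neg_entries_h9 X).2.2.2, hX11, neg_div] at this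
        have := (npS_h9 H').neg_mem this
        rwa [neg_neg] at this
    have h10 : pb.gen / lam ∈ npS_h9 H' := by
      rcases hout with h | h
      · have := hent 1 0
        rwa [h, hX10] at this
      · have := hent 1 0
        rw [h, (sl2_neg_entries_h9 X).2.2.1, hX10, neg_div] at this
        have := (npS_h9 H').neg_mem this
        rwa [neg_neg] at this
    have h2S : (2 : F) ∈ npS_h9 H' := by
      have := (npS_h9 H').add_mem (npS_h9 H').one_mem (npS_h9 H').one_mem
      rwa [one_add_one_eq_two] at this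
    have hlamS : lam ∈ npS_h9 H' := by
      have := (npS_h9 H').mul_mem h2S ((npS_h9 H').inv_mem h11)
      have e : (2 : F) * (2 / lam)⁻¹ = lam := by field_simp
      rwa [e] at this
    have := (npS_h9 H').mul_mem h10 hlamS
    have e : pb.gen / lam * lam = pb.gen := by field_simp
    rwa [e] at this
  have hSall : ∀ x : F, x ∈ npS_h9 H' := by
    intro x
    rw [← pb.basis.sum_repr x]
    apply (npS_h9 H').sum_mem
    intro i _
    rw [Algebra.smul_def, pb.basis_eq_pow]
    exact (npS_h9 H').mul_mem (hSk _) ((npS_h9 H').pow_mem hSα _)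
  have hq : Nat.card (psl2Tau_h9 H' ⟨QuotientGroup.mk (sl2E_h9 (1 : F)), hE⟩) = Fintype.card F := by
    rw [← hS, ← Nat.card_eq_fintype_card]
    exact Nat.card_congr (Equiv.subtypeUnivEquiv hSall)
  rw [hq] at hcard hkq' h4
  have hHtop : H' = ⊤ := by
    by_contra hM
    exact top_case_false_h9 (p := p) h4 H' hM k' hcard hkq'
  have hLall : ∀ Z : SL(2, F), Z ∈ L' ∨ -Z ∈ L' := by
    intro Z
    have hZ : (QuotientGroup.mk Z : Matrix.ProjectiveSpecialLinearGroup (Fin 2) F) ∈ H' := by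
      rw [hHtop]; exact Subgroup.mem_top _
    rw [hH'] at hZ
    obtain ⟨Y, hY, hYZ⟩ := Subgroup.mem_map.mp hZ
    rcases (psl2_mk_eq_iff_h9 Y Z).mp hYZ with h | h
    · left; rw [← h]; exact hY
    · right
      have : -Z = Y := h.symm
      rw [this]; exact hY
  have hLtop : L' = ⊤ := by
    apply sl2_gen_h9
    · intro t
      rcases hLall (sl2E_h9 t) with h | h
      · exact h
      · have hm1 : (-1 : SL(2, F)) ∈ L' := by
          have := L'.pow_mem h p
          rwa [Odd.neg_pow hpodd, sl2E_pow_h9, CharP.cast_eq_zero, zero_mul, sl2E_zero_h9] at this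
        have := L'.mul_mem hm1 h
        rwa [neg_mul_neg, one_mul] at this
    · intro s
      rcases hLall (sl2L_h9 s) with h | h
      · exact h
      · have hm1 : (-1 : SL(2, F)) ∈ L' := by
          have := L'.pow_mem h p
          rwa [Odd.neg_pow hpodd, sl2L_pow_h9, CharP.cast_eq_zero, zero_mul, sl2L_zero_h9] at this
        have := L'.mul_mem hm1 h
        rwa [neg_mul_neg, one_mul] at this
  rw [eq_top_iff]
  intro x _
  have hx : (MulAut.conj u).toMonoidHom x ∈ L' := by rw [hLtop]; exact Subgroup.mem_top _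
  rw [hL'] at hx
  obtain ⟨y, hy, hyx⟩ := Subgroup.mem_map.mp hx
  have : y = x := (MulAut.conj u).injective hyx
  rw [← this]; exact hy

end finite

end Cfsg.Agent.Helper9
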