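import Mathlib
import Cfsg.Agent.Helper9.Dl4

/-!
# Dickson's lemma over general fields, part 5: the statement (helper9)
-/

set_option autoImplicit false
open scoped MatrixGroups

namespace Cfsg.Agent.Helper9

theorem dl_main_h9 {k F : Type*} [Field k] [Field F] [Algebra k F] (pb : PowerBasis k F)
    (h2 : (2 : k) ≠ 0) (h3 : Nat.card k ≠ 3) (hα0 : pb.gen ≠ 0) : dlG_h9 k pb.gen = ⊤ := by
  rcases finite_or_infinite k with hfin | hinf
  · haveI : Module.Finite k F := pb.finite
    haveI : Finite F := Module.finite_of_finite k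
    exact dl_finite_h9 pb h2 h3 hα0
  · exact dl_infinite_h9 pb h2 hα0

/-- **Dickson's lemma over general fields** (the statement S5060). -/
theorem dl_statement_h9 {k K : Type*} [Field k] [Field K] [Algebra k K] (hk2 : ringChar k ≠ 2)
    (hk3 : Nat.card k ≠ 3) (α : K) (hα : IsAlgebraic k α) (hα0 : α ≠ 0) :
    (Subgroup.closure ({g : Matrix.SpecialLinearGroup (Fin 2) K | ∃ c : k, (g : Matrix (Fin 2) (Fin 2) K) = !![1, algebraMap k K c; 0, 1]} ∪
        {g : Matrix.SpecialLinearGroup (Fin 2) K | ∃ c : k, (g : Matrix (Fin 2) (Fin 2) K) = !![1, 0; algebraMap k K c * α, 1]}) :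
      Set (Matrix.SpecialLinearGroup (Fin 2) K)) =
    {g : Matrix.SpecialLinearGroup (Fin 2) K | ∀ i j : Fin 2, (g : Matrix (Fin 2) (Fin 2) K) i j ∈ IntermediateField.adjoin k ({α} : Set K)} := by
  have h2 : (2 : k) ≠ 0 := Ring.two_ne_zero hk2
  have hgens : ({g : Matrix.SpecialLinearGroup (Fin 2) K | ∃ c : k, (g : Matrix (Fin 2) (Fin 2) K) = !![1, algebraMap k K c; 0, 1]} ∪
        {g : Matrix.SpecialLinearGroup (Fin 2) K | ∃ c : k, (g : Matrix (Fin 2) (Fin 2) K) = !![1, 0; algebraMap k K c * α, 1]})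
      = ({g | ∃ c : k, g = sl2E_h9 (algebraMap k K c)} ∪
          {g | ∃ c : k, g = sl2L_h9 (algebraMap k K c * α)}) := by
    ext g
    constructor
    · rintro (⟨c, hc⟩ | ⟨c, hc⟩)
      · exact Or.inl ⟨c, Subtype.ext hc⟩
      · exact Or.inr ⟨c, Subtype.ext hc⟩
    · rintro (⟨c, rfl⟩ | ⟨c, rfl⟩)
      · exact Or.inl ⟨c, rfl⟩
      · exact Or.inr ⟨c, rfl⟩
  rw [hgens]
  obtain ⟨pb, hgen⟩ : ∃ pb : PowerBasis k ↥(IntermediateField.adjoin k ({α} : Set K)),
      algebraMap ↥(IntermediateField.adjoin k ({α} : Set K)) K pb.gen = α :=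
    ⟨IntermediateField.adjoin.powerBasis hα.isIntegral,
      IntermediateField.AdjoinSimple.algebraMap_gen k α⟩
  have hgen0 : pb.gen ≠ 0 := by
    intro h
    rw [h, map_zero] at hgen
    exact hα0 hgen.symm
  have hmain := dl_main_h9 pb h2 hk3 hgen0
  have hmap : Subgroup.closure (({g | ∃ c : k, g = sl2E_h9 (algebraMap k K c)} ∪
        {g | ∃ c : k, g = sl2L_h9 (algebraMap k K c * α)}) : Set (Matrix.SpecialLinearGroup (Fin 2) K))
      = (dlG_h9 k pb.gen).map (Matrix.SpecialLinearGroup.map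
          (algebraMap ↥(IntermediateField.adjoin k ({α} : Set K)) K)) := by
    unfold dlG_h9
    rw [MonoidHom.map_closure]
    congr 1
    ext g
    constructor
    · rintro (⟨c, rfl⟩ | ⟨c, rfl⟩)
      · refine ⟨sl2E_h9 (algebraMap k _ c), Or.inl ⟨c, rfl⟩, ?_⟩
        rw [sl2_map_E_h9, ← IsScalarTower.algebraMap_apply]
      · refine ⟨sl2L_h9 (algebraMap k _ c * pb.gen), Or.inr ⟨c, rfl⟩, ?_⟩
        rw [sl2_map_L_h9, map_mul, hgen, ← IsScalarTower.algebraMap_apply]
    · rintro ⟨y, (⟨c, rfl⟩ | ⟨c, rfl⟩), rfl⟩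
      · left
        refine ⟨c, ?_⟩
        rw [sl2_map_E_h9, ← IsScalarTower.algebraMap_apply]
      · right
        refine ⟨c, ?_⟩
        rw [sl2_map_L_h9, map_mul, hgen, ← IsScalarTower.algebraMap_apply]
  rw [hmap, hmain]
  ext x
  simp only [SetLike.mem_coe, Subgroup.mem_map, Subgroup.mem_top, true_and, Set.mem_setOf_eq]
  constructor
  · rintro ⟨y, rfl⟩ i j
    show (algebraMap ↥(IntermediateField.adjoin k ({α} : Set K)) K) (y.1 i j) ∈
      IntermediateField.adjoin k ({α} : Set K)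
    exact (y.1 i j).2
  · intro h
    have hdet : Matrix.det (Matrix.of fun i j =>
        (⟨x.1 i j, h i j⟩ : ↥(IntermediateField.adjoin k ({α} : Set K)))) = 1 := by
      apply (algebraMap ↥(IntermediateField.adjoin k ({α} : Set K)) K).injective
      rw [RingHom.map_det, map_one]
      have e : (algebraMap ↥(IntermediateField.adjoin k ({α} : Set K)) K).mapMatrix
          (Matrix.of fun i j => (⟨x.1 i j, h i j⟩ : ↥(IntermediateField.adjoin k ({α} : Set K))))
          = x.1 := by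
        ext i j; rfl
      rw [e]; exact x.2
    refine ⟨⟨Matrix.of fun i j =>
      (⟨x.1 i j, h i j⟩ : ↥(IntermediateField.adjoin k ({α} : Set K))), hdet⟩, ?_⟩
    apply Subtype.ext
    ext i j
    rfl

end Cfsg.Agent.Helper9
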