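import Mathlib
import Cfsg.Agent.Helper9.E9a

/-!
# The subgroup of order 120 of `SL(2, 9)` generated by two transvections (helper9)
-/

set_option autoImplicit false
open scoped MatrixGroups

namespace Cfsg.Agent.Helper9

/-- decoding a code as a matrix over a field of characteristic `3`. -/
def c9m_h9 {F : Type*} [Field F] [CharP F 3] (lam : F) (v : C9_h9) : Matrix (Fin 2) (Fin 2) F :=
  !![ZMod.castHom (dvd_refl 3) F v.a0 + ZMod.castHom (dvd_refl 3) F v.a1 * lam,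
     ZMod.castHom (dvd_refl 3) F v.a2 + ZMod.castHom (dvd_refl 3) F v.a3 * lam;
     ZMod.castHom (dvd_refl 3) F v.a4 + ZMod.castHom (dvd_refl 3) F v.a5 * lam,
     ZMod.castHom (dvd_refl 3) F v.a6 + ZMod.castHom (dvd_refl 3) F v.a7 * lam]

theorem c9m_L_h9 {F : Type*} [Field F] [CharP F 3] (lam : F) (v : C9_h9) :
    c9m_h9 lam (c9L_h9 v) = (!![1, 0; 1, 1] : Matrix (Fin 2) (Fin 2) F) * c9m_h9 lam v := by
  obtain ⟨a0, a1, a2, a3, a4, a5, a6, a7⟩ := v
  ext i j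
  fin_cases i <;> fin_cases j <;>
    simp [c9m_h9, c9L_h9, Matrix.mul_apply, Fin.sum_univ_two] <;> ring

theorem c9m_E_h9 {F : Type*} [Field F] [CharP F 3] (lam : F) (hlam : lam ^ 2 = -1) (v : C9_h9) :
    c9m_h9 lam (c9E_h9 v) = (!![1, lam; 0, 1] : Matrix (Fin 2) (Fin 2) F) * c9m_h9 lam v := by
  obtain ⟨a0, a1, a2, a3, a4, a5, a6, a7⟩ := v
  ext i j
  fin_cases i <;> fin_cases j
  · simp [c9m_h9, c9E_h9, Matrix.mul_apply, Fin.sum_univ_two]
    linear_combination (-(ZMod.cast a5 : F)) * hlam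
  · simp [c9m_h9, c9E_h9, Matrix.mul_apply, Fin.sum_univ_two]
    linear_combination (-(ZMod.cast a7 : F)) * hlam
  · simp [c9m_h9, c9E_h9, Matrix.mul_apply, Fin.sum_univ_two]
  · simp [c9m_h9, c9E_h9, Matrix.mul_apply, Fin.sum_univ_two]

theorem c9m_id_h9 {F : Type*} [Field F] [CharP F 3] (lam : F) :
    c9m_h9 lam c9id_h9 = 1 := by
  ext i j
  fin_cases i <;> fin_cases j <;> simp [c9m_h9, c9id_h9]

theorem zmod3_sq_h9 : ∀ a b : ZMod 3, a ^ 2 + b ^ 2 = 0 → a = 0 ∧ b = 0 := by decide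

theorem c9_indep_h9 {F : Type*} [Field F] [CharP F 3] (lam : F) (hlam : lam ^ 2 = -1)
    (a b a' b' : ZMod 3)
    (h : ZMod.castHom (dvd_refl 3) F a + ZMod.castHom (dvd_refl 3) F b * lam =
      ZMod.castHom (dvd_refl 3) F a' + ZMod.castHom (dvd_refl 3) F b' * lam) :
    a = a' ∧ b = b' := by
  have h1 : ZMod.castHom (dvd_refl 3) F ((a - a') ^ 2 + (b - b') ^ 2) = 0 := by
    rw [map_add, map_pow, map_pow, map_sub, map_sub]
    linear_combination ((ZMod.castHom (dvd_refl 3) F a - ZMod.castHom (dvd_refl 3) F a') -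
      (ZMod.castHom (dvd_refl 3) F b - ZMod.castHom (dvd_refl 3) F b') * lam) * h +
      (ZMod.castHom (dvd_refl 3) F b - ZMod.castHom (dvd_refl 3) F b') ^ 2 * hlam
  have h2 : (a - a') ^ 2 + (b - b') ^ 2 = 0 :=
    (ZMod.castHom (dvd_refl 3) F).injective (by rw [h1, map_zero])
  obtain ⟨h3, h4⟩ := zmod3_sq_h9 _ _ h2
  exact ⟨sub_eq_zero.mp h3, sub_eq_zero.mp h4⟩

theorem c9m_inj_h9 {F : Type*} [Field F] [CharP F 3] (lam : F) (hlam : lam ^ 2 = -1)
    (v v' : C9_h9) (h : c9m_h9 lam v = c9m_h9 lam v') : v = v' := by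
  obtain ⟨a0, a1, a2, a3, a4, a5, a6, a7⟩ := v
  obtain ⟨b0, b1, b2, b3, b4, b5, b6, b7⟩ := v'
  have e00 := congrFun (congrFun h 0) 0
  have e01 := congrFun (congrFun h 0) 1
  have e10 := congrFun (congrFun h 1) 0
  have e11 := congrFun (congrFun h 1) 1
  simp only [c9m_h9, Matrix.of_apply, Matrix.cons_val_zero, Matrix.cons_val_one,
    Matrix.cons_val', Matrix.cons_val_fin_one] at e00 e01 e10 e11
  obtain ⟨h0, h1⟩ := c9_indep_h9 lam hlam _ _ _ _ e00
  obtain ⟨h2, h3⟩ := c9_indep_h9 lam hlam _ _ _ _ e01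
  obtain ⟨h4, h5⟩ := c9_indep_h9 lam hlam _ _ _ _ e10
  obtain ⟨h6, h7⟩ := c9_indep_h9 lam hlam _ _ _ _ e11
  subst h0 h1 h2 h3 h4 h5 h6 h7
  rfl

/-- the two transvections generate a subgroup of order `120` when `λ² = -1` in characteristic
`3`. -/
theorem f9_card_h9 {F : Type*} [Field F] [Finite F] [CharP F 3] (lam : F) (hlam : lam ^ 2 = -1) :
    Nat.card (Subgroup.closure {g : SL(2, F) | (g : Matrix (Fin 2) (Fin 2) F) = !![1, 0; 1, 1] ∨
      (g : Matrix (Fin 2) (Fin 2) F) = !![1, lam; 0, 1]}) = 120 := by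
  -- realization of the codes
  have hR : ∀ w : List Bool, ∃ g ∈ Subgroup.closure {g : SL(2, F) |
      (g : Matrix (Fin 2) (Fin 2) F) = !![1, 0; 1, 1] ∨
      (g : Matrix (Fin 2) (Fin 2) F) = !![1, lam; 0, 1]}, g.1 = c9m_h9 lam (c9word_h9 w) := by
    intro w
    induction w with
    | nil => exact ⟨1, Subgroup.one_mem _, (c9m_id_h9 lam).symm⟩
    | cons b w ih =>
      obtain ⟨g, hg, hg1⟩ := ih
      cases b
      · refine ⟨sl2E_h9 lam * g, Subgroup.mul_mem _ (Subgroup.subset_closure (Or.inr rfl)) hg, ?_⟩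
        show (sl2E_h9 lam * g).1 = c9m_h9 lam (c9E_h9 (c9word_h9 w))
        rw [c9m_E_h9 lam hlam, ← hg1]
        rfl
      · refine ⟨sl2L_h9 1 * g, Subgroup.mul_mem _ (Subgroup.subset_closure (Or.inl rfl)) hg, ?_⟩
        show (sl2L_h9 (1 : F) * g).1 = c9m_h9 lam (c9L_h9 (c9word_h9 w))
        rw [c9m_L_h9 lam, ← hg1]
        rfl
  -- the closure stays inside the coded set
  have hC : ∀ g ∈ Subgroup.closure {g : SL(2, F) |
      (g : Matrix (Fin 2) (Fin 2) F) = !![1, 0; 1, 1] ∨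
      (g : Matrix (Fin 2) (Fin 2) F) = !![1, lam; 0, 1]},
      ∀ t : SL(2, F), (∃ v ∈ c9T_h9, t.1 = c9m_h9 lam v) →
        ∃ v ∈ c9T_h9, (g * t).1 = c9m_h9 lam v := by
    intro g hg
    refine Subgroup.closure_induction (p := fun g _ => ∀ t : SL(2, F),
      (∃ v ∈ c9T_h9, t.1 = c9m_h9 lam v) → ∃ v ∈ c9T_h9, (g * t).1 = c9m_h9 lam v)
      ?_ ?_ ?_ ?_ hg
    · rintro x (hx | hx) t ⟨v, hv, htv⟩
      · refine ⟨c9L_h9 v, (c9_closed_h9 v hv).1, ?_⟩
        rw [c9m_L_h9 lam, ← htv, ← hx]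
        rfl
      · refine ⟨c9E_h9 v, (c9_closed_h9 v hv).2, ?_⟩
        rw [c9m_E_h9 lam hlam, ← htv, ← hx]
        rfl
    · intro t ht
      rw [one_mul]
      exact ht
    · intro x y _ _ hx hy t ht
      rw [mul_assoc]
      exact hx _ (hy t ht)
    · intro x _ hx t ht
      let TF : Set (SL(2, F)) := {t | ∃ v ∈ c9T_h9, t.1 = c9m_h9 lam v}
      let f : TF → TF := fun t => ⟨x * t.1, hx t.1 t.2⟩
      have hf : Function.Injective f := by
        intro a b hab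
        have h1 : x * a.1 = x * b.1 := congrArg Subtype.val hab
        exact Subtype.ext (mul_left_cancel h1)
      obtain ⟨t', ht'⟩ := Finite.surjective_of_injective hf ⟨t, ht⟩
      have h2 : x * t'.1 = t := congrArg Subtype.val ht'
      have h3 : x⁻¹ * t = t'.1 := by rw [← h2, inv_mul_cancel_left]
      rw [h3]
      exact t'.2
  have hC' : ∀ g : Subgroup.closure {g : SL(2, F) |
      (g : Matrix (Fin 2) (Fin 2) F) = !![1, 0; 1, 1] ∨
      (g : Matrix (Fin 2) (Fin 2) F) = !![1, lam; 0, 1]},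
      ∃ v, v ∈ c9T_h9 ∧ g.1.1 = c9m_h9 lam v := by
    intro g
    obtain ⟨v, hv, h⟩ := hC g.1 g.2 1 ⟨c9id_h9, c9_id_mem_h9, (c9m_id_h9 lam).symm⟩
    rw [mul_one] at h
    exact ⟨v, hv, h⟩
  choose fv hfv1 hfv2 using hC'
  let f : Subgroup.closure {g : SL(2, F) |
      (g : Matrix (Fin 2) (Fin 2) F) = !![1, 0; 1, 1] ∨
      (g : Matrix (Fin 2) (Fin 2) F) = !![1, lam; 0, 1]} → c9T_h9.toFinset :=
    fun g => ⟨fv g, List.mem_toFinset.mpr (hfv1 g)⟩
  have hbij : Function.Bijective f := by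
    constructor
    · intro a b hab
      have h1 : fv a = fv b := congrArg Subtype.val hab
      have h2 : a.1.1 = b.1.1 := by rw [hfv2 a, hfv2 b, h1]
      exact Subtype.ext (Subtype.ext h2)
    · rintro ⟨v, hv⟩
      rw [List.mem_toFinset] at hv
      have hw : v ∈ c9W_h9.map c9word_h9 := by rw [c9_words_h9]; exact hv
      obtain ⟨w, -, rfl⟩ := List.mem_map.mp hw
      obtain ⟨g, hg, hg1⟩ := hR w
      refine ⟨⟨g, hg⟩, Subtype.ext ?_⟩
      show fv ⟨g, hg⟩ = c9word_h9 w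
      apply c9m_inj_h9 lam hlam
      rw [← hfv2 ⟨g, hg⟩, hg1]
  rw [Nat.card_congr (Equiv.ofBijective f hbij), Nat.card_eq_fintype_card, Fintype.card_coe,
    c9_card_h9]

end Cfsg.Agent.Helper9
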