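import Mathlib
import Cfsg.Agent.Helper9.E9b

/-!
# Dickson's generation lemma: auxiliary facts (helper9)
-/

set_option autoImplicit false
open scoped MatrixGroups

namespace Cfsg.Agent.Helper9

set_option maxRecDepth 1000000 in
set_option maxHeartbeats 4000000 in
theorem alt5_order3_conj_h9 : ∀ y : Equiv.Perm (Fin 5), Equiv.Perm.sign y = 1 → y ^ 3 = 1 →
    y ≠ 1 → ∃ g : Equiv.Perm (Fin 5), Equiv.Perm.sign g = 1 ∧
      g * (Equiv.swap 0 1 * Equiv.swap 1 2) * g⁻¹ = y := by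
  decide +kernel

theorem a5_order3_conj_h9 {H : Type*} [Group H] (e : H ≃* alternatingGroup (Fin 5)) (X Y : H)
    (hX3 : X ^ 3 = 1) (hX1 : X ≠ 1) (hY3 : Y ^ 3 = 1) (hY1 : Y ≠ 1) :
    ∃ h : H, h * X * h⁻¹ = Y := by
  have key : ∀ Z : H, Z ^ 3 = 1 → Z ≠ 1 → ∃ g : Equiv.Perm (Fin 5), Equiv.Perm.sign g = 1 ∧
      g * (Equiv.swap 0 1 * Equiv.swap 1 2) * g⁻¹ = (e Z).1 := by
    intro Z hZ3 hZ1
    apply alt5_order3_conj_h9
    · exact Equiv.Perm.mem_alternatingGroup.mp (e Z).2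
    · have h1 : (e Z) ^ 3 = 1 := by rw [← map_pow, hZ3, map_one]
      have h2 := congrArg Subtype.val h1
      rwa [Subgroup.coe_pow] at h2
    · intro h
      apply hZ1
      apply e.injective
      rw [map_one]
      exact Subtype.ext h
  obtain ⟨g₁, hs₁, hg₁⟩ := key X hX3 hX1
  obtain ⟨g₂, hs₂, hg₂⟩ := key Y hY3 hY1
  have hk : g₂ * g₁⁻¹ ∈ alternatingGroup (Fin 5) := by
    rw [Equiv.Perm.mem_alternatingGroup, map_mul, map_inv, hs₁, hs₂]
    rfl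
  refine ⟨e.symm ⟨g₂ * g₁⁻¹, hk⟩, ?_⟩
  apply e.injective
  rw [map_mul, map_mul, map_inv, MulEquiv.apply_symm_apply]
  apply Subtype.ext
  show g₂ * g₁⁻¹ * (e X).1 * (g₂ * g₁⁻¹)⁻¹ = (e Y).1
  rw [← hg₁, ← hg₂]
  group

theorem frob_fixed_of_gen_h9 {F : Type*} [Field F] (p : ℕ) [Fact p.Prime] [CharP F p] (k : ℕ)
    (lam : F) (hgen : Subfield.closure ({lam} : Set F) = ⊤) (hl : lam ^ p ^ k = lam) :
    ∀ x : F, x ^ p ^ k = x := by
  intro x
  have hle : Subfield.closure ({lam} : Set F) ≤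
      (iterateFrobenius F p k).eqLocusField (RingHom.id F) := by
    rw [Subfield.closure_le]
    intro y hy
    rw [Set.mem_singleton_iff] at hy
    rw [hy]
    exact hl
  have hx : x ∈ (iterateFrobenius F p k).eqLocusField (RingHom.id F) :=
    hle (by rw [hgen]; exact Subfield.mem_top x)
  exact hx

theorem sl2_pow_entries_h9 {F : Type*} [Field F] (g : SL(2, F)) :
    (g ^ 2).1 1 0 = (g.1 0 0 + g.1 1 1) * g.1 1 0 ∧
    (g ^ 3).1 1 0 = ((g.1 0 0 + g.1 1 1) ^ 2 - 1) * g.1 1 0 ∧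
    (g ^ 5).1 1 0 = ((g.1 0 0 + g.1 1 1) ^ 4 - 3 * (g.1 0 0 + g.1 1 1) ^ 2 + 1) * g.1 1 0 := by
  have hCH := sl2_CH_h9 g
  have step : ∀ (n : ℕ) (x y : F), g.1 ^ n = x • g.1 - y • (1 : Matrix (Fin 2) (Fin 2) F) →
      g.1 ^ (n + 1) = (x * (g.1 0 0 + g.1 1 1) - y) • g.1 -
        x • (1 : Matrix (Fin 2) (Fin 2) F) := by
    intro n x y h
    rw [pow_succ, h, sub_mul, smul_mul_assoc, hCH, smul_mul_assoc, one_mul]
    module
  have h1 : g.1 ^ 1 = (1 : F) • g.1 - (0 : F) • (1 : Matrix (Fin 2) (Fin 2) F) := by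
    rw [pow_one, one_smul, zero_smul, sub_zero]
  have h2 := step 1 _ _ h1
  have h3 := step 2 _ _ h2
  have h4 := step 3 _ _ h3
  have h5 := step 4 _ _ h4
  refine ⟨?_, ?_, ?_⟩
  · rw [Matrix.SpecialLinearGroup.coe_pow, h2, Matrix.sub_apply, Matrix.smul_apply,
      Matrix.smul_apply, Matrix.one_apply_ne (by decide), smul_eq_mul, smul_eq_mul, mul_zero,
      sub_zero]
    ring
  · rw [Matrix.SpecialLinearGroup.coe_pow, h3, Matrix.sub_apply, Matrix.smul_apply,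
      Matrix.smul_apply, Matrix.one_apply_ne (by decide), smul_eq_mul, smul_eq_mul, mul_zero,
      sub_zero]
    ring
  · rw [Matrix.SpecialLinearGroup.coe_pow, h5, Matrix.sub_apply, Matrix.smul_apply,
      Matrix.smul_apply, Matrix.one_apply_ne (by decide), smul_eq_mul, smul_eq_mul, mul_zero,
      sub_zero]
    ring

theorem psl2_pow_one_entry_h9 {F : Type*} [Field F] (g : SL(2, F)) (n : ℕ)
    (h : (QuotientGroup.mk g : Matrix.ProjectiveSpecialLinearGroup (Fin 2) F) ^ n = 1) :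
    (g ^ n).1 1 0 = 0 := by
  rw [← QuotientGroup.mk_pow] at h
  have h1 : (QuotientGroup.mk (g ^ n) : Matrix.ProjectiveSpecialLinearGroup (Fin 2) F) =
      QuotientGroup.mk (1 : SL(2, F)) := h
  rcases (psl2_mk_eq_iff_h9 _ _).mp h1 with h2 | h2
  · rw [h2]
    exact sl2_one_entries_h9.2.2.1
  · rw [h2, (sl2_neg_entries_h9 1).2.2.1, sl2_one_entries_h9.2.2.1, neg_zero]

theorem sl2L_zero_h9 {F : Type*} [Field F] : sl2L_h9 (0 : F) = 1 := by
  obtain ⟨a00, a01, a10, a11⟩ := sl2L_entries_h9 (0 : F)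
  obtain ⟨o00, o01, o10, o11⟩ := sl2_one_entries_h9 (F := F)
  apply sl2_ext_h9
  · rw [a00, o00]
  · rw [a01, o01]
  · rw [a10, o10]
  · rw [a11, o11]

theorem sl2L_mul_h9 {F : Type*} [Field F] (u v : F) :
    sl2L_h9 u * sl2L_h9 v = sl2L_h9 (u + v) := by
  obtain ⟨m00, m01, m10, m11⟩ := sl2_mul_entries_h9 (sl2L_h9 u) (sl2L_h9 v)
  obtain ⟨a00, a01, a10, a11⟩ := sl2L_entries_h9 u
  obtain ⟨b00, b01, b10, b11⟩ := sl2L_entries_h9 v
  obtain ⟨c00, c01, c10, c11⟩ := sl2L_entries_h9 (u + v)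
  apply sl2_ext_h9
  · rw [m00, a00, a01, b00, b10, c00]; ring
  · rw [m01, a00, a01, b01, b11, c01]; ring
  · rw [m10, a10, a11, b00, b10, c10]; ring
  · rw [m11, a10, a11, b01, b11, c11]; ring

theorem sl2L_inv_h9 {F : Type*} [Field F] (u : F) : (sl2L_h9 u)⁻¹ = sl2L_h9 (-u) := by
  rw [inv_eq_iff_mul_eq_one, sl2L_mul_h9, add_neg_cancel, sl2L_zero_h9]

/-- the conjugating element. -/
def dgU_h9 {F : Type*} [Field F] (lam : F) : SL(2, F) :=
  ⟨!![-lam⁻¹, 1; -1, 0], by simp [Matrix.det_fin_two]⟩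

theorem dgU_entries_h9 {F : Type*} [Field F] (lam : F) :
    (dgU_h9 lam).1 0 0 = -lam⁻¹ ∧ (dgU_h9 lam).1 0 1 = 1 ∧ (dgU_h9 lam).1 1 0 = -1 ∧
      (dgU_h9 lam).1 1 1 = 0 := by
  refine ⟨?_, ?_, ?_, ?_⟩ <;> simp [dgU_h9]

/-- the conjugate of `E(λ)`. -/
def dgG_h9 {F : Type*} [Field F] (lam : F) (hlam : lam ≠ 0) : SL(2, F) :=
  ⟨!![0, lam⁻¹; -lam, 2], by simp [Matrix.det_fin_two, hlam]⟩

theorem dgG_entries_h9 {F : Type*} [Field F] (lam : F) (hlam : lam ≠ 0) :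
    (dgG_h9 lam hlam).1 0 0 = 0 ∧ (dgG_h9 lam hlam).1 0 1 = lam⁻¹ ∧
      (dgG_h9 lam hlam).1 1 0 = -lam ∧ (dgG_h9 lam hlam).1 1 1 = 2 := by
  refine ⟨?_, ?_, ?_, ?_⟩ <;> simp [dgG_h9]

theorem dgU_conj_L_h9 {F : Type*} [Field F] (lam : F) :
    dgU_h9 lam * sl2L_h9 1 * (dgU_h9 lam)⁻¹ = sl2E_h9 (-1) := by
  rw [mul_inv_eq_iff_eq_mul]
  obtain ⟨m00, m01, m10, m11⟩ := sl2_mul_entries_h9 (dgU_h9 lam) (sl2L_h9 1)
  obtain ⟨n00, n01, n10, n11⟩ := sl2_mul_entries_h9 (sl2E_h9 (-1)) (dgU_h9 lam)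
  obtain ⟨u00, u01, u10, u11⟩ := dgU_entries_h9 lam
  obtain ⟨l00, l01, l10, l11⟩ := sl2L_entries_h9 (1 : F)
  obtain ⟨e00, e01, e10, e11⟩ := sl2E_entries_h9 (-1 : F)
  apply sl2_ext_h9
  · rw [m00, n00, u00, u01, u10, l00, l10, e00, e01]; ring
  · rw [m01, n01, u00, u01, u11, l01, l11, e00, e01]; ring
  · rw [m10, n10, u00, u10, u11, l00, l10, e10, e11]; ring
  · rw [m11, n11, u01, u10, u11, l01, l11, e10, e11]; ring

theorem dgU_conj_E_h9 {F : Type*} [Field F] (lam : F) (hlam : lam ≠ 0) :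
    dgU_h9 lam * sl2E_h9 lam * (dgU_h9 lam)⁻¹ = dgG_h9 lam hlam := by
  rw [mul_inv_eq_iff_eq_mul]
  obtain ⟨m00, m01, m10, m11⟩ := sl2_mul_entries_h9 (dgU_h9 lam) (sl2E_h9 lam)
  obtain ⟨n00, n01, n10, n11⟩ := sl2_mul_entries_h9 (dgG_h9 lam hlam) (dgU_h9 lam)
  obtain ⟨u00, u01, u10, u11⟩ := dgU_entries_h9 lam
  obtain ⟨g00, g01, g10, g11⟩ := dgG_entries_h9 lam hlam
  obtain ⟨e00, e01, e10, e11⟩ := sl2E_entries_h9 lam
  apply sl2_ext_h9
  · rw [m00, n00, u00, u01, u10, g00, g01, e00, e10]; ring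
  · rw [m01, n01, u00, u01, u11, g00, g01, e01, e11]; field_simp; ring
  · rw [m10, n10, u00, u10, u11, g10, g11, e00, e10]; field_simp; ring
  · rw [m11, n11, u01, u10, u11, g10, g11, e01, e11]; ring

/-- conjugation by `dgU` followed by the projection to `PSL(2, F)`. -/
def dgRho_h9 {F : Type*} [Field F] (lam : F) :
    SL(2, F) →* Matrix.ProjectiveSpecialLinearGroup (Fin 2) F :=
  (QuotientGroup.mk' (Subgroup.center SL(2, F))).comp (MulAut.conj (dgU_h9 lam)).toMonoidHom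

theorem dgRho_apply_h9 {F : Type*} [Field F] (lam : F) (x : SL(2, F)) :
    dgRho_h9 lam x = (QuotientGroup.mk (dgU_h9 lam * x * (dgU_h9 lam)⁻¹) :
      Matrix.ProjectiveSpecialLinearGroup (Fin 2) F) := rfl

theorem card_nine_of_gen_h9 {F : Type*} [Field F] [Fintype F] [CharP F 3] (h2 : (2 : F) ≠ 0)
    (lam : F) (hlam : lam ≠ 0) (hgen : Subfield.closure ({lam} : Set F) = ⊤)
    (hl : lam ^ 2 = -1) : Fintype.card F = 9 := by
  have hfix : ∀ x : F, x ^ 3 ^ 2 = x := frob_fixed_of_gen_h9 3 2 lam hgen (by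
    have : lam ^ 3 ^ 2 = lam * (lam ^ 2) ^ 4 := by ring
    rw [this, hl]
    ring)
  obtain ⟨n, -, hn⟩ := FiniteField.card F 3
  obtain ⟨g, hg⟩ := IsCyclic.exists_generator (α := Fˣ)
  have hord : orderOf g = Fintype.card F - 1 := by
    rw [orderOf_eq_card_of_forall_mem_zpowers hg, Nat.card_units, Nat.card_eq_fintype_card]
  have hg8 : g ^ 8 = 1 := by
    apply Units.ext
    rw [Units.val_pow_eq_pow_val, Units.val_one]
    have h9 := hfix (g : F)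
    have hg0 : (g : F) ≠ 0 := g.ne_zero
    have : (g : F) * ((g : F) ^ 8 - 1) = 0 := by linear_combination h9
    rcases mul_eq_zero.mp this with h | h
    · exact absurd h hg0
    · linear_combination h
  have hdvd : Fintype.card F - 1 ∣ 8 := by
    rw [← hord]
    exact orderOf_dvd_of_pow_eq_one hg8
  have hle : Fintype.card F ≤ 9 := by
    have := Nat.le_of_dvd (by norm_num) hdvd
    omega
  have hn' : (n : ℕ) = 1 ∨ (n : ℕ) = 2 := by
    by_contra hcon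
    have h3n : 3 ≤ (n : ℕ) := by
      have := n.pos
      omega
    have : 3 ^ 3 ≤ 3 ^ (n : ℕ) := Nat.pow_le_pow_right (by norm_num) h3n
    omega
  rcases hn' with h | h
  · exfalso
    rw [h, pow_one] at hn
    have h3 := FiniteField.pow_card lam
    rw [hn] at h3
    have h0 : lam * (-2) = 0 := by linear_combination h3 - lam * hl
    rcases mul_eq_zero.mp h0 with h' | h'
    · exact hlam h'
    · apply h2
      linear_combination -h'
  · rw [hn, h]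
    norm_num

end Cfsg.Agent.Helper9
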