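import Mathlib
import Cfsg.Agent.Helper9.E9c

/-!
# Dickson's generation lemma (helper9)
-/

set_option autoImplicit false
open scoped MatrixGroups

namespace Cfsg.Agent.Helper9

set_option maxHeartbeats 1600000 in
/-- **Dickson's lemma**: `⟨L(1), E(λ)⟩ = SL(2, F)` for `λ` generating `F`, `F` of odd
characteristic, unless `|F| = 9` and `λ² = -1`. -/
theorem dickson_gen_h9 {F : Type*} [Field F] [Fintype F] (h2 : (2 : F) ≠ 0) (lam : F)
    (hlam : lam ≠ 0) (hgen : Subfield.closure ({lam} : Set F) = ⊤)
    (hex : ¬ (Fintype.card F = 9 ∧ lam ^ 2 = -1)) :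
    Subgroup.closure {g : SL(2, F) | (g : Matrix (Fin 2) (Fin 2) F) = !![1, 0; 1, 1] ∨
      (g : Matrix (Fin 2) (Fin 2) F) = !![1, lam; 0, 1]} = ⊤ := by
  obtain ⟨p, hcp⟩ := CharP.exists F
  have hpp : p.Prime := CharP.char_is_prime F p
  have hfp : Fact p.Prime := ⟨hpp⟩
  have hp2 : p ≠ 2 := by
    rintro rfl
    apply h2
    have := CharP.cast_eq_zero F 2
    exact_mod_cast this
  obtain ⟨G₀, hG₀⟩ : ∃ G₀, G₀ = Subgroup.closure {g : SL(2, F) |
      (g : Matrix (Fin 2) (Fin 2) F) = !![1, 0; 1, 1] ∨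
      (g : Matrix (Fin 2) (Fin 2) F) = !![1, lam; 0, 1]} := ⟨_, rfl⟩
  rw [← hG₀]
  have ha : sl2L_h9 (1 : F) ∈ G₀ := by
    rw [hG₀]
    exact Subgroup.subset_closure (Or.inl rfl)
  have hb : sl2E_h9 lam ∈ G₀ := by
    rw [hG₀]
    exact Subgroup.subset_closure (Or.inr rfl)
  -- the prime field in characteristic 3
  by_cases h3 : (3 : F) = 0 ∧ (lam = 1 ∨ lam = -1)
  · obtain ⟨h3F, hl⟩ := h3
    have hp3 : p = 3 := by
      have h3' : ((3 : ℕ) : F) = 0 := by exact_mod_cast h3F
      have := (CharP.cast_eq_zero_iff F p 3).mp h3'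
      exact (Nat.prime_dvd_prime_iff_eq hpp Nat.prime_three).mp this
    subst hp3
    have hfix : ∀ x : F, x ^ 3 ^ 1 = x := frob_fixed_of_gen_h9 3 1 lam hgen (by
      rcases hl with rfl | rfl
      · simp
      · rw [pow_one]
        linear_combination (0 : F) * h3F)
    have hcases : ∀ x : F, x = 0 ∨ x = 1 ∨ x = -1 := by
      intro x
      have hx := hfix x
      rw [pow_one] at hx
      have : x * (x - 1) * (x + 1) = 0 := by linear_combination hx
      rcases mul_eq_zero.mp this with h | h
      · rcases mul_eq_zero.mp h with h | h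
        · left; exact h
        · right; left; linear_combination h
      · right; right; linear_combination h
    have hE1 : sl2E_h9 (1 : F) ∈ G₀ := by
      rcases hl with rfl | rfl
      · exact hb
      · have := G₀.inv_mem hb
        rwa [sl2E_inv_h9, neg_neg] at this
    apply sl2_gen_EL_h9
    · intro s
      rcases hcases s with rfl | rfl | rfl
      · rw [sl2E_zero_h9]
        exact G₀.one_mem
      · exact hE1
      · rw [← sl2E_inv_h9]
        exact G₀.inv_mem hE1
    · intro s
      rcases hcases s with rfl | rfl | rfl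
      · rw [sl2L_zero_h9]
        exact G₀.one_mem
      · exact ha
      · rw [← sl2L_inv_h9]
        exact G₀.inv_mem ha
  -- the general case: standard position
  obtain ⟨H, hHdef⟩ : ∃ H, H = G₀.map (dgRho_h9 lam) := ⟨_, rfl⟩
  have hE : (QuotientGroup.mk (sl2E_h9 (1 : F)) : Matrix.ProjectiveSpecialLinearGroup (Fin 2) F) ∈
      H := by
    have h1 : dgRho_h9 lam (sl2L_h9 1) ∈ H := by
      rw [hHdef]
      exact Subgroup.mem_map_of_mem _ ha
    rw [dgRho_apply_h9, dgU_conj_L_h9] at h1
    have h2' := H.inv_mem h1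
    rwa [← QuotientGroup.mk_inv, sl2E_inv_h9, neg_neg] at h2'
  have hg : (QuotientGroup.mk (dgG_h9 lam hlam) : Matrix.ProjectiveSpecialLinearGroup (Fin 2) F) ∈
      H := by
    have h1 : dgRho_h9 lam (sl2E_h9 lam) ∈ H := by
      rw [hHdef]
      exact Subgroup.mem_map_of_mem _ hb
    rwa [dgRho_apply_h9, dgU_conj_E_h9 lam hlam] at h1
  suffices hH : H = ⊤ by
    have key : ∀ z : SL(2, F), z ∈ G₀ ∨ -z ∈ G₀ := by
      intro z
      have hz : dgRho_h9 lam z ∈ H := by
        rw [hH]
        exact Subgroup.mem_top _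
      rw [hHdef] at hz
      obtain ⟨x, hx, hxz⟩ := hz
      rw [dgRho_apply_h9, dgRho_apply_h9] at hxz
      rcases (psl2_mk_eq_iff_h9 _ _).mp hxz with h | h
      · left
        have : x = z := mul_left_cancel (mul_right_cancel h)
        rw [← this]
        exact hx
      · right
        have h' : dgU_h9 lam * x * (dgU_h9 lam)⁻¹ = dgU_h9 lam * (-z) * (dgU_h9 lam)⁻¹ := by
          rw [h, mul_neg, neg_mul]
        have : x = -z := mul_left_cancel (mul_right_cancel h')
        rw [← this]
        exact hx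
    have hsq : ∀ z : SL(2, F), z * z ∈ G₀ := by
      intro z
      rcases key z with h | h
      · exact G₀.mul_mem h h
      · have := G₀.mul_mem h h
        rwa [neg_mul_neg] at this
    apply sl2_gen_EL_h9
    · intro s
      have e : sl2E_h9 s = sl2E_h9 (s / 2) * sl2E_h9 (s / 2) := by
        rw [sl2E_mul_h9]
        congr 1
        field_simp
        ring
      rw [e]
      exact hsq _
    · intro s
      have e : sl2L_h9 s = sl2L_h9 (s / 2) * sl2L_h9 (s / 2) := by
        rw [sl2L_mul_h9]
        congr 1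
        field_simp
        ring
      rw [e]
      exact hsq _
  obtain ⟨q₁, hq₁⟩ : ∃ q₁, Nat.card (psl2Tau_h9 H
      ⟨QuotientGroup.mk (sl2E_h9 (1 : F)), hE⟩) = q₁ := ⟨_, rfl⟩
  have hfact := psl2Tau_card_unip_h9 (p := p) H ⟨_, hE⟩ (npU_ne_one_h9 H 1 one_ne_zero hE)
    (npU_not_good_h9 (p := p) (1 : F))
  rw [hq₁] at hfact
  have hout := psl2_out_mk_h9 (dgG_h9 lam hlam)
  obtain ⟨g00, g01, g10, g11⟩ := dgG_entries_h9 lam hlam
  have hg00 : (Quotient.out (⟨QuotientGroup.mk (dgG_h9 lam hlam), hg⟩ : H).1 : SL(2, F)).1 0 0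
      = 0 := by
    rcases hout with h | h
    · rw [h, g00]
    · rw [h, (sl2_neg_entries_h9 _).1, g00, neg_zero]
  have hg10 : (Quotient.out (⟨QuotientGroup.mk (dgG_h9 lam hlam), hg⟩ : H).1 : SL(2, F)).1 1 0
      ≠ 0 := by
    rcases hout with h | h
    · rw [h, g10]
      exact neg_ne_zero.mpr hlam
    · rw [h, (sl2_neg_entries_h9 _).2.2.1, g10, neg_neg]
      exact hlam
  by_cases h4 : 4 ≤ q₁
  · obtain ⟨k, hcard, hk2, hkq, hS, hEL, hA, hform, -⟩ :=
      np3_struct_h9 (p := p) H hE ⟨_, hg⟩ hg00 q₁ hq₁ h4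
    have hf : sForm_h9 (npS_h9 H) (dgG_h9 lam hlam) := by
      have hf' := hform ⟨_, hg⟩
      rcases hout with h | h
      · rw [h] at hf'
        exact hf'
      · rw [h] at hf'
        have h' := sForm_neg_h9 _ _ hf'
        rwa [neg_neg] at h'
    obtain ⟨μ, hμ, hent⟩ := hf
    have h10 := hent 1 0
    have h11 := hent 1 1
    rw [g10] at h10
    rw [g11] at h11
    have h2S : (2 : F) ∈ npS_h9 H := by
      have := (npS_h9 H).add_mem (npS_h9 H).one_mem (npS_h9 H).one_mem
      rwa [one_add_one_eq_two] at this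
    have hlamS : lam ∈ npS_h9 H := by
      have e : lam = -((-lam / μ) * (2 / μ)⁻¹ * 2) := by
        field_simp
      rw [e]
      exact (npS_h9 H).neg_mem ((npS_h9 H).mul_mem
        ((npS_h9 H).mul_mem h10 ((npS_h9 H).inv_mem h11)) h2S)
    have hStop : npS_h9 H = ⊤ := by
      apply top_unique
      rw [← hgen]
      exact Subfield.closure_le.mpr (Set.singleton_subset_iff.mpr hlamS)
    have hq : q₁ = Fintype.card F := by
      rw [← hS, hStop, Nat.card_congr Subfield.topEquiv.toEquiv, Nat.card_eq_fintype_card]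
    rw [hq] at h4 hcard hkq
    by_contra hne
    exact top_case_false_h9 (p := p) h4 H hne k hcard hkq
  · -- the small case: `p = 3`
    exfalso
    have hXmem : (⟨QuotientGroup.mk (sl2E_h9 (1 : F)), hE⟩ : H) ∈
        psl2Tau_h9 H ⟨QuotientGroup.mk (sl2E_h9 (1 : F)), hE⟩ := (psl2MPart_h9 H).h_mem _
    have hX1 : (⟨QuotientGroup.mk (sl2E_h9 (1 : F)), hE⟩ : H) ≠ 1 :=
      npU_ne_one_h9 H 1 one_ne_zero hE
    have hq1 : 1 < q₁ := by
      rw [← hq₁, Subgroup.one_lt_card_iff_ne_bot]
      intro hbot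
      rw [hbot, Subgroup.mem_bot] at hXmem
      exact hX1 hXmem
    have hp3 : p = 3 := by
      have hf0 : (Nat.card H).factorization p ≠ 0 := by
        intro h0
        rw [h0, pow_zero] at hfact
        omega
      have hle : p ≤ p ^ (Nat.card H).factorization p := Nat.le_self_pow hf0 p
      have := hpp.two_le
      omega
    subst hp3
    have h3F : (3 : F) = 0 := by
      have := CharP.cast_eq_zero F 3
      exact_mod_cast this
    have hl1 : lam ≠ 1 := fun h => h3 ⟨h3F, Or.inl h⟩
    have hl2 : lam ≠ -1 := fun h => h3 ⟨h3F, Or.inr h⟩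
    have hsmall : 3 ^ (Nat.card H).factorization 3 ≤ 3 := by
      rw [← hfact]
      omega
    have hX3 : (⟨QuotientGroup.mk (sl2E_h9 (1 : F)), hE⟩ : H) ^ 3 = 1 := by
      apply Subtype.ext
      rw [Subgroup.coe_pow]
      show (QuotientGroup.mk (sl2E_h9 (1 : F)) :
        Matrix.ProjectiveSpecialLinearGroup (Fin 2) F) ^ 3 = 1
      rw [← QuotientGroup.mk_pow, sl2E_pow_h9, Nat.cast_ofNat, h3F, zero_mul, sl2E_zero_h9]
      rfl
    have hY3 : (⟨QuotientGroup.mk (dgG_h9 lam hlam), hg⟩ : H) ^ 3 = 1 := by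
      apply Subtype.ext
      rw [Subgroup.coe_pow]
      show (QuotientGroup.mk (dgG_h9 lam hlam) :
        Matrix.ProjectiveSpecialLinearGroup (Fin 2) F) ^ 3 = 1
      rw [← dgU_conj_E_h9 lam hlam, ← dgRho_apply_h9, ← map_pow, sl2E_pow_h9, Nat.cast_ofNat, h3F,
        zero_mul, sl2E_zero_h9, map_one]
    have hY1 : (⟨QuotientGroup.mk (dgG_h9 lam hlam), hg⟩ : H) ≠ 1 := by
      intro h
      have h1 : (QuotientGroup.mk (dgG_h9 lam hlam) :
          Matrix.ProjectiveSpecialLinearGroup (Fin 2) F) = QuotientGroup.mk (1 : SL(2, F)) :=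
        congrArg Subtype.val h
      rcases (psl2_mk_eq_iff_h9 _ _).mp h1 with h' | h'
      · have h'' := congrArg (fun x : SL(2, F) => x.1 1 0) h'
        simp only [g10, sl2_one_entries_h9.2.2.1] at h''
        exact hlam (neg_eq_zero.mp h'')
      · have h'' := congrArg (fun x : SL(2, F) => x.1 1 0) h'
        simp only [g10, (sl2_neg_entries_h9 _).2.2.1, sl2_one_entries_h9.2.2.1, neg_zero] at h''
        exact hlam (neg_eq_zero.mp h'')
    -- the product `Z = X * Y`
    have hZ : ∀ n : ℕ, ((⟨QuotientGroup.mk (sl2E_h9 (1 : F)), hE⟩ : H) *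
        ⟨QuotientGroup.mk (dgG_h9 lam hlam), hg⟩) ^ n = 1 →
        ((sl2E_h9 (1 : F) * dgG_h9 lam hlam) ^ n).1 1 0 = 0 := by
      intro n hn
      apply psl2_pow_one_entry_h9
      have h' := congrArg Subtype.val hn
      rw [Subgroup.coe_pow] at h'
      exact h'
    obtain ⟨z00, z01, z10, z11⟩ := sl2_mul_entries_h9 (sl2E_h9 (1 : F)) (dgG_h9 lam hlam)
    obtain ⟨e00, e01, e10, e11⟩ := sl2E_entries_h9 (1 : F)
    rw [e00, e01, g00, g10] at z00
    rw [e10, e11, g00, g10] at z10
    rw [e10, e11, g01, g11] at z11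
    obtain ⟨p2, p3, p5⟩ := sl2_pow_entries_h9 (sl2E_h9 (1 : F) * dgG_h9 lam hlam)
    rw [z00, z10, z11] at p2 p3 p5
    have hZ2 : ((⟨QuotientGroup.mk (sl2E_h9 (1 : F)), hE⟩ : H) *
        ⟨QuotientGroup.mk (dgG_h9 lam hlam), hg⟩) ^ 2 ≠ 1 := by
      intro hn
      have h0 := hZ 2 hn
      rw [p2] at h0
      have h' : (2 - lam) * lam = 0 := by linear_combination -h0
      rcases mul_eq_zero.mp h' with h | h
      · apply hl2
        linear_combination -h + h3F
      · exact hlam h
    have hZ3 : ((⟨QuotientGroup.mk (sl2E_h9 (1 : F)), hE⟩ : H) *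
        ⟨QuotientGroup.mk (dgG_h9 lam hlam), hg⟩) ^ 3 ≠ 1 := by
      intro hn
      have h0 := hZ 3 hn
      rw [p3] at h0
      have h' : (lam - 1) * (lam - 3) * lam = 0 := by linear_combination -h0
      rcases mul_eq_zero.mp h' with h | h
      · rcases mul_eq_zero.mp h with h | h
        · apply hl1
          linear_combination h
        · apply hlam
          linear_combination h + h3F
      · exact hlam h
    have hZ5 : ((⟨QuotientGroup.mk (sl2E_h9 (1 : F)), hE⟩ : H) *
        ⟨QuotientGroup.mk (dgG_h9 lam hlam), hg⟩) ^ 5 = 1 →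
        lam ^ 2 = -1 ∨ lam ^ 2 + lam - 1 = 0 := by
      intro hn
      have h0 := hZ 5 hn
      rw [p5] at h0
      have h' : (lam ^ 2 + 1) * (lam ^ 2 + lam - 1) * lam = 0 := by
        linear_combination (-1 : F) * h0 + (3 * lam ^ 3 - 7 * lam ^ 2 + 7 * lam - 2) * lam * h3F
      rcases mul_eq_zero.mp h' with h | h
      · rcases mul_eq_zero.mp h with h | h
        · left
          linear_combination h
        · right
          exact h
      · exact absurd h hlam
    have hwit := np_witness_h9 (p := 3) H hE ⟨_, hg⟩ hg10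
    rcases psl2_small3_h9 (p := 3) H hsmall ⟨_, hE⟩ ⟨_, hg⟩ hX3 hwit with ⟨⟨e⟩⟩ | ⟨⟨e⟩⟩ | ⟨⟨e⟩⟩
    · -- `A₄`
      have hs := Equiv.Perm.mem_alternatingGroup.mp (e ((⟨QuotientGroup.mk (sl2E_h9 (1 : F)), hE⟩ :
        H) * ⟨QuotientGroup.mk (dgG_h9 lam hlam), hg⟩)).2
      rcases alt4_pow_h9 _ hs with h | h
      · apply hZ2
        apply e.injective
        rw [map_pow, map_one]
        exact Subtype.ext h
      · apply hZ3
        apply e.injective
        rw [map_pow, map_one]
        exact Subtype.ext h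
    · -- `S₄`
      have hσ3 : ∀ x : H, x ^ 3 = 1 → Equiv.Perm.sign (e x) = 1 := by
        intro x hx
        have h1 : Equiv.Perm.sign (e x) ^ 3 = 1 := by
          rw [← map_pow, ← map_pow, hx, map_one, map_one]
        rcases Int.units_eq_one_or (Equiv.Perm.sign (e x)) with h | h
        · exact h
        · rw [h] at h1
          exact absurd h1 (by decide)
      have hker : H ≤ ((Equiv.Perm.sign (α := Fin 4)).comp e.toMonoidHom).ker.map H.subtype := by
        refine (le_of_eq hHdef).trans ?_
        rw [Subgroup.map_le_iff_le_comap, hG₀, Subgroup.closure_le]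
        rintro g (hgm | hgm)
        · have hgL : g = sl2L_h9 1 := Subtype.ext hgm
          rw [hgL]
          refine ⟨(⟨QuotientGroup.mk (sl2E_h9 (1 : F)), hE⟩ : H)⁻¹, ?_, ?_⟩
          · exact MonoidHom.mem_ker.mpr (hσ3 _ (by rw [inv_pow, hX3, inv_one]))
          · show (QuotientGroup.mk (sl2E_h9 (1 : F)) :
              Matrix.ProjectiveSpecialLinearGroup (Fin 2) F)⁻¹ = dgRho_h9 lam (sl2L_h9 1)
            rw [dgRho_apply_h9, dgU_conj_L_h9, ← QuotientGroup.mk_inv, sl2E_inv_h9]
        · have hgE : g = sl2E_h9 lam := Subtype.ext hgm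
          rw [hgE]
          refine ⟨⟨QuotientGroup.mk (dgG_h9 lam hlam), hg⟩,
            MonoidHom.mem_ker.mpr (hσ3 _ hY3), ?_⟩
          show (QuotientGroup.mk (dgG_h9 lam hlam) :
            Matrix.ProjectiveSpecialLinearGroup (Fin 2) F) = dgRho_h9 lam (sl2E_h9 lam)
          rw [dgRho_apply_h9, dgU_conj_E_h9 lam hlam]
      have hall : ∀ x : H, Equiv.Perm.sign (e x) = 1 := by
        intro x
        obtain ⟨y, hy, hyx⟩ := hker x.2
        have hyx' : y = x := Subtype.ext hyx
        rw [← hyx']
        exact MonoidHom.mem_ker.mp hy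
      have h' := hall (e.symm (Equiv.swap 0 1))
      rw [MulEquiv.apply_symm_apply, Equiv.Perm.sign_swap (by decide)] at h'
      exact absurd h' (by decide)
    · -- `A₅`
      have hs := Equiv.Perm.mem_alternatingGroup.mp (e ((⟨QuotientGroup.mk (sl2E_h9 (1 : F)), hE⟩ :
        H) * ⟨QuotientGroup.mk (dgG_h9 lam hlam), hg⟩)).2
      rcases alt5_pow_h9 _ hs with h | h | h
      · apply hZ2
        apply e.injective
        rw [map_pow, map_one]
        exact Subtype.ext h
      · apply hZ3
        apply e.injective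
        rw [map_pow, map_one]
        exact Subtype.ext h
      · have hZ5' : ((⟨QuotientGroup.mk (sl2E_h9 (1 : F)), hE⟩ : H) *
            ⟨QuotientGroup.mk (dgG_h9 lam hlam), hg⟩) ^ 5 = 1 := by
          apply e.injective
          rw [map_pow, map_one]
          exact Subtype.ext h
        rcases hZ5 hZ5' with hl | hl
        · exact hex ⟨card_nine_of_gen_h9 h2 lam hlam hgen hl, hl⟩
        · -- conjugacy of the elements of order 3
          have h4 : lam ^ 4 = -1 := by
            linear_combination (lam ^ 2 - lam + 2) * hl + (1 - lam) * h3F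
          have hfix : ∀ x : F, x ^ 3 ^ 2 = x := frob_fixed_of_gen_h9 3 2 lam hgen (by
            have : lam ^ 3 ^ 2 = lam * (lam ^ 4) ^ 2 := by ring
            rw [this, h4]
            ring)
          obtain ⟨c, hc⟩ := a5_order3_conj_h9 e _ _ hX3 hX1 hY3 hY1
          have hc1 : (c.1 * QuotientGroup.mk (sl2E_h9 (1 : F)) * c.1⁻¹ :
              Matrix.ProjectiveSpecialLinearGroup (Fin 2) F) =
              QuotientGroup.mk (dgG_h9 lam hlam) := congrArg Subtype.val hc
          have hc2 : (QuotientGroup.mk ((Quotient.out c.1 : SL(2, F)) * sl2E_h9 1 *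
              (Quotient.out c.1 : SL(2, F))⁻¹) : Matrix.ProjectiveSpecialLinearGroup (Fin 2) F) =
              QuotientGroup.mk (dgG_h9 lam hlam) := by
            rw [QuotientGroup.mk_mul, QuotientGroup.mk_mul, QuotientGroup.mk_inv,
              QuotientGroup.out_eq']
            exact hc1
          have c10 := sl2_conj_E_10_h9 (Quotient.out c.1 : SL(2, F)) (1 : F)
          obtain ⟨m00, m01, m10, m11⟩ := sl2_mul_entries_h9
            ((Quotient.out c.1 : SL(2, F)) * sl2E_h9 1) (Quotient.out c.1 : SL(2, F))⁻¹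
          obtain ⟨n00, n01, n10, n11⟩ := sl2_mul_entries_h9 (Quotient.out c.1 : SL(2, F))
            (sl2E_h9 1)
          obtain ⟨i00, i01, i10, i11⟩ := sl2_inv_entries_h9 (Quotient.out c.1 : SL(2, F))
          obtain ⟨-, xdet⟩ := sl2_entries_h9 (Quotient.out c.1 : SL(2, F))
          have c00 : ((Quotient.out c.1 : SL(2, F)) * sl2E_h9 1 *
              (Quotient.out c.1 : SL(2, F))⁻¹).1 0 0 =
              1 - (Quotient.out c.1 : SL(2, F)).1 0 0 * (Quotient.out c.1 : SL(2, F)).1 1 0 := by
            rw [m00, n00, n01, i00, i10, e00, e01, e10, e11]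
            linear_combination xdet
          have c11 : ((Quotient.out c.1 : SL(2, F)) * sl2E_h9 1 *
              (Quotient.out c.1 : SL(2, F))⁻¹).1 1 1 =
              1 + (Quotient.out c.1 : SL(2, F)).1 0 0 * (Quotient.out c.1 : SL(2, F)).1 1 0 := by
            rw [m11, n10, n11, i01, i11, e00, e01, e10, e11]
            linear_combination xdet
          rcases (psl2_mk_eq_iff_h9 _ _).mp hc2 with h' | h'
          · rw [h', g10] at c10
            have hγ : lam = (Quotient.out c.1 : SL(2, F)).1 1 0 ^ 2 := by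
              linear_combination -c10
            have hγ0 : (Quotient.out c.1 : SL(2, F)).1 1 0 ≠ 0 := by
              intro h0
              rw [h0] at hγ
              apply hlam
              rw [hγ]
              ring
            have h9 := hfix ((Quotient.out c.1 : SL(2, F)).1 1 0)
            have h8 : (Quotient.out c.1 : SL(2, F)).1 1 0 *
                ((Quotient.out c.1 : SL(2, F)).1 1 0 ^ 8 - 1) = 0 := by
              linear_combination h9
            rcases mul_eq_zero.mp h8 with h0 | h0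
            · exact hγ0 h0
            · have h41 : lam ^ 4 = 1 := by
                rw [hγ]
                linear_combination h0
              apply h2
              linear_combination h4 - h41
          · rw [h', (sl2_neg_entries_h9 _).1, g00] at c00
            rw [h', (sl2_neg_entries_h9 _).2.2.2, g11] at c11
            apply h2
            linear_combination (-2 : F) * c00 + (-2 : F) * c11 + (-2 : F) * h3F

end Cfsg.Agent.Helper9
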