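import Mathlib

/-!
# Additive, biadditive and quadratic maps of a finite field of characteristic two (helper9)
-/

set_option autoImplicit false

namespace Cfsg.Agent.Helper9

theorem ff_aut_li (F : Type*) [Field F] :
    LinearIndependent F (fun σ : F ≃+* F => ((σ : F →+* F) : F → F)) := by
  have h := linearIndependent_monoidHom F F
  have hinj : Function.Injective (fun σ : F ≃+* F => ((σ : F →+* F) : F →* F)) := by
    intro σ τ hστ
    ext x
    exact DFunLike.congr_fun hστ x
  exact h.comp _ hinj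

theorem ff_aut_exists (F : Type*) [Field F] [Fintype F] [CharP F 2] [Fintype (F ≃+* F)]
    (f : F →+ F) : ∃ c : (F ≃+* F) → F, ∀ x : F, f x = ∑ σ, c σ * σ x := by
  classical
  let _ : Algebra (ZMod 2) F := ZMod.algebra F 2
  let v : (F ≃+* F) → (F →ₗ[ZMod 2] F) :=
    fun σ => AddMonoidHom.toZModLinearMap 2 (σ : F →+* F).toAddMonoidHom
  have hv : LinearIndependent F v := by
    apply LinearIndependent.of_comp (LinearMap.ltoFun (ZMod 2) F F F)
    exact ff_aut_li F
  have e := (Module.finBasis (ZMod 2) F).constr F (M' := F)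
  have hfin : Module.Finite F (F →ₗ[ZMod 2] F) := Module.Finite.equiv e
  have hfr : Module.finrank F (F →ₗ[ZMod 2] F) = Module.finrank (ZMod 2) F := by
    rw [← e.finrank_eq, Module.finrank_fin_fun]
  have hcard_ge : Module.finrank (ZMod 2) F ≤ Fintype.card (F ≃+* F) := by
    have hb := FiniteField.bijective_frobeniusAlgEquivOfAlgebraic_pow (ZMod 2) F
    have hinj : Function.Injective (fun n : Fin (Module.finrank (ZMod 2) F) =>
        ((FiniteField.frobeniusAlgEquivOfAlgebraic (ZMod 2) F ^ n.1 : F ≃ₐ[ZMod 2] F) :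
          F ≃+* F)) := by
      intro a b hab
      apply hb.1
      ext x
      exact RingEquiv.congr_fun hab x
    have := Fintype.card_le_of_injective _ hinj
    simpa using this
  have hcard_le : Fintype.card (F ≃+* F) ≤ Module.finrank F (F →ₗ[ZMod 2] F) :=
    hv.fintype_card_le_finrank
  have hspan : Submodule.span F (Set.range v) = ⊤ :=
    hv.span_eq_top_of_card_eq_finrank' (by omega)
  have hmem : AddMonoidHom.toZModLinearMap 2 f ∈ Submodule.span F (Set.range v) := by
    rw [hspan]; trivial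
  obtain ⟨c, hc⟩ := (Submodule.mem_span_range_iff_exists_fun F).mp hmem
  refine ⟨c, fun x => ?_⟩
  have h1 := congrArg (fun g : F →ₗ[ZMod 2] F => g x) hc
  simp only [LinearMap.sum_apply, LinearMap.smul_apply] at h1
  rw [show f x = (AddMonoidHom.toZModLinearMap 2 f) x from rfl, ← h1]
  rfl

theorem ff_aut_unique (F : Type*) [Field F] [Fintype (F ≃+* F)] (c c' : (F ≃+* F) → F)
    (h : ∀ x : F, ∑ σ, c σ * σ x = ∑ σ, c' σ * σ x) : c = c' := by
  have hli := ff_aut_li F
  rw [Fintype.linearIndependent_iff] at hli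
  funext σ
  have h1 := hli (fun σ => c σ - c' σ) (by
    funext x
    simp only [Finset.sum_apply, Pi.smul_apply, smul_eq_mul, Pi.zero_apply]
    have h2 := h x
    simp only [sub_mul, Finset.sum_sub_distrib]
    exact sub_eq_zero.mpr h2) σ
  exact sub_eq_zero.mp h1

theorem ff_biadd (F : Type*) [Field F] [Fintype F] [CharP F 2] [Fintype (F ≃+* F)]
    (B : F →+ F →+ F) :
    ∃ d : (F ≃+* F) → (F ≃+* F) → F, ∀ x y : F, B x y = ∑ σ, ∑ τ, d σ τ * (σ x * τ y) := by
  classical
  choose c hc using fun x => ff_aut_exists F (B x)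
  have hadd : ∀ x x', c (x + x') = c x + c x' := by
    intro x x'
    apply ff_aut_unique F
    intro y
    rw [← hc (x + x') y]
    simp only [Pi.add_apply, add_mul, Finset.sum_add_distrib]
    rw [← hc x y, ← hc x' y, map_add]; rfl
  have hg : ∀ τ, ∃ d : (F ≃+* F) → F, ∀ x, c x τ = ∑ σ, d σ * σ x := by
    intro τ
    exact ff_aut_exists F (AddMonoidHom.mk' (fun x => c x τ) (fun x x' => by rw [hadd]; rfl))
  choose d hd using hg
  refine ⟨fun σ τ => d τ σ, fun x y => ?_⟩
  rw [hc x y, Finset.sum_comm]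
  apply Finset.sum_congr rfl
  intro τ _
  rw [hd τ x, Finset.sum_mul]
  apply Finset.sum_congr rfl
  intro σ _
  ring

theorem ff_biadd_unique (F : Type*) [Field F] [Fintype (F ≃+* F)]
    (d d' : (F ≃+* F) → (F ≃+* F) → F)
    (h : ∀ x y : F, ∑ σ, ∑ τ, d σ τ * (σ x * τ y) = ∑ σ, ∑ τ, d' σ τ * (σ x * τ y)) :
    d = d' := by
  have h1 : ∀ y : F, (fun σ => ∑ τ, d σ τ * τ y) = (fun σ => ∑ τ, d' σ τ * τ y) := by
    intro y
    apply ff_aut_unique F
    intro x
    have := h x y
    simp only [Finset.sum_mul]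
    convert this using 2 <;> · apply Finset.sum_congr rfl; intro τ _; ring
  funext σ
  apply ff_aut_unique F
  intro y
  exact congrFun (h1 y) σ

end Cfsg.Agent.Helper9
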