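import Cfsg.Agent.Helper9.FF1

/-!
# Quadratic maps of a finite field of characteristic two (helper9)
-/

set_option autoImplicit false

namespace Cfsg.Agent.Helper9

theorem sum_tri_h9 {ι M : Type*} [Fintype ι] [LinearOrder ι] [AddCommMonoid M] (g : ι → ι → M) :
    ∑ σ, ∑ τ, g σ τ = ∑ σ, g σ σ + ∑ σ, ∑ τ, (if σ < τ then g σ τ + g τ σ else 0) := by
  classical
  have h1 : ∀ σ τ, g σ τ = (if σ = τ then g σ τ else 0) +
      ((if σ < τ then g σ τ else 0) + (if τ < σ then g σ τ else 0)) := by
    intro σ τ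
    rcases lt_trichotomy σ τ with h | h | h
    · simp [h, h.ne, h.not_gt]
    · simp [h]
    · simp [h, h.ne', h.not_gt]
  have h2 : ∑ σ, ∑ τ, (if τ < σ then g σ τ else 0) = ∑ σ, ∑ τ, (if σ < τ then g τ σ else 0) := by
    rw [Finset.sum_comm]
  calc ∑ σ, ∑ τ, g σ τ = ∑ σ, ∑ τ, ((if σ = τ then g σ τ else 0) +
          ((if σ < τ then g σ τ else 0) + (if τ < σ then g σ τ else 0))) := by
        apply Finset.sum_congr rfl; intro σ _; apply Finset.sum_congr rfl; intro τ _; exact h1 σ τ
    _ = ∑ σ, g σ σ + (∑ σ, ∑ τ, (if σ < τ then g σ τ else 0) +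
          ∑ σ, ∑ τ, (if τ < σ then g σ τ else 0)) := by
        simp only [Finset.sum_add_distrib, Finset.sum_ite_eq, Finset.mem_univ, if_true]
    _ = _ := by
        rw [h2, ← Finset.sum_add_distrib]
        congr 1
        apply Finset.sum_congr rfl; intro σ _
        rw [← Finset.sum_add_distrib]
        apply Finset.sum_congr rfl; intro τ _
        split_ifs <;> simp

theorem ff_quadratic (F : Type*) [Field F] [Fintype F] [CharP F 2] [Fintype (F ≃+* F)]
    [LinearOrder (F ≃+* F)] (q : F → F)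
    (hq : ∀ x y z : F, q (x + y + z) + q (x + y) + q (x + z) + q (y + z) + q x + q y + q z = 0) :
    ∃ (c : (F ≃+* F) × (F ≃+* F) → F), ∀ x : F, q x = ∑ p, c p * (p.1 x * p.2 x) := by
  classical
  have h2 : (2 : F) = 0 := CharTwo.two_eq_zero
  have hadd : ∀ a : F, a + a = 0 := CharTwo.add_self_eq_zero
  have heq : ∀ a b : F, a + b = 0 → a = b := fun a b h => by
    linear_combination h - hadd b
  have hq0 : q 0 = 0 := by
    have := hq 0 0 0
    simp only [add_zero] at this
    linear_combination this - 3 * (hadd (q 0))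
  let Bf : F → F → F := fun x y => q (x + y) + q x + q y
  have hBs : ∀ x y, Bf x y = Bf y x := by
    intro x y
    simp only [Bf]
    rw [add_comm x y]; ring
  have hB1 : ∀ x x' y, Bf (x + x') y = Bf x y + Bf x' y := by
    intro x x' y
    apply heq
    have := hq x x' y
    simp only [Bf]
    linear_combination this + hadd (q y)
  have hB2 : ∀ x y y', Bf x (y + y') = Bf x y + Bf x y' := by
    intro x y y'
    rw [hBs x (y + y'), hB1, hBs y x, hBs y' x]
  let B : F →+ F →+ F := AddMonoidHom.mk'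
    (fun x => AddMonoidHom.mk' (fun y => Bf x y) (fun y y' => hB2 x y y'))
    (fun x x' => by ext y; exact hB1 x x' y)
  obtain ⟨d, hd⟩ := ff_biadd F B
  have hd' : ∀ x y, Bf x y = ∑ σ, ∑ τ, d σ τ * (σ x * τ y) := hd
  have hsym : ∀ σ τ, d σ τ = d τ σ := by
    have := ff_biadd_unique F d (fun σ τ => d τ σ) (by
      intro x y
      rw [← hd' x y, hBs x y, hd' y x]
      conv_lhs => rw [Finset.sum_comm]
      apply Finset.sum_congr rfl; intro σ _; apply Finset.sum_congr rfl; intro τ _; ring)
    intro σ τ; exact congrFun (congrFun this σ) τ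
  have hdiag : ∀ σ, d σ σ = 0 := by
    have key : ∀ y : F, ∑ σ : F ≃+* F, (fun σ => d σ σ) σ * σ y =
        ∑ σ : F ≃+* F, (fun _ => (0:F)) σ * σ y := by
      intro y
      obtain ⟨x, rfl⟩ := FiniteField.isSquare_of_char_two (ringChar.eq F 2) y
      have h0 : Bf x x = 0 := by
        simp only [Bf]; rw [hadd x, hq0]; linear_combination hadd (q x)
      rw [hd' x x, sum_tri_h9] at h0
      have h3 : ∑ σ : F ≃+* F, ∑ τ : F ≃+* F,
          (if σ < τ then d σ τ * (σ x * τ x) + d τ σ * (τ x * σ x) else 0) = 0 := by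
        apply Finset.sum_eq_zero; intro σ _; apply Finset.sum_eq_zero; intro τ _
        split_ifs
        · rw [hsym τ σ]; linear_combination (d σ τ * (σ x * τ x)) * h2
        · rfl
      rw [h3, add_zero] at h0
      simp only [map_mul, zero_mul, Finset.sum_const_zero]
      exact h0
    have := ff_aut_unique F _ _ key
    intro σ; exact congrFun this σ
  let q₀ : F → F := fun x => ∑ σ, ∑ τ, if σ < τ then d σ τ * (σ x * τ x) else 0
  have hq₀ : ∀ x y, q₀ (x + y) + q₀ x + q₀ y = Bf x y := by
    intro x y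
    rw [hd' x y, sum_tri_h9]
    simp only [q₀, hdiag, zero_mul, Finset.sum_const_zero, zero_add]
    simp only [← Finset.sum_add_distrib]
    apply Finset.sum_congr rfl; intro σ _; apply Finset.sum_congr rfl; intro τ _
    split_ifs with h
    · rw [hsym τ σ, map_add, map_add]
      linear_combination (d σ τ * (σ x * τ x + σ y * τ y)) * h2
    · simp
  have hl : ∀ x y, (q (x + y) + q₀ (x + y)) = (q x + q₀ x) + (q y + q₀ y) := by
    intro x y
    have h1 := hq₀ x y
    simp only [Bf] at h1
    linear_combination h1 + (q (x+y) - q₀ x - q₀ y) * h2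
  obtain ⟨e, he⟩ := ff_aut_exists F (AddMonoidHom.mk' (fun x => q x + q₀ x) hl)
  have he' : ∀ x, q x + q₀ x = ∑ σ, e σ * σ x := he
  let frob : F ≃+* F := frobeniusEquiv F 2
  have hfrob : ∀ x, frob x = x * x := by
    intro x
    simp only [frob, frobeniusEquiv_apply, frobenius_def]; ring
  let E : (F ≃+* F) ≃ (F ≃+* F) :=
    { toFun := fun σ => frob.trans σ
      invFun := fun ρ => frob.symm.trans ρ
      left_inv := fun σ => by ext x; simp
      right_inv := fun ρ => by ext x; simp }
  refine ⟨fun p => (if p.1 < p.2 then d p.1 p.2 else 0) +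
    (if p.1 = p.2 then e (frob.trans p.1) else 0), fun x => ?_⟩
  rw [← Finset.univ_product_univ, Finset.sum_product]
  have h5 : ∀ σ τ : F ≃+* F, ((if σ < τ then d σ τ else 0) + (if σ = τ then e (frob.trans σ) else 0))
      * (σ x * τ x) = (if σ < τ then d σ τ * (σ x * τ x) else 0) +
        (if σ = τ then e (frob.trans σ) * (σ x * τ x) else 0) := by
    intro σ τ
    split_ifs <;> ring
  simp only [h5, Finset.sum_add_distrib, Finset.sum_ite_eq, Finset.mem_univ, if_true]
  have h6 : ∑ σ : F ≃+* F, e (frob.trans σ) * (σ x * σ x) = ∑ ρ, e ρ * ρ x := by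
    rw [← Equiv.sum_comp E (fun ρ => e ρ * ρ x)]
    apply Finset.sum_congr rfl; intro σ _
    simp only [E, Equiv.coe_fn_mk, RingEquiv.trans_apply, hfrob, map_mul]
  rw [h6, ← he' x]
  have : q₀ x = ∑ σ, ∑ τ, if σ < τ then d σ τ * (σ x * τ x) else 0 := rfl
  rw [← this]
  linear_combination (-(q₀ x)) * h2

end Cfsg.Agent.Helper9
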