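import Mathlib
import Cfsg.Prelude.Def_OddOrderLocal

/-!
# Arithmetic helpers for Hall `{2,3}`-subgroups (helper9)
-/

set_option autoImplicit false

namespace Cfsg.Agent.Helper9

/-- the `{2,3}`-part of a multiple of `4`. -/
theorem part23_h9 (X : ℕ) (hX : X ≠ 0) (h4 : 4 ∣ X) :
    ∃ k c, X = 2 * k * c ∧ 1 < k ∧ ¬ 2 ∣ c ∧ ¬ 3 ∣ c ∧
      ∀ ℓ : ℕ, ℓ.Prime → ℓ ∣ 2 * k → ℓ = 2 ∨ ℓ = 3 := by
  have hi : 2 ≤ X.factorization 2 :=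
    (Nat.Prime.pow_dvd_iff_le_factorization Nat.prime_two hX).mp (by norm_num; exact h4)
  have e1 := Nat.ordProj_mul_ordCompl_eq_self X 2
  have hu2 : ¬ 2 ∣ X / 2 ^ X.factorization 2 := Nat.not_dvd_ordCompl Nat.prime_two hX
  have hu0 : X / 2 ^ X.factorization 2 ≠ 0 := by
    intro h
    rw [h, mul_zero] at e1
    exact hX e1.symm
  generalize X / 2 ^ X.factorization 2 = u at e1 hu2 hu0
  have e2 := Nat.ordProj_mul_ordCompl_eq_self u 3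
  have hc3 : ¬ 3 ∣ u / 3 ^ u.factorization 3 := Nat.not_dvd_ordCompl Nat.prime_three hu0
  generalize u / 3 ^ u.factorization 3 = c at e2 hc3
  generalize u.factorization 3 = j at e2
  have hc2 : ¬ 2 ∣ c := by
    intro h
    apply hu2
    rw [← e2]
    exact Dvd.dvd.mul_left h _
  obtain ⟨i', hi'⟩ : ∃ i', X.factorization 2 = i' + 2 := ⟨X.factorization 2 - 2, by omega⟩
  rw [hi'] at e1
  refine ⟨2 ^ (i' + 1) * 3 ^ j, c, ?_, ?_, hc2, hc3, ?_⟩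
  · rw [← e1, ← e2]
    ring
  · have h1 : 2 ≤ 2 ^ (i' + 1) := by
      calc 2 = 2 ^ 1 := by norm_num
        _ ≤ 2 ^ (i' + 1) := Nat.pow_le_pow_right (by norm_num) (by omega)
    have h2 : 1 ≤ 3 ^ j := Nat.one_le_pow _ _ (by norm_num)
    calc 1 < 2 * 1 := by norm_num
      _ ≤ 2 ^ (i' + 1) * 3 ^ j := Nat.mul_le_mul h1 h2
  · intro ℓ hℓ hd
    have e : 2 * (2 ^ (i' + 1) * 3 ^ j) = 2 ^ (i' + 2) * 3 ^ j := by
      ring
    rw [e] at hd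
    rcases (Nat.Prime.dvd_mul hℓ).mp hd with h | h
    · left
      exact (Nat.prime_dvd_prime_iff_eq hℓ Nat.prime_two).mp (hℓ.dvd_of_dvd_pow h)
    · right
      exact (Nat.prime_dvd_prime_iff_eq hℓ Nat.prime_three).mp (hℓ.dvd_of_dvd_pow h)

theorem hall23_of_h9 {G : Type*} [Group G] (H : Subgroup G)
    (h1 : ∀ ℓ : ℕ, ℓ.Prime → ℓ ∣ Nat.card H → ℓ = 2 ∨ ℓ = 3) (h2 : ¬ 2 ∣ H.index)
    (h3 : ¬ 3 ∣ H.index) : Cfsg.IsPiHall ({2, 3} : Set ℕ) H := by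
  refine ⟨fun ℓ hℓ hd => ?_, fun ℓ hℓ hmem => ?_⟩
  · rcases h1 ℓ hℓ hd with h | h
    · rw [h]; exact Set.mem_insert _ _
    · rw [h]; exact Set.mem_insert_of_mem _ rfl
  · rcases hmem with h | h
    · rw [h]; exact h2
    · rw [Set.mem_singleton_iff] at h
      rw [h]; exact h3

theorem hall23_elim_h9 {G : Type*} [Group G] (H : Subgroup G)
    (h : Cfsg.IsPiHall ({2, 3} : Set ℕ) H) :
    (∀ ℓ : ℕ, ℓ.Prime → ℓ ∣ Nat.card H → ℓ = 2 ∨ ℓ = 3) ∧ ¬ 2 ∣ H.index ∧ ¬ 3 ∣ H.index := by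
  refine ⟨fun ℓ hℓ hd => ?_, h.2 2 Nat.prime_two (Set.mem_insert _ _),
    h.2 3 Nat.prime_three (Set.mem_insert_of_mem _ rfl)⟩
  have := h.1 ℓ hℓ hd
  rcases this with h' | h'
  · left; exact h'
  · right; exact h'

/-- `2^a 3^b = 24` forces `a = 3`, `b = 1`. -/
theorem pow23_eq_24_h9 (a b : ℕ) (h : 2 ^ a * 3 ^ b = 24) : a = 3 ∧ b = 1 := by
  have ha : a < 5 := by
    by_contra hh
    rw [not_lt] at hh
    have h1 : 2 ^ 5 ≤ 2 ^ a := Nat.pow_le_pow_right (by norm_num) hh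
    have h2 : 1 ≤ 3 ^ b := Nat.one_le_pow _ _ (by norm_num)
    have : 2 ^ 5 * 1 ≤ 2 ^ a * 3 ^ b := Nat.mul_le_mul h1 h2
    omega
  have hb : b < 3 := by
    by_contra hh
    rw [not_lt] at hh
    have h1 : 3 ^ 3 ≤ 3 ^ b := Nat.pow_le_pow_right (by norm_num) hh
    have h2 : 1 ≤ 2 ^ a := Nat.one_le_pow _ _ (by norm_num)
    have : 1 * 3 ^ 3 ≤ 2 ^ a * 3 ^ b := Nat.mul_le_mul h2 h1
    omega
  interval_cases a <;> interval_cases b <;> simp_all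

/-- `2^a 3^b = 48` forces `a = 4`, `b = 1`. -/
theorem pow23_eq_48_h9 (a b : ℕ) (h : 2 ^ a * 3 ^ b = 48) : a = 4 ∧ b = 1 := by
  have ha : a < 6 := by
    by_contra hh
    rw [not_lt] at hh
    have h1 : 2 ^ 6 ≤ 2 ^ a := Nat.pow_le_pow_right (by norm_num) hh
    have h2 : 1 ≤ 3 ^ b := Nat.one_le_pow _ _ (by norm_num)
    have : 2 ^ 6 * 1 ≤ 2 ^ a * 3 ^ b := Nat.mul_le_mul h1 h2
    omega
  have hb : b < 4 := by
    by_contra hh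
    rw [not_lt] at hh
    have h1 : 3 ^ 4 ≤ 3 ^ b := Nat.pow_le_pow_right (by norm_num) hh
    have h2 : 1 ≤ 2 ^ a := Nat.one_le_pow _ _ (by norm_num)
    have : 1 * 3 ^ 4 ≤ 2 ^ a * 3 ^ b := Nat.mul_le_mul h2 h1
    omega
  interval_cases a <;> interval_cases b <;> simp_all

/-- exact valuation from divisibility. -/
theorem fac_eq_of_h9 (N ℓ e : ℕ) (hℓ : ℓ.Prime) (hN : N ≠ 0) (h1 : ℓ ^ e ∣ N)
    (h2 : ¬ ℓ ^ (e + 1) ∣ N) : N.factorization ℓ = e := by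
  have a1 := (Nat.Prime.pow_dvd_iff_le_factorization hℓ hN).mp h1
  have a2 : ¬ (e + 1 ≤ N.factorization ℓ) :=
    fun h => h2 ((Nat.Prime.pow_dvd_iff_le_factorization hℓ hN).mpr h)
  omega

theorem coprime_two_pow_h9 (e c : ℕ) (h : ¬ 2 ∣ c) : Nat.Coprime (2 ^ e) c :=
  Nat.Coprime.pow_left e ((Nat.Prime.coprime_iff_not_dvd Nat.prime_two).mpr h)

theorem coprime_three_pow_h9 (e c : ℕ) (h : ¬ 3 ∣ c) : Nat.Coprime (3 ^ e) c :=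
  Nat.Coprime.pow_left e ((Nat.Prime.coprime_iff_not_dvd Nat.prime_three).mpr h)

/-- `r (r + 2)` is divisible by 8 for even `r`. -/
theorem eight_dvd_h9 (r : ℕ) (hr : r % 2 = 0) : 8 ∣ r * (r + 2) := by
  have h0 : r % 8 ≡ r [MOD 8] := Nat.mod_modEq r 8
  have h1 := h0.mul (h0.add_right 2)
  unfold Nat.ModEq at h1
  have hlt : r % 8 < 8 := Nat.mod_lt _ (by norm_num)
  have h8 : r % 8 % 2 = r % 2 := Nat.mod_mod_of_dvd r (by norm_num)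
  rw [Nat.dvd_iff_mod_eq_zero, ← h1]
  generalize r % 8 = t at hlt h8
  interval_cases t <;> omega

theorem prime_dvd_12_h9 (ℓ : ℕ) (hℓ : ℓ.Prime) (hd : ℓ ∣ 12) : ℓ = 2 ∨ ℓ = 3 := by
  have hd' : ℓ ∣ 2 ^ 2 * 3 := by norm_num; exact hd
  rcases (Nat.Prime.dvd_mul hℓ).mp hd' with h | h
  · left; exact (Nat.prime_dvd_prime_iff_eq hℓ Nat.prime_two).mp (hℓ.dvd_of_dvd_pow h)
  · right; exact (Nat.prime_dvd_prime_iff_eq hℓ Nat.prime_three).mp h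

theorem prime_dvd_24_h9 (ℓ : ℕ) (hℓ : ℓ.Prime) (hd : ℓ ∣ 24) : ℓ = 2 ∨ ℓ = 3 := by
  have hd' : ℓ ∣ 2 ^ 3 * 3 := by norm_num; exact hd
  rcases (Nat.Prime.dvd_mul hℓ).mp hd' with h | h
  · left; exact (Nat.prime_dvd_prime_iff_eq hℓ Nat.prime_two).mp (hℓ.dvd_of_dvd_pow h)
  · right; exact (Nat.prime_dvd_prime_iff_eq hℓ Nat.prime_three).mp h

end Cfsg.Agent.Helper9
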