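import Mathlib
import Cfsg.Agent.Helper9.Pa1

/-!
# Groups with the numerical profile of `PSL(2, 11)`: subgroups isomorphic to `A₅`, part 2
(helper9)
-/

set_option autoImplicit false
open scoped Pointwise

namespace Cfsg.Agent.Helper9

section prof

variable {G : Type*} [Group G] [Finite G]

theorem zpowers_le_cent_h9 {G : Type*} [Group G] (a : G) :
    Subgroup.zpowers a ≤ Subgroup.centralizer ((Subgroup.zpowers a : Subgroup G) : Set G) := by
  intro y hy
  rw [Subgroup.mem_centralizer_iff]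
  intro x hx
  obtain ⟨k, rfl⟩ := Subgroup.mem_zpowers_iff.mp hy
  obtain ⟨l, rfl⟩ := Subgroup.mem_zpowers_iff.mp hx
  rw [← zpow_add, ← zpow_add, add_comm]

/-- the centralizer of a subgroup of order three has order 3 or 6. -/
theorem p660_cent3_h9 (hP : Prof660_h9 G) (a : G) (ha : orderOf a = 3) :
    Nat.card (Subgroup.centralizer ((Subgroup.zpowers a : Subgroup G) : Set G)) = 3 ∨
    Nat.card (Subgroup.centralizer ((Subgroup.zpowers a : Subgroup G) : Set G)) = 6 := by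
  haveI := hP.2.1
  have h0 := hP.1
  have hA : Nat.card (Subgroup.zpowers a) = 3 := by rw [Nat.card_zpowers, ha]
  have hAC := zpowers_le_cent_h9 a
  have hCN := Subgroup.centralizer_le_normalizer ((Subgroup.zpowers a : Subgroup G) : Set G)
  have hd : 3 ∣ Nat.card (Subgroup.centralizer ((Subgroup.zpowers a : Subgroup G) : Set G)) := by
    rw [← hA]; exact Subgroup.card_dvd_of_le hAC
  have ho := p660_ord_h9 hP (Subgroup.centralizer ((Subgroup.zpowers a : Subgroup G) : Set G))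
  have h660 : Nat.card (Subgroup.centralizer ((Subgroup.zpowers a : Subgroup G) : Set G))
      ≠ 660 := by
    intro h
    have ht : Subgroup.centralizer ((Subgroup.zpowers a : Subgroup G) : Set G) = ⊤ :=
      (Subgroup.card_eq_iff_eq_top _).mp (by rw [h, h0])
    have ht' : Subgroup.normalizer ((Subgroup.zpowers a : Subgroup G) : Set G) = ⊤ := by
      rw [eq_top_iff, ← ht]; exact hCN
    have hn : (Subgroup.zpowers a).Normal := Subgroup.normalizer_eq_top_iff.mp ht'
    rcases hn.eq_bot_or_eq_top with hb | ht2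
    · rw [hb, Subgroup.card_bot] at hA; omega
    · rw [ht2, Subgroup.card_top, h0] at hA; omega
  have h60 : Nat.card (Subgroup.centralizer ((Subgroup.zpowers a : Subgroup G) : Set G))
      ≠ 60 := by
    intro h
    obtain ⟨e⟩ := hP.2.2.2 _ h
    haveI : IsSimpleGroup (Subgroup.centralizer ((Subgroup.zpowers a : Subgroup G) : Set G)) :=
      e.isSimpleGroup
    have hn : ((Subgroup.zpowers a).subgroupOf
        (Subgroup.centralizer ((Subgroup.zpowers a : Subgroup G) : Set G))).Normal :=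
      (Subgroup.normal_subgroupOf_iff_le_normalizer hAC).mpr hCN
    have hc : Nat.card ((Subgroup.zpowers a).subgroupOf
        (Subgroup.centralizer ((Subgroup.zpowers a : Subgroup G) : Set G))) = 3 := by
      rw [Nat.card_congr (Subgroup.subgroupOfEquivOfLe hAC).toEquiv, hA]
    rcases hn.eq_bot_or_eq_top with hb | ht
    · rw [hb, Subgroup.card_bot] at hc; omega
    · rw [ht, Subgroup.card_top, h] at hc; omega
  have h12 : Nat.card (Subgroup.centralizer ((Subgroup.zpowers a : Subgroup G) : Set G))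
      ≠ 12 := by
    intro h
    obtain ⟨V, hV, hVC⟩ := sub_four_h9
      (Subgroup.centralizer ((Subgroup.zpowers a : Subgroup G) : Set G)) (by rw [h]; norm_num)
    have hN := p660_norm4_h9 hP V hV
    have hVB := four_le_cent_h9 V hV
    have haB : a ∈ Subgroup.centralizer (V : Set G) := by
      rw [Subgroup.mem_centralizer_iff]
      intro v hv
      have := Subgroup.mem_centralizer_iff.mp (hVC hv) a (Subgroup.mem_zpowers a)
      exact this.symm
    have hBN := Subgroup.centralizer_le_normalizer (V : Set G)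
    have hd4 : 4 ∣ Nat.card (Subgroup.centralizer (V : Set G)) := by
      rw [← hV]; exact Subgroup.card_dvd_of_le hVB
    have hd3 : 3 ∣ Nat.card (Subgroup.centralizer (V : Set G)) := by
      have := Subgroup.orderOf_dvd_natCard _ haB
      rwa [ha] at this
    have hd12 : Nat.card (Subgroup.centralizer (V : Set G)) ∣ 12 := by
      rw [← hN]; exact Subgroup.card_dvd_of_le hBN
    have hB12 : Nat.card (Subgroup.centralizer (V : Set G)) = 12 := by
      have hle := Nat.le_of_dvd (by norm_num) hd12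
      have hpos : 0 < Nat.card (Subgroup.centralizer (V : Set G)) := Nat.card_pos
      omega
    have hBeq : Subgroup.centralizer (V : Set G) = Subgroup.normalizer (V : Set G) :=
      Subgroup.eq_of_le_of_card_ge hBN (by rw [hB12, hN])
    obtain ⟨hburn, -⟩ := norm_four_burn_h9 V hV (by rw [h0]; norm_num) (by rw [h0]; norm_num)
    apply hburn
    rw [hBeq]
  omega

/-- two elements of the centralizer of `a` outside `⟨a⟩` differ by an element of `⟨a⟩`. -/
theorem p660_cent3_coset_h9 (hP : Prof660_h9 G) (a : G) (ha : orderOf a = 3) (x y : G)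
    (hx : x ∈ Subgroup.centralizer ((Subgroup.zpowers a : Subgroup G) : Set G))
    (hy : y ∈ Subgroup.centralizer ((Subgroup.zpowers a : Subgroup G) : Set G))
    (hxA : x ∉ Subgroup.zpowers a) (hyA : y ∉ Subgroup.zpowers a) :
    x⁻¹ * y ∈ Subgroup.zpowers a := by
  have hA : Nat.card (Subgroup.zpowers a) = 3 := by rw [Nat.card_zpowers, ha]
  have hAC := zpowers_le_cent_h9 a
  rcases p660_cent3_h9 hP a ha with h | h
  · exfalso
    apply hxA
    have heq : Subgroup.zpowers a =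
        Subgroup.centralizer ((Subgroup.zpowers a : Subgroup G) : Set G) :=
      Subgroup.eq_of_le_of_card_ge hAC (by rw [h, hA])
    rw [heq]; exact hx
  · have hc : Nat.card ((Subgroup.zpowers a).subgroupOf
        (Subgroup.centralizer ((Subgroup.zpowers a : Subgroup G) : Set G))) = 3 := by
      rw [Nat.card_congr (Subgroup.subgroupOfEquivOfLe hAC).toEquiv, hA]
    have hidx : ((Subgroup.zpowers a).subgroupOf
        (Subgroup.centralizer ((Subgroup.zpowers a : Subgroup G) : Set G))).index = 2 := by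
      have := Subgroup.card_mul_index ((Subgroup.zpowers a).subgroupOf
        (Subgroup.centralizer ((Subgroup.zpowers a : Subgroup G) : Set G)))
      rw [hc, h] at this
      omega
    have key := Subgroup.mul_mem_iff_of_index_two hidx
      (a := (⟨x, hx⟩ : Subgroup.centralizer ((Subgroup.zpowers a : Subgroup G) : Set G))⁻¹)
      (b := (⟨y, hy⟩ : Subgroup.centralizer ((Subgroup.zpowers a : Subgroup G) : Set G)))
    have h1 : ¬ ((⟨x, hx⟩ : Subgroup.centralizer ((Subgroup.zpowers a : Subgroup G) : Set G))⁻¹ ∈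
        (Subgroup.zpowers a).subgroupOf
          (Subgroup.centralizer ((Subgroup.zpowers a : Subgroup G) : Set G))) := by
      rw [inv_mem_iff, Subgroup.mem_subgroupOf]; exact hxA
    have h2 : ¬ ((⟨y, hy⟩ : Subgroup.centralizer ((Subgroup.zpowers a : Subgroup G) : Set G)) ∈
        (Subgroup.zpowers a).subgroupOf
          (Subgroup.centralizer ((Subgroup.zpowers a : Subgroup G) : Set G))) := by
      rw [Subgroup.mem_subgroupOf]; exact hyA
    have h3 := key.mpr ⟨fun h => absurd h h1, fun h => absurd h h2⟩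
    rw [Subgroup.mem_subgroupOf] at h3
    exact h3

/-- two `A₅`-subgroups containing the four-group `V₀`, with elements inverting `a` that differ
by a power of `a`, coincide. -/
theorem p660_pair_h9 (hP : Prof660_h9 G) (V₀ : Subgroup G) (hV₀ : Nat.card V₀ = 4) (a : G)
    (ha : orderOf a = 3) (haN : a ∈ Subgroup.normalizer (V₀ : Set G))
    (L L' : Subgroup G) (e : L ≃* alternatingGroup (Fin 5))
    (e' : L' ≃* alternatingGroup (Fin 5)) (hVL : V₀ ≤ L) (hVL' : V₀ ≤ L')
    (s s' : G) (hs : s ∈ L) (hs' : s' ∈ L')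
    (hsa' : s' * a * s'⁻¹ = a⁻¹) (hA : s⁻¹ * s' ∈ Subgroup.zpowers a) : L = L' := by
  have hTL := p660_norm4_le_h9 hP L e V₀ hV₀ hVL
  have hTL' := p660_norm4_le_h9 hP L' e' V₀ hV₀ hVL'
  have hN := p660_norm4_h9 hP V₀ hV₀
  have hL : Nat.card L = 60 := by rw [Nat.card_congr e.toEquiv, card_A5_h9]
  have hL' : Nat.card L' = 60 := by rw [Nat.card_congr e'.toEquiv, card_A5_h9]
  have hAT : Subgroup.zpowers a ≤ Subgroup.normalizer (V₀ : Set G) :=
    (Subgroup.zpowers_le).mpr haN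
  have hs'L : s' ∈ L := by
    have e1 : s' = s * (s⁻¹ * s') := by group
    rw [e1]; exact L.mul_mem hs (hTL (hAT hA))
  have hd12 : 12 ∣ Nat.card (L ⊓ L' : Subgroup G) := by
    rw [← hN]; exact Subgroup.card_dvd_of_le (le_inf hTL hTL')
  have hd60 : Nat.card (L ⊓ L' : Subgroup G) ∣ 60 := by
    rw [← hL]; exact Subgroup.card_dvd_of_le inf_le_left
  have hle := Nat.le_of_dvd (by norm_num) hd60
  have ho := p660_ord_h9 hP (L ⊓ L')
  have hcases : Nat.card (L ⊓ L' : Subgroup G) = 12 ∨ Nat.card (L ⊓ L' : Subgroup G) = 60 := by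
    omega
  rcases hcases with h | h
  · exfalso
    have heq : Subgroup.normalizer (V₀ : Set G) = L ⊓ L' :=
      Subgroup.eq_of_le_of_card_ge (le_inf hTL hTL') (by rw [h, hN])
    have hs'T : s' ∈ Subgroup.normalizer (V₀ : Set G) := by
      rw [heq]; exact ⟨hs'L, hs'⟩
    -- the quotient of the normalizer by `V₀` is abelian
    haveI hn : (V₀.subgroupOf (Subgroup.normalizer (V₀ : Set G))).Normal :=
      Subgroup.normal_in_normalizer
    have hc : Nat.card (V₀.subgroupOf (Subgroup.normalizer (V₀ : Set G))) = 4 := by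
      rw [Nat.card_congr (Subgroup.subgroupOfEquivOfLe Subgroup.le_normalizer).toEquiv, hV₀]
    have hidx : (V₀.subgroupOf (Subgroup.normalizer (V₀ : Set G))).index = 3 := by
      have := Subgroup.card_mul_index (V₀.subgroupOf (Subgroup.normalizer (V₀ : Set G)))
      rw [hc, hN] at this
      omega
    have hcm := comm_mem_of_index_three_h9 (V₀.subgroupOf (Subgroup.normalizer (V₀ : Set G)))
      hidx (⟨s', hs'T⟩ : Subgroup.normalizer (V₀ : Set G)) ⟨a, haN⟩
    rw [Subgroup.mem_subgroupOf] at hcm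
    have hcm' : s' * a * s'⁻¹ * a⁻¹ ∈ V₀ := hcm
    rw [hsa'] at hcm'
    have h3 : a ^ 3 = 1 := by rw [← ha]; exact pow_orderOf_eq_one a
    have h3' : a * a * a = 1 := by rw [← h3, pow_succ, pow_succ, pow_one]
    have haV : a ∈ V₀ := by
      have e1 : a = a⁻¹ * a⁻¹ * (a * a * a) := by group
      rw [e1, h3', mul_one]; exact hcm'
    have := Subgroup.orderOf_dvd_natCard V₀ haV
    rw [ha, hV₀] at this
    omega
  · have e1 : L ⊓ L' = L := Subgroup.eq_of_le_of_card_ge inf_le_left (by rw [h, hL])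
    have e2 : L ⊓ L' = L' := Subgroup.eq_of_le_of_card_ge inf_le_right (by rw [h, hL'])
    rw [← e1]; exact e2

/-- at most two `A₅`-subgroups contain a given four-group. -/
theorem p660_atmost_h9 (hP : Prof660_h9 G) (V₀ : Subgroup G) (hV₀ : Nat.card V₀ = 4)
    (L₁ L₂ L₃ : Subgroup G) (e₁ : L₁ ≃* alternatingGroup (Fin 5))
    (e₂ : L₂ ≃* alternatingGroup (Fin 5)) (e₃ : L₃ ≃* alternatingGroup (Fin 5))
    (h₁ : V₀ ≤ L₁) (h₂ : V₀ ≤ L₂) (h₃ : V₀ ≤ L₃) : L₁ = L₂ ∨ L₁ = L₃ ∨ L₂ = L₃ := by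
  by_contra hcon
  rw [not_or, not_or] at hcon
  obtain ⟨n12, n13, n23⟩ := hcon
  haveI : Fact (Nat.Prime 3) := ⟨by norm_num⟩
  have hN := p660_norm4_h9 hP V₀ hV₀
  obtain ⟨a, haN, ha⟩ := cauchy_sub_h9 (Subgroup.normalizer (V₀ : Set G)) 3
    (by rw [hN]; norm_num)
  have key : ∀ L : Subgroup G, (L ≃* alternatingGroup (Fin 5)) → V₀ ≤ L →
      ∃ s ∈ L, s * a * s⁻¹ = a⁻¹ := by
    intro L e hVL
    have hTL := p660_norm4_le_h9 hP L e V₀ hV₀ hVL
    have haL : a ∈ L := hTL haN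
    haveI : IsSimpleGroup L := e.isSimpleGroup
    have hL : Nat.card L = 60 := by rw [Nat.card_congr e.toEquiv, card_A5_h9]
    obtain ⟨s, hs⟩ := invert_three_h9 (⟨a, haL⟩ : L) (by rw [Subgroup.orderOf_mk, ha])
      (by rw [hL]; norm_num) (by rw [hL]; norm_num)
    exact ⟨s.1, s.2, congrArg Subtype.val hs⟩
  obtain ⟨s₁, hs₁, i₁⟩ := key L₁ e₁ h₁
  obtain ⟨s₂, hs₂, i₂⟩ := key L₂ e₂ h₂
  obtain ⟨s₃, hs₃, i₃⟩ := key L₃ e₃ h₃
  have hcen : ∀ s s' : G, s * a * s⁻¹ = a⁻¹ → s' * a * s'⁻¹ = a⁻¹ →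
      s⁻¹ * s' ∈ Subgroup.centralizer ((Subgroup.zpowers a : Subgroup G) : Set G) := by
    intro s s' h h'
    have hc : Commute (s⁻¹ * s') a := by
      show s⁻¹ * s' * a = a * (s⁻¹ * s')
      have e1 : s' * a = a⁻¹ * s' := by rw [← h']; group
      have e2 : s⁻¹ * a⁻¹ = a * s⁻¹ := by rw [← h]; group
      calc s⁻¹ * s' * a = s⁻¹ * (s' * a) := by group
        _ = s⁻¹ * a⁻¹ * s' := by rw [e1]; group
        _ = a * (s⁻¹ * s') := by rw [e2]; group
    rw [Subgroup.mem_centralizer_iff]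
    intro y hy
    obtain ⟨k, rfl⟩ := Subgroup.mem_zpowers_iff.mp hy
    exact ((hc.zpow_right k).eq).symm
  have hx := hcen s₁ s₂ i₁ i₂
  have hy := hcen s₁ s₃ i₁ i₃
  have hxA : s₁⁻¹ * s₂ ∉ Subgroup.zpowers a := fun h =>
    n12 (p660_pair_h9 hP V₀ hV₀ a ha haN L₁ L₂ e₁ e₂ h₁ h₂ s₁ s₂ hs₁ hs₂ i₂ h)
  have hyA : s₁⁻¹ * s₃ ∉ Subgroup.zpowers a := fun h =>
    n13 (p660_pair_h9 hP V₀ hV₀ a ha haN L₁ L₃ e₁ e₃ h₁ h₃ s₁ s₃ hs₁ hs₃ i₃ h)
  have hz := p660_cent3_coset_h9 hP a ha _ _ hx hy hxA hyA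
  have e : (s₁⁻¹ * s₂)⁻¹ * (s₁⁻¹ * s₃) = s₂⁻¹ * s₃ := by group
  rw [e] at hz
  exact n23 (p660_pair_h9 hP V₀ hV₀ a ha haN L₂ L₃ e₂ e₃ h₂ h₃ s₂ s₃ hs₂ hs₃ i₃ hz)

/-- two distinct `A₅`-subgroups sharing a four-group are not conjugate. -/
theorem p660_not_conj_h9 (hP : Prof660_h9 G) (V₀ : Subgroup G) (hV₀ : Nat.card V₀ = 4)
    (H₁ H₂ : Subgroup G) (e₁ : H₁ ≃* alternatingGroup (Fin 5))
    (h₁ : V₀ ≤ H₁) (h₂ : V₀ ≤ H₂) (hne : H₁ ≠ H₂) (g : G) : MulAut.conj g • H₁ ≠ H₂ := by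
  intro hg
  apply hne
  haveI : Fact (Nat.Prime 2) := ⟨by norm_num⟩
  have hL : Nat.card H₁ = 60 := by rw [Nat.card_congr e₁.toEquiv, card_A5_h9]
  have hW : MulAut.conj g⁻¹ • V₀ ≤ H₁ := by
    rw [← conj_smul_inv_h9 H₁ H₂ g hg]
    exact Subgroup.pointwise_smul_le_pointwise_smul_iff.mpr h₂
  obtain ⟨h, hh, hc⟩ := sylow_conj_sub_h9 2 2 H₁ (MulAut.conj g⁻¹ • V₀) V₀ hW h₁
    (by rw [conj_smul_card_h9, hV₀]; norm_num) (by rw [hV₀]; norm_num) (by rw [hL]; norm_num)
  rw [← conj_smul_mul_h9] at hc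
  have hk : h * g⁻¹ ∈ H₁ :=
    p660_norm4_le_h9 hP H₁ e₁ V₀ hV₀ h₁ (mem_normalizer_of_conj_smul_h9 V₀ _ hc)
  have hgH : g ∈ H₁ := by
    have e : g = (h * g⁻¹)⁻¹ * h := by group
    rw [e]; exact H₁.mul_mem (H₁.inv_mem hk) hh
  rw [← hg]
  exact (Subgroup.conj_smul_eq_self_of_mem hgH).symm

/-- **Main theorem for the profile**: exactly 22 subgroups isomorphic to `A₅`, in two
conjugacy classes. -/
theorem p660_main_h9 (hP : Prof660_h9 G) (H₁ H₂ V₀ : Subgroup G)
    (e₁ : H₁ ≃* alternatingGroup (Fin 5)) (e₂ : H₂ ≃* alternatingGroup (Fin 5))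
    (hne : H₁ ≠ H₂) (hV₀ : Nat.card V₀ = 4) (h₁ : V₀ ≤ H₁) (h₂ : V₀ ≤ H₂) :
    Nat.card {H : Subgroup G // Nonempty (H ≃* alternatingGroup (Fin 5))} = 22 ∧
    (∀ g : G, MulAut.conj g • H₁ ≠ H₂) ∧
    ∀ L : Subgroup G, Nonempty (L ≃* alternatingGroup (Fin 5)) →
      ∃ g : G, MulAut.conj g • L = H₁ ∨ MulAut.conj g • L = H₂ := by
  have hnc := p660_not_conj_h9 hP V₀ hV₀ H₁ H₂ e₁ h₁ h₂ hne
  have hall : ∀ L : Subgroup G, Nonempty (L ≃* alternatingGroup (Fin 5)) →
      ∃ g : G, MulAut.conj g • L = H₁ ∨ MulAut.conj g • L = H₂ := by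
    rintro L ⟨e⟩
    have hL : Nat.card L = 60 := by rw [Nat.card_congr e.toEquiv, card_A5_h9]
    obtain ⟨g, hg⟩ := p660_conj_to_h9 hP V₀ hV₀ L hL
    refine ⟨g, ?_⟩
    have e' : (MulAut.conj g • L : Subgroup G) ≃* alternatingGroup (Fin 5) :=
      (Subgroup.equivSMul (MulAut.conj g) L).symm.trans e
    rcases p660_atmost_h9 hP V₀ hV₀ H₁ H₂ (MulAut.conj g • L) e₁ e₂ e' h₁ h₂ hg with h | h | h
    · exact absurd h hne
    · left; exact h.symm
    · right; exact h.symm
  refine ⟨?_, hnc, hall⟩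
  have hH₁ : Nat.card H₁ = 60 := by rw [Nat.card_congr e₁.toEquiv, card_A5_h9]
  have hH₂ : Nat.card H₂ = 60 := by rw [Nat.card_congr e₂.toEquiv, card_A5_h9]
  have hset : {H : Subgroup G | Nonempty (H ≃* alternatingGroup (Fin 5))} =
      Set.range (fun g : G => MulAut.conj g • H₁) ∪
        Set.range (fun g : G => MulAut.conj g • H₂) := by
    ext L
    simp only [Set.mem_setOf_eq, Set.mem_union, Set.mem_range]
    constructor
    · intro hL
      obtain ⟨g, hg | hg⟩ := hall L hL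
      · left; exact ⟨g⁻¹, conj_smul_inv_h9 L H₁ g hg⟩
      · right; exact ⟨g⁻¹, conj_smul_inv_h9 L H₂ g hg⟩
    · rintro (⟨g, rfl⟩ | ⟨g, rfl⟩)
      · exact ⟨(Subgroup.equivSMul (MulAut.conj g) H₁).symm.trans e₁⟩
      · exact ⟨(Subgroup.equivSMul (MulAut.conj g) H₂).symm.trans e₂⟩
  have hdisj : Disjoint (Set.range (fun g : G => MulAut.conj g • H₁))
      (Set.range (fun g : G => MulAut.conj g • H₂)) := by
    rw [Set.disjoint_left]
    rintro K ⟨g, rfl⟩ ⟨g', hg'⟩
    apply hnc (g'⁻¹ * g)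
    have hg'' : MulAut.conj g' • H₂ = MulAut.conj g • H₁ := hg'
    rw [conj_smul_mul_h9, ← hg'', ← conj_smul_mul_h9, inv_mul_cancel, map_one, one_smul]
  have hcount : Nat.card {H : Subgroup G // Nonempty (H ≃* alternatingGroup (Fin 5))} =
      Set.ncard {H : Subgroup G | Nonempty (H ≃* alternatingGroup (Fin 5))} :=
    Nat.card_coe_set_eq _
  rw [hcount, hset, Set.ncard_union_eq hdisj (Set.toFinite _) (Set.toFinite _),
    p660_orbit_h9 hP H₁ hH₁, p660_orbit_h9 hP H₂ hH₂]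

end prof

end Cfsg.Agent.Helper9
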