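import Mathlib
import Cfsg.Agent.Helper9.Pa1
import Cfsg.Agent.Helper9.Dk24
import Cfsg.Agent.Helper9.Prime3
import Cfsg.Agent.Helper9.Ico8

/-!
# `PSL(2, 11)` has the numerical profile (helper9)
-/

set_option autoImplicit false
open scoped MatrixGroups

namespace Cfsg.Agent.Helper9

theorem dvd6_pa_h9 (d : ℕ) (h : d ∣ 6) : d = 1 ∨ d = 2 ∨ d = 3 ∨ d = 6 := by
  have hle := Nat.le_of_dvd (by norm_num) h
  obtain ⟨k, hk⟩ := h
  interval_cases d <;> omega

theorem dvd5_pa_h9 (d : ℕ) (h : d ∣ 5) : d = 1 ∨ d = 5 := by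
  have hle := Nat.le_of_dvd (by norm_num) h
  obtain ⟨k, hk⟩ := h
  interval_cases d <;> omega

theorem dvd55_pa_h9 (d : ℕ) (h : d ∣ 55) : d = 1 ∨ d = 5 ∨ d = 11 ∨ d = 55 := by
  have hle := Nat.le_of_dvd (by norm_num) h
  obtain ⟨k, hk⟩ := h
  interval_cases d <;> omega

theorem dvd60_pa_h9 (n : ℕ) (h : n ∣ 60) (hm : n % 11 = 1) : n = 1 ∨ n = 12 := by
  have hle := Nat.le_of_dvd (by norm_num) h
  obtain ⟨k, hk⟩ := h
  interval_cases n <;> omega

/-- the normalizer of a Sylow `11`-subgroup of a simple group of order 660 has order 55. -/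
theorem sylow11_norm_h9 {G : Type*} [Group G] [Finite G] [IsSimpleGroup G]
    (hcard : Nat.card G = 660) (P : Sylow 11 G) [Fact (Nat.Prime 11)] :
    Nat.card (Subgroup.normalizer ((P : Subgroup G) : Set G)) = 55 := by
  obtain ⟨k, hk⟩ := P.2.exists_card_eq
  have hidx := Subgroup.card_mul_index (P : Subgroup G)
  rw [hcard] at hidx
  have hnd : ¬ 11 ∣ (P : Subgroup G).index := P.not_dvd_index
  have hP11 : Nat.card (P : Subgroup G) = 11 := by
    have hk1 : k = 1 := by
      rcases Nat.lt_or_ge k 1 with h | h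
      · have hk0 : k = 0 := by omega
        rw [hk0, pow_zero] at hk
        rw [hk] at hidx
        omega
      · rcases Nat.lt_or_ge k 2 with h' | h'
        · omega
        · exfalso
          have h121 : 11 ^ 2 ∣ 11 ^ k := pow_dvd_pow 11 h'
          rw [← hk] at h121
          have : 11 ^ 2 ∣ 660 := by
            rw [← hidx]; exact Dvd.dvd.mul_right h121 _
          omega
    rw [hk, hk1, pow_one]
  rw [hP11] at hidx
  have hn1 := card_sylow_modEq_one 11 G
  have hn2 : Nat.card (Sylow 11 G) =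
      (Subgroup.normalizer ((P : Subgroup G) : Set G)).index :=
    Sylow.card_eq_index_normalizer P
  have hn3 := Sylow.card_dvd_index P
  have hi60 : (P : Subgroup G).index = 60 := by omega
  rw [hi60] at hn3
  have hmod : Nat.card (Sylow 11 G) % 11 = 1 := hn1
  have hNidx := Subgroup.card_mul_index (Subgroup.normalizer ((P : Subgroup G) : Set G))
  rw [← hn2, hcard] at hNidx
  rcases dvd60_pa_h9 _ hn3 hmod with h1 | h12
  · exfalso
    rw [h1, mul_one] at hNidx
    have htop : Subgroup.normalizer ((P : Subgroup G) : Set G) = ⊤ :=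
      (Subgroup.card_eq_iff_eq_top _).mp (by rw [hNidx, hcard])
    have hn : (P : Subgroup G).Normal := Subgroup.normalizer_eq_top_iff.mp htop
    rcases hn.eq_bot_or_eq_top with hb | ht
    · rw [hb, Subgroup.card_bot] at hP11; omega
    · rw [ht, Subgroup.card_top, hcard] at hP11; omega
  · rw [h12] at hNidx; omega

theorem psl2_11_prof_h9 {F : Type*} [Field F] [Fintype F] (hF : Fintype.card F = 11) :
    Prof660_h9 (Matrix.ProjectiveSpecialLinearGroup (Fin 2) F) := by
  haveI : Fact (Nat.Prime 11) := ⟨by norm_num⟩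
  have h11 : ((11 : ℕ) : F) = 0 := by
    have := Nat.cast_card_eq_zero F
    rw [hF] at this
    exact this
  haveI : CharP F 11 := (CharP.charP_iff_prime_eq_zero (by norm_num)).mpr h11
  have hcard : Nat.card (Matrix.ProjectiveSpecialLinearGroup (Fin 2) F) = 660 := by
    obtain ⟨r, hr, h⟩ := psl2_card_odd_h9 (F := F) (by rw [hF])
    rw [hF] at hr
    have hr10 : r = 10 := by omega
    subst hr10
    omega
  haveI : Finite (Matrix.ProjectiveSpecialLinearGroup (Fin 2) F) :=
    Nat.finite_of_card_ne_zero (by rw [hcard]; norm_num)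
  have hsimple : IsSimpleGroup (Matrix.ProjectiveSpecialLinearGroup (Fin 2) F) :=
    Matrix.ProjectiveSpecialLinearGroup.rank_two_simple
      (by rw [Nat.card_eq_fintype_card, hF]; norm_num)
  have hg : Nat.gcd 2 (11 - 1) = 2 := by norm_num
  have key : ∀ H : Subgroup (Matrix.ProjectiveSpecialLinearGroup (Fin 2) F),
      Nat.card H ∈ ({1, 2, 3, 4, 5, 6, 10, 11, 12, 55, 60, 660} : Finset ℕ) ∧
      (Nat.card H = 60 → Nonempty (H ≃* alternatingGroup (Fin 5))) := by
    intro H
    simp only [Finset.mem_insert, Finset.mem_singleton]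
    have hdvd : Nat.card H ∣ 660 := by rw [← hcard]; exact Subgroup.card_subgroup_dvd_card H
    rcases dickson_list_h9 (p := 11) (F := F) H with
      ⟨k, hk, hH⟩ | ⟨P, K, hK, ⟨e⟩⟩ | ⟨⟨e⟩⟩ | ⟨⟨e⟩⟩ | ⟨⟨e⟩⟩ | ⟨K, iK, iK2, m, hm, hiso⟩
    · rw [hF, hg] at hk
      have hk' : k = 1 ∨ k = 2 ∨ k = 3 ∨ k = 6 ∨ k = 5 := by
        rcases hk with h | h
        · have := dvd6_pa_h9 k (by simpa using h); omega
        · have := dvd5_pa_h9 k (by simpa using h); omega
      rcases hH with ⟨-, hc⟩ | ⟨⟨e⟩⟩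
      · rw [hc]
        exact ⟨by omega, fun h => by exfalso; omega⟩
      · rw [Nat.card_congr e.toEquiv, DihedralGroup.nat_card]
        exact ⟨by omega, fun h => by exfalso; omega⟩
    · have hKd := Subgroup.card_dvd_of_le hK
      rw [sylow11_norm_h9 hcard P] at hKd
      rw [Nat.card_congr e.toEquiv]
      have := dvd55_pa_h9 _ hKd
      exact ⟨by omega, fun h => by exfalso; omega⟩
    · rw [Nat.card_congr e.toEquiv, card_alt4_h9]
      exact ⟨by omega, fun h => by exfalso; omega⟩
    · exfalso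
      rw [Nat.card_congr e.toEquiv, card_perm4_h9] at hdvd; omega
    · rw [Nat.card_congr e.toEquiv, card_A5_h9]
      exact ⟨by omega, fun _ => ⟨e⟩⟩
    · letI : Field K := iK
      letI : Fintype K := iK2
      rw [hF] at hm
      have hK11 : Fintype.card K = 11 ∧ m = 1 := (Nat.Prime.pow_eq_iff (by norm_num)).mp hm
      rcases hiso with ⟨⟨e⟩⟩ | ⟨⟨e⟩⟩
      · obtain ⟨r, hr, h⟩ := psl2_card_odd_h9 (F := K) (by rw [hK11.1])
        rw [hK11.1] at hr
        have hr10 : r = 10 := by omega
        subst hr10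
        rw [Nat.card_congr e.toEquiv]
        exact ⟨by omega, fun h => by exfalso; omega⟩
      · exfalso
        have hc := pgl2_card_h9 (K := K) 10 (by rw [hK11.1])
        have hle := Nat.le_of_dvd (by norm_num) hdvd
        rw [Nat.card_congr e.toEquiv, hc] at hle
        omega
  exact ⟨hcard, hsimple, fun H => (key H).1, fun H => (key H).2⟩

end Cfsg.Agent.Helper9
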