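import Mathlib
import Cfsg.Agent.Helper9.Ico6
import Cfsg.Agent.Helper9.Dk8

/-!
# Two non-conjugate `A₅`-subgroups of `PSL(2, 11)` sharing a four-group (helper9)
-/

set_option autoImplicit false
open scoped MatrixGroups

namespace Cfsg.Agent.Helper9

/-- `psl2_A5_of_tau_h9` with the generators recorded. -/
theorem psl2_A5_of_tau_mem_h9 {F : Type*} [Field F] [Fintype F] (hF : Fintype.card F % 2 = 1)
    {α β τ : F} (hc : α ^ 2 - τ * α + β ^ 2 + β + 1 = 0) (hτ : τ ^ 2 + τ - 1 = 0) :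
    ∃ H : Subgroup (Matrix.ProjectiveSpecialLinearGroup (Fin 2) F),
      Nonempty (H ≃* alternatingGroup (Fin 5)) ∧
      (QuotientGroup.mk (icoX_h9 hc) : Matrix.ProjectiveSpecialLinearGroup (Fin 2) F) ∈ H ∧
      (QuotientGroup.mk (sl2J_h9 F) : Matrix.ProjectiveSpecialLinearGroup (Fin 2) F) ∈ H ∧
      (QuotientGroup.mk (icoY_h9 hc hτ) : Matrix.ProjectiveSpecialLinearGroup (Fin 2) F) ∈ H := by
  classical
  have h2 := two_ne_zero_of_odd_card_h9 hF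
  have hy : icoY_h9 hc hτ ∈ sl2T_h9 F := icoY_mem_T_h9 hc hτ
  obtain ⟨V, hV, hJV, hyV, hC, helems⟩ := psl2_klein_of_T_h9 h2 _ hy
  haveI := hV
  haveI : Finite V := Nat.finite_of_card_ne_zero (by rw [hV.card_four]; norm_num)
  obtain ⟨ho1, hne1, hcomm1⟩ := psl2_T_invol_h9 h2 _ hy
  -- notation
  obtain ⟨xb, hxb⟩ : ∃ xb : Matrix.ProjectiveSpecialLinearGroup (Fin 2) F,
      xb = QuotientGroup.mk (icoX_h9 hc) := ⟨_, rfl⟩
  obtain ⟨wb, hwb⟩ : ∃ wb : Matrix.ProjectiveSpecialLinearGroup (Fin 2) F,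
      wb = QuotientGroup.mk (sl2J_h9 F) := ⟨_, rfl⟩
  obtain ⟨yb, hyb⟩ : ∃ yb : Matrix.ProjectiveSpecialLinearGroup (Fin 2) F,
      yb = QuotientGroup.mk (icoY_h9 hc hτ) := ⟨_, rfl⟩
  obtain ⟨cb, hcb⟩ : ∃ cb : Matrix.ProjectiveSpecialLinearGroup (Fin 2) F,
      cb = QuotientGroup.mk (icoC_h9 hc hτ) := ⟨_, rfl⟩
  rw [← hwb, ← hyb] at helems hne1
  rw [← hwb] at hJV
  rw [← hyb] at hyV
  have hcJ : cb * wb * cb⁻¹ = yb := by
    rw [mul_inv_eq_iff_eq_mul, hcb, hwb, hyb, ← QuotientGroup.mk_mul, ← QuotientGroup.mk_mul,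
      icoC_J_h9]
  have hcy : cb * yb * cb⁻¹ = wb * yb := by
    rw [mul_inv_eq_iff_eq_mul, hcb, hwb, hyb, ← QuotientGroup.mk_mul, ← QuotientGroup.mk_mul,
      ← QuotientGroup.mk_mul, icoC_Y_h9]
  have hcN : cb ∈ Subgroup.normalizer
      (V : Set (Matrix.ProjectiveSpecialLinearGroup (Fin 2) F)) := by
    apply mem_normalizer_of_conj_mem_h9
    intro x hx
    rcases helems x hx with h | h | h | h
    · rw [h]; simp
    · rw [h, hcJ]; exact hyV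
    · rw [h, hcy]; exact V.mul_mem hJV hyV
    · rw [h]
      have : cb * (wb * yb) * cb⁻¹ = (cb * wb * cb⁻¹) * (cb * yb * cb⁻¹) := by group
      rw [this, hcJ, hcy]; exact V.mul_mem hyV (V.mul_mem hJV hyV)
  have hc3 : cb ^ 3 = 1 := by
    rw [hcb, ← QuotientGroup.mk_pow, icoC_pow3_h9]; rfl
  have hc1 : cb ≠ 1 := by
    intro h
    rw [h] at hcJ
    apply hne1
    rw [← hcJ]; simp
  have hcord : orderOf cb = 3 := orderOf_eq_prime hc3 hc1
  have hx5 : xb ^ 5 = 1 := by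
    rw [hxb, ← QuotientGroup.mk_pow, icoX_pow5_h9 hc hτ]; rfl
  have hx1 : xb ≠ 1 := by
    intro h
    rw [hxb, show (1 : Matrix.ProjectiveSpecialLinearGroup (Fin 2) F)
      = QuotientGroup.mk (1 : SL(2, F)) from rfl, psl2_mk_eq_iff_h9] at h
    rcases h with h | h
    · exact (icoX_ne_h9 hc).1 h
    · exact (icoX_ne_h9 hc).2 h
  haveI : Fact (Nat.Prime 5) := ⟨by norm_num⟩
  have hxord : orderOf xb = 5 := orderOf_eq_prime hx5 hx1
  -- the subgroup `T`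
  obtain ⟨T, hTdef⟩ : ∃ T : Subgroup (Matrix.ProjectiveSpecialLinearGroup (Fin 2) F),
      T = Subgroup.closure {wb, cb} := ⟨_, rfl⟩
  have hJT : wb ∈ T := by rw [hTdef]; exact Subgroup.subset_closure (by simp)
  have hcT : cb ∈ T := by rw [hTdef]; exact Subgroup.subset_closure (by simp)
  have hyT : yb ∈ T := by
    rw [← hcJ]; exact T.mul_mem (T.mul_mem hcT hJT) (T.inv_mem hcT)
  have hVT : V ≤ T := by
    intro v hv
    rcases helems v hv with h | h | h | h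
    · rw [h]; exact T.one_mem
    · rw [h]; exact hJT
    · rw [h]; exact hyT
    · rw [h]; exact T.mul_mem hJT hyT
  have hTN : T ≤ Subgroup.normalizer
      (V : Set (Matrix.ProjectiveSpecialLinearGroup (Fin 2) F)) := by
    rw [hTdef, Subgroup.closure_le]
    rintro g (rfl | rfl)
    · exact Subgroup.le_normalizer hJV
    · exact hcN
  have hT12 : Nat.card T = 12 := by
    have hle : T ≤ V ⊔ Subgroup.zpowers cb := by
      rw [hTdef, Subgroup.closure_le]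
      rintro g (rfl | rfl)
      · exact Subgroup.mem_sup_left hJV
      · exact Subgroup.mem_sup_right (Subgroup.mem_zpowers _)
    have h1 := card_sup_zpowers_le_h9 V cb 3 (by norm_num) hc3 (by
      intro v hv k
      refine ⟨cb ^ k * v * (cb ^ k)⁻¹, ?_, k, by group⟩
      have hk := Subgroup.pow_mem _ hcN k
      exact (Subgroup.mem_normalizer_iff.mp hk v).mp hv)
    rw [hV.card_four] at h1
    have h2' := Subgroup.card_le_of_le hle
    have h4 : 4 ∣ Nat.card T := by rw [← hV.card_four]; exact Subgroup.card_dvd_of_le hVT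
    have h3 : 3 ∣ Nat.card T := by
      have := orderOf_dvd_natCard (⟨cb, hcT⟩ : T)
      rwa [Subgroup.orderOf_mk, hcord] at this
    have h12 : 4 * 3 ∣ Nat.card T :=
      Nat.Coprime.mul_dvd_of_dvd_of_dvd (by norm_num : Nat.Coprime 4 3) h4 h3
    have hpos : 0 < Nat.card T := Nat.card_pos
    obtain ⟨m, hm⟩ := h12
    omega
  -- the permuting property
  have hperm : ∀ t ∈ T, ∀ k : ℕ, ∃ t' ∈ T, ∃ l : ℕ, xb ^ k * t = t' * xb ^ l := by
    apply permute_closure_h9 T xb {wb, cb} hTdef.symm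
    intro g hg k
    have hk : xb ^ k = xb ^ (k % 5) := by
      conv_lhs => rw [← Nat.div_add_mod k 5, pow_add, pow_mul, hx5, one_pow, one_mul]
    rw [hk]
    have hlt : k % 5 < 5 := Nat.mod_lt _ (by norm_num)
    generalize k % 5 = r at hlt
    rcases hg with rfl | rfl
    · interval_cases r
      · exact ⟨g, hJT, 0, by simp⟩
      · refine ⟨cb ^ 2, T.pow_mem hcT 2, 2, ?_⟩
        rw [pow_one, hxb, hwb, hcb]
        exact (psl2_mk_eq_iff_h9 (icoX_h9 hc * sl2J_h9 F)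
          (icoC_h9 hc hτ ^ 2 * icoX_h9 hc ^ 2)).mpr (Or.inr (icoD_W1_h9 hc hτ))
      · refine ⟨cb, hcT, 1, ?_⟩
        rw [pow_one, hxb, hwb, hcb]
        exact (psl2_mk_eq_iff_h9 (icoX_h9 hc ^ 2 * sl2J_h9 F)
          (icoC_h9 hc hτ * icoX_h9 hc)).mpr (Or.inl (icoD_W2_h9 hc hτ))
      · refine ⟨yb * cb, T.mul_mem hyT hcT, 4, ?_⟩
        rw [hxb, hwb, hcb, hyb]
        exact (psl2_mk_eq_iff_h9 (icoX_h9 hc ^ 3 * sl2J_h9 F)
          (icoY_h9 hc hτ * icoC_h9 hc hτ * icoX_h9 hc ^ 4)).mpr (Or.inl (icoD_W3_h9 hc hτ))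
      · refine ⟨g * cb ^ 2, T.mul_mem hJT (T.pow_mem hcT 2), 3, ?_⟩
        rw [hxb, hwb, hcb]
        exact (psl2_mk_eq_iff_h9 (icoX_h9 hc ^ 4 * sl2J_h9 F)
          (sl2J_h9 F * icoC_h9 hc hτ ^ 2 * icoX_h9 hc ^ 3)).mpr (Or.inl (icoD_W4_h9 hc hτ))
    · interval_cases r
      · exact ⟨g, hcT, 0, by simp⟩
      · refine ⟨yb * g, T.mul_mem hyT hcT, 3, ?_⟩
        rw [pow_one, hxb, hcb, hyb]
        exact (psl2_mk_eq_iff_h9 (icoX_h9 hc * icoC_h9 hc hτ)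
          (icoY_h9 hc hτ * icoC_h9 hc hτ * icoX_h9 hc ^ 3)).mpr (Or.inl (icoD_C1_h9 hc hτ))
      · refine ⟨wb * g ^ 2, T.mul_mem hJT (T.pow_mem hcT 2), 2, ?_⟩
        rw [hxb, hcb, hwb]
        exact (psl2_mk_eq_iff_h9 (icoX_h9 hc ^ 2 * icoC_h9 hc hτ)
          (sl2J_h9 F * icoC_h9 hc hτ ^ 2 * icoX_h9 hc ^ 2)).mpr (Or.inl (icoD_C2_h9 hc hτ))
      · refine ⟨wb, hJT, 4, ?_⟩
        rw [hxb, hcb, hwb]
        exact (psl2_mk_eq_iff_h9 (icoX_h9 hc ^ 3 * icoC_h9 hc hτ)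
          (sl2J_h9 F * icoX_h9 hc ^ 4)).mpr (Or.inl (icoD_C3_h9 hc hτ))
      · refine ⟨g ^ 2, T.pow_mem hcT 2, 1, ?_⟩
        rw [pow_one, hxb, hcb]
        exact (psl2_mk_eq_iff_h9 (icoX_h9 hc ^ 4 * icoC_h9 hc hτ)
          (icoC_h9 hc hτ ^ 2 * icoX_h9 hc)).mpr (Or.inr (icoD_C4_h9 hc hτ))
  -- the subgroup `H`
  have hH60 : Nat.card (T ⊔ Subgroup.zpowers xb : Subgroup _) = 60 := by
    have h1 := card_sup_zpowers_le_h9 T xb 5 (by norm_num) hx5 hperm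
    rw [hT12] at h1
    have h12 : 12 ∣ Nat.card (T ⊔ Subgroup.zpowers xb : Subgroup _) := by
      rw [← hT12]; exact Subgroup.card_dvd_of_le le_sup_left
    have h5 : 5 ∣ Nat.card (T ⊔ Subgroup.zpowers xb : Subgroup _) := by
      have := orderOf_dvd_natCard (⟨xb, Subgroup.mem_sup_right (Subgroup.mem_zpowers _)⟩ :
        (T ⊔ Subgroup.zpowers xb : Subgroup _))
      rwa [Subgroup.orderOf_mk, hxord] at this
    have h60 : 12 * 5 ∣ Nat.card (T ⊔ Subgroup.zpowers xb : Subgroup _) :=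
      Nat.Coprime.mul_dvd_of_dvd_of_dvd (by norm_num : Nat.Coprime 12 5) h12 h5
    have hpos : 0 < Nat.card (T ⊔ Subgroup.zpowers xb : Subgroup _) := Nat.card_pos
    obtain ⟨m, hm⟩ := h60
    omega
  refine ⟨T ⊔ Subgroup.zpowers xb, a5_recog_h9 _ T V hVT le_sup_left hT12 hH60 hC hTN, ?_, ?_, ?_⟩
  · rw [← hxb]; exact Subgroup.mem_sup_right (Subgroup.mem_zpowers _)
  · rw [← hwb]; exact Subgroup.mem_sup_left hJT
  · rw [← hyb]; exact Subgroup.mem_sup_left hyT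

instance fact_prime_eleven_h9 : Fact (Nat.Prime 11) := ⟨by norm_num⟩

theorem ico11_c1_h9 : (9 : ZMod 11) ^ 2 - 3 * 9 + 0 ^ 2 + 0 + 1 = 0 := by decide
theorem ico11_c2_h9 : (1 : ZMod 11) ^ 2 - 3 * 1 + 7 ^ 2 + 7 + 1 = 0 := by decide
theorem ico11_t_h9 : (3 : ZMod 11) ^ 2 + 3 - 1 = 0 := by decide

theorem ico11_YY_h9 : icoY_h9 ico11_c2_h9 ico11_t_h9 =
    sl2J_h9 (ZMod 11) * icoY_h9 ico11_c1_h9 ico11_t_h9 := by
  apply Subtype.ext
  decide +kernel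

theorem ico11_pow_h9 :
    (icoX_h9 ico11_c2_h9 * icoX_h9 ico11_c1_h9 * icoX_h9 ico11_c2_h9) ^ 11 = -1 := by
  apply Subtype.ext
  decide +kernel

theorem ico11_ne_h9 : icoX_h9 ico11_c2_h9 * icoX_h9 ico11_c1_h9 * icoX_h9 ico11_c2_h9 ≠ 1 ∧
    icoX_h9 ico11_c2_h9 * icoX_h9 ico11_c1_h9 * icoX_h9 ico11_c2_h9 ≠ -1 := by
  constructor
  · intro h
    have := congrArg (fun x : SL(2, ZMod 11) => x.1 0 1) h
    revert this
    decide +kernel
  · intro h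
    have := congrArg (fun x : SL(2, ZMod 11) => x.1 0 1) h
    revert this
    decide +kernel

/-- two distinct `A₅`-subgroups of `PSL(2, ZMod 11)` sharing a four-group. -/
theorem psl2_11_pair_zmod_h9 :
    ∃ H₁ H₂ V₀ : Subgroup (Matrix.ProjectiveSpecialLinearGroup (Fin 2) (ZMod 11)),
      Nonempty (H₁ ≃* alternatingGroup (Fin 5)) ∧ Nonempty (H₂ ≃* alternatingGroup (Fin 5)) ∧
      H₁ ≠ H₂ ∧ Nat.card V₀ = 4 ∧ V₀ ≤ H₁ ∧ V₀ ≤ H₂ := by
  have hodd : Fintype.card (ZMod 11) % 2 = 1 := by rw [ZMod.card]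
  have h2 := two_ne_zero_of_odd_card_h9 hodd
  obtain ⟨H₁, ⟨e₁⟩, hx₁, hw₁, hy₁⟩ := psl2_A5_of_tau_mem_h9 hodd ico11_c1_h9 ico11_t_h9
  obtain ⟨H₂, ⟨e₂⟩, hx₂, hw₂, hy₂⟩ := psl2_A5_of_tau_mem_h9 hodd ico11_c2_h9 ico11_t_h9
  obtain ⟨V, hV, hJV, hyV, -, helems⟩ := psl2_klein_of_T_h9 h2 _
    (icoY_mem_T_h9 ico11_c1_h9 ico11_t_h9)
  have hy₁' : (QuotientGroup.mk (icoY_h9 ico11_c1_h9 ico11_t_h9) :
      Matrix.ProjectiveSpecialLinearGroup (Fin 2) (ZMod 11)) ∈ H₂ := by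
    have e : (QuotientGroup.mk (icoY_h9 ico11_c1_h9 ico11_t_h9) :
        Matrix.ProjectiveSpecialLinearGroup (Fin 2) (ZMod 11)) =
        (QuotientGroup.mk (sl2J_h9 (ZMod 11)))⁻¹ *
          QuotientGroup.mk (icoY_h9 ico11_c2_h9 ico11_t_h9) := by
      rw [ico11_YY_h9, QuotientGroup.mk_mul]; group
    rw [e]; exact H₂.mul_mem (H₂.inv_mem hw₂) hy₂
  refine ⟨H₁, H₂, V, ⟨e₁⟩, ⟨e₂⟩, ?_, hV.card_four, ?_, ?_⟩
  · intro heq
    have hx₂' : (QuotientGroup.mk (icoX_h9 ico11_c2_h9) :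
        Matrix.ProjectiveSpecialLinearGroup (Fin 2) (ZMod 11)) ∈ H₁ := by rw [heq]; exact hx₂
    have hmem := H₁.mul_mem (H₁.mul_mem hx₂' hx₁) hx₂'
    rw [← QuotientGroup.mk_mul, ← QuotientGroup.mk_mul] at hmem
    have hpow : (QuotientGroup.mk
        (icoX_h9 ico11_c2_h9 * icoX_h9 ico11_c1_h9 * icoX_h9 ico11_c2_h9) :
        Matrix.ProjectiveSpecialLinearGroup (Fin 2) (ZMod 11)) ^ 11 = 1 := by
      rw [← QuotientGroup.mk_pow, ico11_pow_h9, psl2_mk_neg_h9]; rfl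
    have hne : (QuotientGroup.mk
        (icoX_h9 ico11_c2_h9 * icoX_h9 ico11_c1_h9 * icoX_h9 ico11_c2_h9) :
        Matrix.ProjectiveSpecialLinearGroup (Fin 2) (ZMod 11)) ≠ 1 := by
      intro h
      rw [show (1 : Matrix.ProjectiveSpecialLinearGroup (Fin 2) (ZMod 11))
        = QuotientGroup.mk (1 : SL(2, ZMod 11)) from rfl, psl2_mk_eq_iff_h9] at h
      rcases h with h | h
      · exact ico11_ne_h9.1 h
      · exact ico11_ne_h9.2 h
    have hord := orderOf_eq_prime hpow hne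
    have hdvd := Subgroup.orderOf_dvd_natCard H₁ hmem
    rw [hord, Nat.card_congr e₁.toEquiv, card_A5_h9] at hdvd
    omega
  · intro v hv
    rcases helems v hv with h | h | h | h
    · rw [h]; exact H₁.one_mem
    · rw [h]; exact hw₁
    · rw [h]; exact hy₁
    · rw [h]; exact H₁.mul_mem hw₁ hy₁
  · intro v hv
    rcases helems v hv with h | h | h | h
    · rw [h]; exact H₂.one_mem
    · rw [h]; exact hw₂
    · rw [h]; exact hy₁'
    · rw [h]; exact H₂.mul_mem hw₂ hy₁'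

/-- two distinct `A₅`-subgroups of `PSL(2, F)`, `|F| = 11`, sharing a four-group. -/
theorem psl2_11_pair_h9 {F : Type*} [Field F] [Fintype F] (hF : Fintype.card F = 11) :
    ∃ H₁ H₂ V₀ : Subgroup (Matrix.ProjectiveSpecialLinearGroup (Fin 2) F),
      Nonempty (H₁ ≃* alternatingGroup (Fin 5)) ∧ Nonempty (H₂ ≃* alternatingGroup (Fin 5)) ∧
      H₁ ≠ H₂ ∧ Nat.card V₀ = 4 ∧ V₀ ≤ H₁ ∧ V₀ ≤ H₂ := by
  have h11 : ((11 : ℕ) : F) = 0 := by
    have := Nat.cast_card_eq_zero F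
    rw [hF] at this
    exact this
  haveI : CharP F 11 := (CharP.charP_iff_prime_eq_zero (by norm_num)).mpr h11
  obtain ⟨H₁, H₂, V₀, ⟨e₁⟩, ⟨e₂⟩, hne, hV, h1, h2⟩ := psl2_11_pair_zmod_h9
  obtain ⟨e⟩ := psl2Sub_equiv_h9 (ZMod.castHom (dvd_refl 11) F)
  obtain ⟨φ, hφ⟩ : ∃ φ : Matrix.ProjectiveSpecialLinearGroup (Fin 2) (ZMod 11) →*
      Matrix.ProjectiveSpecialLinearGroup (Fin 2) F, Function.Injective φ :=
    ⟨(Subgroup.subtype _).comp e.symm.toMonoidHom,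
      (Subgroup.subtype_injective _).comp e.symm.injective⟩
  refine ⟨H₁.map φ, H₂.map φ, V₀.map φ, ⟨(H₁.equivMapOfInjective φ hφ).symm.trans e₁⟩,
    ⟨(H₂.equivMapOfInjective φ hφ).symm.trans e₂⟩, ?_, ?_, Subgroup.map_mono h1,
    Subgroup.map_mono h2⟩
  · intro h; exact hne (Subgroup.map_injective hφ h)
  · rw [Subgroup.card_map_of_injective hφ, hV]

end Cfsg.Agent.Helper9
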