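import Mathlib
import Cfsg.Prelude.Def_LieRecognition

set_option autoImplicit false

namespace Cfsg.Agent.Helper9

section rankone

variable {G Ω : Type*} [Group G] [MulAction G Ω] {a : Ω} {t : G} {Q : Subgroup G}

theorem r1_inv (hS : Cfsg.IsRankOneSetup G Ω a t Q) : t⁻¹ = t :=
  inv_eq_of_mul_eq_one_left hS.mul_self

theorem r1_tta (hS : Cfsg.IsRankOneSetup G Ω a t Q) : t • t • a = a := by
  rw [← mul_smul, hS.mul_self, one_smul]

/-- `t` normalizes the two-point stabiliser -/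
theorem r1_conj_D (hS : Cfsg.IsRankOneSetup G Ω a t Q) {d : G}
    (hd : d ∈ MulAction.stabilizer G a ⊓ MulAction.stabilizer G (t • a)) :
    t * d * t ∈ MulAction.stabilizer G a ⊓ MulAction.stabilizer G (t • a) := by
  obtain ⟨h1, h2⟩ := Subgroup.mem_inf.mp hd
  rw [MulAction.mem_stabilizer_iff] at h1 h2
  refine Subgroup.mem_inf.mpr ⟨?_, ?_⟩
  · rw [MulAction.mem_stabilizer_iff, mul_smul, mul_smul, h2, r1_tta hS]
  · rw [MulAction.mem_stabilizer_iff, mul_smul, mul_smul, r1_tta hS, h1]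

theorem r1_D_le (hS : Cfsg.IsRankOneSetup G Ω a t Q) {d : G}
    (hd : d ∈ MulAction.stabilizer G a ⊓ MulAction.stabilizer G (t • a)) :
    d ∈ MulAction.stabilizer G a := (Subgroup.mem_inf.mp hd).1

theorem r1_conj_Q (hS : Cfsg.IsRankOneSetup G Ω a t Q) {d q : G}
    (hd : d ∈ MulAction.stabilizer G a ⊓ MulAction.stabilizer G (t • a)) (hq : q ∈ Q) :
    d * q * d⁻¹ ∈ Q := hS.conj_mem d (r1_D_le hS hd) q hq

theorem r1_conj_Q' (hS : Cfsg.IsRankOneSetup G Ω a t Q) {d q : G}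
    (hd : d ∈ MulAction.stabilizer G a ⊓ MulAction.stabilizer G (t • a)) (hq : q ∈ Q) :
    d⁻¹ * q * d ∈ Q := by
  have := hS.conj_mem d⁻¹ (Subgroup.inv_mem _ (r1_D_le hS hd)) q hq
  rwa [inv_inv] at this

/-- uniqueness of the canonical form `g h t f` -/
theorem r1_unique (hS : Cfsg.IsRankOneSetup G Ω a t Q) {g h f g' h' f' : G}
    (hg : g ∈ Q) (hh : h ∈ MulAction.stabilizer G a ⊓ MulAction.stabilizer G (t • a)) (hf : f ∈ Q)
    (hg' : g' ∈ Q) (hh' : h' ∈ MulAction.stabilizer G a ⊓ MulAction.stabilizer G (t • a))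
    (hf' : f' ∈ Q) (heq : g * h * t * f = g' * h' * t * f') : g = g' ∧ h = h' ∧ f = f' := by
  have ht := r1_inv hS
  have e1 : (g' * h')⁻¹ * (g * h) = t * (f' * f⁻¹) * t⁻¹ := by
    calc (g' * h')⁻¹ * (g * h) = (g' * h')⁻¹ * (g * h * t * f) * f⁻¹ * t⁻¹ := by group
      _ = (g' * h')⁻¹ * (g' * h' * t * f') * f⁻¹ * t⁻¹ := by rw [heq]
      _ = t * (f' * f⁻¹) * t⁻¹ := by group
  have hQa : ∀ q ∈ Q, q ∈ MulAction.stabilizer G a := fun q hq => hS.le hq
  have e2 : (g' * h')⁻¹ * (g * h) ∈ MulAction.stabilizer G a :=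
    Subgroup.mul_mem _ (Subgroup.inv_mem _ (Subgroup.mul_mem _ (hQa _ hg') (r1_D_le hS hh')))
      (Subgroup.mul_mem _ (hQa _ hg) (r1_D_le hS hh))
  rw [e1, MulAction.mem_stabilizer_iff, mul_smul, mul_smul] at e2
  have e3 : (f' * f⁻¹) • (t • a) = t • a := by
    have := congrArg (fun b => t • b) e2
    rw [← mul_smul t t, hS.mul_self, one_smul, ht] at this
    exact this
  have e4 : f' * f⁻¹ ∈ Q ⊓ MulAction.stabilizer G (t • a) :=
    Subgroup.mem_inf.mpr ⟨Q.mul_mem hf' (Q.inv_mem hf), MulAction.mem_stabilizer_iff.mpr e3⟩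
  rw [hS.inf_eq_bot, Subgroup.mem_bot] at e4
  have hff : f = f' := (mul_inv_eq_one.mp e4).symm
  subst hff
  have e5 : g * h = g' * h' := by
    have := congrArg (fun b => b * f⁻¹ * t⁻¹) heq
    calc g * h = g * h * t * f * f⁻¹ * t⁻¹ := by group
      _ = g' * h' * t * f * f⁻¹ * t⁻¹ := this
      _ = g' * h' := by group
  have e6 : g'⁻¹ * g = h' * h⁻¹ := by
    calc g'⁻¹ * g = g'⁻¹ * (g * h) * h⁻¹ := by group
      _ = g'⁻¹ * (g' * h') * h⁻¹ := by rw [e5]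
      _ = h' * h⁻¹ := by group
  have e7 : g'⁻¹ * g ∈ Q ⊓ MulAction.stabilizer G (t • a) := by
    refine Subgroup.mem_inf.mpr ⟨Q.mul_mem (Q.inv_mem hg') hg, ?_⟩
    rw [e6]
    exact Subgroup.mul_mem _ (Subgroup.mem_inf.mp hh').2 (Subgroup.inv_mem _ (Subgroup.mem_inf.mp hh).2)
  rw [hS.inf_eq_bot, Subgroup.mem_bot] at e7
  have hgg : g = g' := (inv_mul_eq_one.mp e7).symm
  subst hgg
  exact ⟨rfl, mul_left_cancel e5, rfl⟩

end rankone

end Cfsg.Agent.Helper9
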