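import Mathlib
import Cfsg.Prelude.Def_Transfer

set_option autoImplicit false

namespace Cfsg.Agent.Helper9

section residual

open scoped commutatorElement

variable {X : Type*} [Group X]

theorem orderOf_conj_eq' (g x : X) : orderOf (g * x * g⁻¹) = orderOf x := by
  have := orderOf_injective (MulAut.conj g).toMonoidHom (MulAut.conj g).injective x
  simpa [MulAut.conj_apply] using this

/-- `O^p(X)` is normal -/
theorem pResidual_normal (p : ℕ) : (Cfsg.pResidual p X).Normal := by
  constructor
  intro n hn g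
  unfold Cfsg.pResidual at hn ⊢
  induction hn using Subgroup.closure_induction with
  | mem x hx =>
    apply Subgroup.subset_closure
    show Nat.Coprime (orderOf (g * x * g⁻¹)) p
    rw [orderOf_conj_eq']
    exact hx
  | one => simp
  | mul x y _ _ hx hy =>
    have : g * (x * y) * g⁻¹ = (g * x * g⁻¹) * (g * y * g⁻¹) := by group
    rw [this]
    exact mul_mem hx hy
  | inv x _ hx =>
    have : g * x⁻¹ * g⁻¹ = (g * x * g⁻¹)⁻¹ := by group
    rw [this]
    exact inv_mem hx

variable [Finite X]

/-- if `X` is generated by its elements of odd order then a Sylow 2-subgroup lies in `X'` -/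
theorem sylow_le_commutator_of_pResidual (S : Sylow 2 X) (h : Cfsg.pResidual 2 X = ⊤) :
    (S : Subgroup X) ≤ commutator X := by
  have hfact : Fact (Nat.Prime 2) := ⟨Nat.prime_two⟩
  have key : ∀ x : X, Nat.Coprime (orderOf (Abelianization.of x)) 2 := by
    intro x
    have hx : x ∈ Cfsg.pResidual 2 X := by rw [h]; trivial
    unfold Cfsg.pResidual at hx
    induction hx using Subgroup.closure_induction with
    | mem x hx =>
      exact Nat.Coprime.coprime_dvd_left (orderOf_map_dvd Abelianization.of x) hx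
    | one => simp
    | mul x y _ _ hx hy =>
      rw [map_mul]
      have hc : Commute (Abelianization.of x) (Abelianization.of y) := mul_comm _ _
      exact Nat.Coprime.coprime_dvd_left (hc.orderOf_mul_dvd_lcm.trans (Nat.lcm_dvd_mul _ _))
        (Nat.Coprime.mul_left hx hy)
    | inv x _ hx =>
      rw [map_inv, orderOf_inv]
      exact hx
  intro s hs
  rw [← Abelianization.ker_of, MonoidHom.mem_ker]
  obtain ⟨k, hk⟩ := S.2 ⟨s, hs⟩
  have hk' : s ^ 2 ^ k = 1 := by
    have := congrArg Subtype.val hk
    simpa using this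
  have h1 : orderOf (Abelianization.of s) ∣ 2 ^ k :=
    (orderOf_map_dvd Abelianization.of s).trans (orderOf_dvd_of_pow_eq_one hk')
  have h2 : Nat.Coprime (orderOf (Abelianization.of s)) (2 ^ k) := (key s).pow_right k
  have h3 : orderOf (Abelianization.of s) = 1 := Nat.Coprime.eq_one_of_dvd h2 h1
  exact orderOf_eq_one_iff.mp h3

/-- if a Sylow 2-subgroup lies in `X'` then `X` is generated by its elements of odd order -/
theorem pResidual_eq_top_of_sylow_le (S : Sylow 2 X) (h : (S : Subgroup X) ≤ commutator X) :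
    Cfsg.pResidual 2 X = ⊤ := by
  have hfact : Fact (Nat.Prime 2) := ⟨Nat.prime_two⟩
  have hN : (Cfsg.pResidual 2 X).Normal := pResidual_normal 2
  by_contra hne
  -- the quotient is a 2-group
  have hP : IsPGroup 2 (X ⧸ Cfsg.pResidual 2 X) := by
    intro q
    obtain ⟨x, rfl⟩ := QuotientGroup.mk_surjective q
    have hpos : orderOf x ≠ 0 := (orderOf_pos x).ne'
    obtain ⟨k, m, hm, hkm⟩ := Nat.exists_eq_two_pow_mul_odd hpos
    refine ⟨k, ?_⟩
    rw [← QuotientGroup.mk_pow, QuotientGroup.eq_one_iff]
    apply Subgroup.subset_closure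
    show Nat.Coprime (orderOf (x ^ 2 ^ k)) 2
    have h1 : (x ^ 2 ^ k) ^ m = 1 := by
      rw [← pow_mul, ← hkm, pow_orderOf_eq_one]
    have h2 : orderOf (x ^ 2 ^ k) ∣ m := orderOf_dvd_of_pow_eq_one h1
    exact Nat.Coprime.coprime_dvd_left h2 (Nat.Coprime.symm (Nat.coprime_two_left.mpr hm))
  obtain ⟨k, hk⟩ := hP.exists_card_eq
  have hk1 : 1 ≤ k := by
    by_contra hk0
    have h0 : k = 0 := by omega
    rw [h0, pow_zero] at hk
    have hsub : Subsingleton (X ⧸ Cfsg.pResidual 2 X) := (Nat.card_eq_one_iff_unique.mp hk).1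
    apply hne
    rw [eq_top_iff]
    intro x _
    have := hsub.elim (x : X ⧸ Cfsg.pResidual 2 X) 1
    exact (QuotientGroup.eq_one_iff x).mp this
  have hdvd : 2 ^ (k - 1) ∣ Nat.card (X ⧸ Cfsg.pResidual 2 X) := by
    rw [hk]; exact pow_dvd_pow 2 (by omega)
  obtain ⟨K, hK⟩ := Sylow.exists_subgroup_card_pow_prime 2 hdvd
  have hidxK : K.index = 2 := by
    have h1 := K.card_mul_index
    rw [hK, hk] at h1
    have h2 : 2 ^ k = 2 ^ (k - 1) * 2 := by
      rw [← pow_succ]; congr 1; omega
    rw [h2] at h1
    exact Nat.eq_of_mul_eq_mul_left (by positivity) h1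
  have hidx : (K.comap (QuotientGroup.mk' (Cfsg.pResidual 2 X))).index = 2 :=
    (Subgroup.index_comap_of_surjective K (QuotientGroup.mk'_surjective _)).trans hidxK
  -- the commutator subgroup lies in M
  have hcomm : commutator X ≤ K.comap (QuotientGroup.mk' (Cfsg.pResidual 2 X)) := by
    rw [_root_.commutator_def, Subgroup.commutator_le]
    intro a _ b _
    have e : ⁅a, b⁆ = (a * b) * (a⁻¹ * b⁻¹) := by
      rw [commutatorElement_def]; group
    rw [e, Subgroup.mul_mem_iff_of_index_two hidx, Subgroup.mul_mem_iff_of_index_two hidx,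
      Subgroup.mul_mem_iff_of_index_two hidx, inv_mem_iff, inv_mem_iff]
  have hSM : (S : Subgroup X) ≤ K.comap (QuotientGroup.mk' (Cfsg.pResidual 2 X)) := h.trans hcomm
  have h2 := Subgroup.index_dvd_of_le hSM
  rw [hidx] at h2
  exact S.not_dvd_index h2

end residual

end Cfsg.Agent.Helper9
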