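import Mathlib
import Cfsg.Prelude.Def_Characters
import Cfsg.Prelude.Def_Blocks

set_option autoImplicit false

namespace Cfsg.Agent.S4485P

universe u

/-- card of the Sylow subgroup seen inside an overgroup `K`. -/
theorem h9_card_subtype {G : Type u} [Group G] {p : ℕ} (P : Sylow p G) (K : Subgroup G)
    (hPK : (P : Subgroup G) ≤ K) :
    Nat.card (P.subtype hPK : Sylow p K) = Nat.card P := by
  have h : ((P.subtype hPK : Sylow p K) : Subgroup K) = (P : Subgroup G).subgroupOf K :=
    Sylow.coe_subtype P hPK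
  have e : ((P : Subgroup G).subgroupOf K) ≃* (P : Subgroup G) :=
    Subgroup.subgroupOfEquivOfLe hPK
  calc Nat.card (P.subtype hPK : Sylow p K)
      = Nat.card ((P.subtype hPK : Sylow p K) : Subgroup K) := rfl
    _ = Nat.card ((P : Subgroup G).subgroupOf K) := by rw [h]
    _ = Nat.card (P : Subgroup G) := Nat.card_congr e.toEquiv
    _ = Nat.card P := rfl

/-- the uniform-centralizer hypothesis passes to an overgroup `K` of `P`. -/
theorem h9_hstar_subtype {G : Type u} [Group G] {p : ℕ} (P : Sylow p G) (K : Subgroup G)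
    (hPK : (P : Subgroup G) ≤ K)
    (hstar : ∀ x ∈ (P : Subgroup G), x ≠ 1 →
      Subgroup.centralizer ({x} : Set G) = Subgroup.centralizer ((P : Subgroup G) : Set G)) :
    ∀ x ∈ ((P.subtype hPK : Sylow p K) : Subgroup K), x ≠ 1 →
      Subgroup.centralizer ({x} : Set K) =
        Subgroup.centralizer (((P.subtype hPK : Sylow p K) : Subgroup K) : Set K) := by
  intro x hx hx1
  have hmem : ∀ y : K, y ∈ ((P.subtype hPK : Sylow p K) : Subgroup K) ↔ (y : G) ∈ (P : Subgroup G) := by
    intro y
    rw [Sylow.coe_subtype, Subgroup.mem_subgroupOf]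
  have hxP : (x : G) ∈ (P : Subgroup G) := (hmem x).1 hx
  have hx1' : (x : G) ≠ 1 := fun h => hx1 (Subtype.ext h)
  have hs := hstar (x : G) hxP hx1'
  ext k
  rw [Subgroup.mem_centralizer_iff, Subgroup.mem_centralizer_iff]
  constructor
  · intro hk y hy
    have hyP : (y : G) ∈ (P : Subgroup G) := (hmem y).1 hy
    have hkc : (k : G) ∈ Subgroup.centralizer ({(x : G)} : Set G) := by
      rw [Subgroup.mem_centralizer_iff]
      intro z hz
      rw [Set.mem_singleton_iff] at hz
      subst hz
      have := hk x (Set.mem_singleton x)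
      exact congrArg Subtype.val this
    rw [hs, Subgroup.mem_centralizer_iff] at hkc
    exact Subtype.ext (hkc (y : G) hyP)
  · intro hk y hy
    rw [Set.mem_singleton_iff] at hy
    subst hy
    exact hk y hx

/-- a normal Sylow subgroup of a normal subgroup is normal. -/
theorem h9_normal_of_subtype {G : Type u} [Group G] [Finite G] {p : ℕ} (hp : p.Prime)
    (P : Sylow p G) (K : Subgroup G) (hK : K.Normal) (hPK : (P : Subgroup G) ≤ K)
    (hN : ((P.subtype hPK : Sylow p K) : Subgroup K).Normal) : (P : Subgroup G).Normal := by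
  haveI : Fact p.Prime := ⟨hp⟩
  haveI := hK
  haveI hchar : ((P.subtype hPK : Sylow p K) : Subgroup K).Characteristic :=
    Sylow.characteristic_of_normal (P.subtype hPK) hN
  have hmap : (((P.subtype hPK : Sylow p K) : Subgroup K).map K.subtype) = (P : Subgroup G) := by
    rw [Sylow.coe_subtype]
    exact Subgroup.map_subgroupOf_eq_of_le hPK
  have hnorm : (((P.subtype hPK : Sylow p K) : Subgroup K).map K.subtype).Normal :=
    ConjAct.normal_of_characteristic_of_normal
  rw [hmap] at hnorm
  exact hnorm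

/-- The induction wrapper for S4485, with the character theory abstracted. -/
theorem h9_wrapper_aux (p : ℕ) (hp : p.Prime)
    (key : ∀ (G : Type u) [Group G] [Finite G] (P : Sylow p G), p ∣ Nat.card G →
      (∀ x ∈ (P : Subgroup G), x ≠ 1 →
        Subgroup.centralizer ({x} : Set G) = Subgroup.centralizer ((P : Subgroup G) : Set G)) →
      ∀ n : ℕ, Nat.card P = p ^ n → ∀ χ : G → ℂ, Cfsg.IsCharacter G χ →
      (∀ g : G, χ g = χ 1 → g = 1) → Cfsg.charDegree χ ^ 2 + 1 < p ^ n →
      (∃ K : Subgroup G, K.Normal ∧ K ≠ ⊤ ∧ (P : Subgroup G) ≤ K) ∨ (∀ g h : G, g * h = h * g))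
    (restr : ∀ (G : Type u) [Group G] [Finite G] (K : Subgroup G) (χ : G → ℂ),
      Cfsg.IsCharacter G χ → Cfsg.IsCharacter K (fun k : K => χ (k : G))) :
    ∀ (N : ℕ) (G : Type u) [Group G] [Finite G], Nat.card G = N → p ∣ Nat.card G →
      ∀ (P : Sylow p G),
      (∀ x ∈ (P : Subgroup G), x ≠ 1 →
        Subgroup.centralizer ({x} : Set G) = Subgroup.centralizer ((P : Subgroup G) : Set G)) →
      ∀ n : ℕ, Nat.card P = p ^ n → ∀ χ : G → ℂ, Cfsg.IsCharacter G χ →
      (∀ g : G, χ g = χ 1 → g = 1) → Cfsg.charDegree χ ^ 2 + 1 < p ^ n →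
      (P : Subgroup G).Normal := by
  intro N
  induction N using Nat.strong_induction_on with
  | _ N ih =>
    intro G _ _ hN hpG P hstar n hn χ hχ hfaith hdeg
    rcases key G P hpG hstar n hn χ hχ hfaith hdeg with ⟨K, hKn, hKtop, hPK⟩ | hab
    · have hlt : Nat.card K < N := by
        rw [← hN]
        refine lt_of_le_of_ne (Subgroup.card_le_card_group K) ?_
        intro h
        exact hKtop ((Subgroup.card_eq_iff_eq_top K).1 h)
      have hcard := h9_card_subtype P K hPK
      have hpK : p ∣ Nat.card K := by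
        have h1 : p ∣ Nat.card P := by
          rw [hn]
          have hn0 : n ≠ 0 := by
            rintro rfl
            simp at hdeg
          exact dvd_pow_self p hn0
        have h2 : Nat.card (P : Subgroup G) ∣ Nat.card K := Subgroup.card_dvd_of_le hPK
        exact dvd_trans h1 h2
      have hres := ih (Nat.card K) hlt K rfl hpK (P.subtype hPK) (h9_hstar_subtype P K hPK hstar) n
        (by rw [hcard, hn]) (fun k : K => χ (k : G)) (restr G K χ hχ)
        (by
          intro k hk
          have := hfaith (k : G) hk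
          exact Subtype.ext this)
        (by
          have : Cfsg.charDegree (fun k : K => χ (k : G)) = Cfsg.charDegree χ := rfl
          rw [this]; exact hdeg)
      exact h9_normal_of_subtype hp P K hKn hPK hres
    · exact ⟨fun x hx g => by rw [hab g x, mul_inv_cancel_right]; exact hx⟩

/-- The induction wrapper for S4485 (final shape). -/
theorem h9_wrapper (p : ℕ) (hp : p.Prime)
    (key : ∀ (G : Type u) [Group G] [Finite G] (P : Sylow p G), p ∣ Nat.card G →
      (∀ x ∈ (P : Subgroup G), x ≠ 1 →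
        Subgroup.centralizer ({x} : Set G) = Subgroup.centralizer ((P : Subgroup G) : Set G)) →
      ∀ n : ℕ, Nat.card P = p ^ n → ∀ χ : G → ℂ, Cfsg.IsCharacter G χ →
      (∀ g : G, χ g = χ 1 → g = 1) → Cfsg.charDegree χ ^ 2 + 1 < p ^ n →
      (∃ K : Subgroup G, K.Normal ∧ K ≠ ⊤ ∧ (P : Subgroup G) ≤ K) ∨ (∀ g h : G, g * h = h * g))
    (restr : ∀ (G : Type u) [Group G] [Finite G] (K : Subgroup G) (χ : G → ℂ),
      Cfsg.IsCharacter G χ → Cfsg.IsCharacter K (fun k : K => χ (k : G)))
    {G : Type u} [Group G] [Finite G] (hpG : p ∣ Nat.card G) (P : Sylow p G)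
    (hstar : ∀ x ∈ (P : Subgroup G), x ≠ 1 →
      Subgroup.centralizer ({x} : Set G) = Subgroup.centralizer ((P : Subgroup G) : Set G))
    (n : ℕ) (hn : Nat.card P = p ^ n) (χ : G → ℂ) (hχ : Cfsg.IsCharacter G χ)
    (hfaith : ∀ g : G, χ g = χ 1 → g = 1) (hdeg : Cfsg.charDegree χ ^ 2 + 1 < p ^ n) :
    (P : Subgroup G).Normal :=
  h9_wrapper_aux p hp key restr (Nat.card G) G rfl hpG P hstar n hn χ hχ hfaith hdeg

end Cfsg.Agent.S4485P
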